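import Cfsg.Agent.Asch.Linear
import Cfsg.Agent.H8.Proper
import Cfsg.Agent.H7.FormInSL
import Cfsg.Agent.H7.LinRed
import Cfsg.Agent.H7.Inst

/-!
The special linear group in dimension at least three is contained in none of the geometric
subgroups.
-/

set_option autoImplicit false
set_option linter.unusedSectionVars false

namespace Cfsg.Agent.H5.SL

open Module Cfsg.Geo Cfsg.Agent.H7 Cfsg.Agent.Asch
open scoped MatrixGroups Matrix Kronecker

variable {ι : Type} [Fintype ι] [DecidableEq ι] {F : Type*} [Field F]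

/-- The special linear group is transitive on non-zero vectors. -/
theorem exists_mulVec_eq (hn : 2 ≤ Fintype.card ι) {x y : ι → F} (hx : x ≠ 0) (hy : y ≠ 0) :
    ∃ g ∈ specialLinear ι F, (g : Matrix ι ι F) *ᵥ x = y := by
  obtain ⟨t, -, ht, -, htx⟩ := exists_tv_move' (X := ⊤)
    (fun φ v h => tv_of_forall h fun _ _ _ => trivial) (U := (⊥ : Submodule F (ι → F))) (v := y)
    (v' := x) (by simpa using hy) (by simpa using hx) (by simpa using hn)
  exact ⟨toLE.symm t, (mem_specialLinear_iff _).2 (by simpa using ht),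
    by rw [H8.toLE_symm_mulVec, htx]⟩

theorem mem_of_invariant (hn : 2 ≤ Fintype.card ι) {S : Set (ι → F)}
    (hS : ∀ g ∈ specialLinear ι F, ∀ x ∈ S, (g : Matrix ι ι F) *ᵥ x ∈ S) {x : ι → F} (hx : x ∈ S)
    (hx0 : x ≠ 0) {y : ι → F} (hy : y ≠ 0) : y ∈ S := by
  obtain ⟨g, hg, rfl⟩ := exists_mulVec_eq hn hx0 hy
  exact hS g hg x hx

/-- The commutator of a non-scalar element with a suitable transvection is a non-trivial
unipotent element. -/
theorem exists_unipotent_commutator (hn : 3 ≤ Fintype.card ι) (x : GL ι F)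
    (hx : ¬ ∃ c : F, (x : Matrix ι ι F) = c • 1) :
    ∃ t ∈ specialLinear ι F, ((t * x * t⁻¹ * x⁻¹ : GL ι F) : Matrix ι ι F) - 1 ≠ 0 ∧
      (((t * x * t⁻¹ * x⁻¹ : GL ι F) : Matrix ι ι F) - 1) ^ 3 = 0 := by
  obtain ⟨v, hv⟩ := H8.exists_not_eigen hx
  obtain ⟨u, -, hu⟩ := exists_notMem_of_finrank_lt
    (U := (F ∙ v) ⊔ F ∙ ((x : Matrix ι ι F) *ᵥ v)) (W := ⊤) (by
      have h1 := finrank_sup_span_le (F ∙ v) ((x : Matrix ι ι F) *ᵥ v)
      have h2 := finrank_span_singleton_le (F := F) v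
      rw [finrank_top, finrank_fintype_fun_eq_card]; omega)
  obtain ⟨φ, hφ, hφ0⟩ := exists_dual_one hu
  have h1 : φ v = 0 := hφ0 _ (Submodule.mem_sup_left (Submodule.mem_span_singleton_self _))
  have h2 : φ ((x : Matrix ι ι F) *ᵥ v) = 0 :=
    hφ0 _ (Submodule.mem_sup_right (Submodule.mem_span_singleton_self _))
  let t : GL ι F := toLE.symm (LinearEquiv.transvection h1)
  have ht : ∀ z, (t : Matrix ι ι F) *ᵥ z = z + φ z • v := fun z => by
    rw [H8.toLE_symm_mulVec]; rfl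
  have ht' : ∀ z, ((t⁻¹ : GL ι F) : Matrix ι ι F) *ᵥ z = z - φ z • v := fun z => by
    have : (t : Matrix ι ι F) *ᵥ (z - φ z • v) = z := by rw [ht]; simp [h1]
    conv_lhs => rw [← this]
    rw [inv_mulVec_mulVec]
  set N := ((t * x * t⁻¹ * x⁻¹ : GL ι F) : Matrix ι ι F) - 1 with hN
  have hNz : ∀ z, N *ᵥ z = φ z • v -
      φ (((x⁻¹ : GL ι F) : Matrix ι ι F) *ᵥ z) • ((x : Matrix ι ι F) *ᵥ v) := fun z => by
    rw [hN, Matrix.sub_mulVec, Matrix.one_mulVec, Units.val_mul, Units.val_mul, Units.val_mul,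
      ← Matrix.mulVec_mulVec, ← Matrix.mulVec_mulVec, ← Matrix.mulVec_mulVec, ht', Matrix.mulVec_sub,
      mulVec_inv_mulVec, Matrix.mulVec_smul, ht]
    simp only [map_sub, map_smul, h2, smul_zero, sub_zero]
    abel
  refine ⟨t, (mem_specialLinear_iff _).2 (by simpa [t] using transvection_mem_SLV h1), fun h0 => ?_,
    Matrix.ext_iff_mulVec.2 fun z => ?_⟩
  · have h3 := hNz u
    rw [hN, h0, Matrix.zero_mulVec, hφ, one_smul, eq_comm, sub_eq_zero] at h3
    apply hv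
    by_cases hc : φ (((x⁻¹ : GL ι F) : Matrix ι ι F) *ᵥ u) = 0
    · rw [hc, zero_smul] at h3
      rw [h3]; simp
    · refine Submodule.mem_span_singleton.2 ⟨(φ (((x⁻¹ : GL ι F) : Matrix ι ι F) *ᵥ u))⁻¹, ?_⟩
      conv_lhs => rw [h3]
      rw [smul_smul, inv_mul_cancel₀ hc, one_smul]
  · have h3 : N *ᵥ ((x : Matrix ι ι F) *ᵥ v) = 0 := by
      rw [hNz, h2, inv_mulVec_mulVec, h1]; simp
    have h4 : φ (N *ᵥ z) = 0 := by rw [hNz]; simp [h1, h2]
    rw [pow_three, ← Matrix.mulVec_mulVec, ← Matrix.mulVec_mulVec, hNz (N *ᵥ z), h4, zero_smul,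
      zero_sub, Matrix.mulVec_neg, Matrix.mulVec_smul, h3]
    simp

/-- (C1) -/
theorem not_le_subspaceStabilizer {W : Submodule F (ι → F)} (h0 : W ≠ ⊥) (h1 : W ≠ ⊤) :
    ¬ specialLinear ι F ≤ subspaceStabilizer W := fun hle => by
  obtain ⟨g, hg, hg'⟩ := exists_SLV_notMem_stab h0 h1
  refine hg' ?_
  have := (mem_subspaceStabilizer_iff W _).1 (hle ((mem_specialLinear_iff (toLE.symm g)).2
    (by simpa using hg)))
  simpa using this

theorem exists_ne_zero_of_decomp {t m : ℕ} {D : Fin t → Submodule F (ι → F)}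
    (hD : IsMDecomposition m D) (i : Fin t) : ∃ x ∈ D i, x ≠ 0 :=
  (Submodule.ne_bot_iff (D i)).1 fun h0 => by
    have := hD.finrank_eq i
    rw [h0, finrank_bot] at this
    exact absurd this hD.pos.ne

/-- (C2) -/
theorem not_le_decompositionStabilizer {t m : ℕ} {D : Fin t → Submodule F (ι → F)}
    (hD : IsMDecomposition m D) : ¬ specialLinear ι F ≤ decompositionStabilizer D := fun hle => by
  have ht := hD.two_le
  have hm := H8.IsMDecomposition.mul_eq hD
  have hm' := hD.pos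
  have hn : 2 ≤ Fintype.card ι := by nlinarith
  let i : Fin t := ⟨0, by omega⟩
  let j : Fin t := ⟨1, by omega⟩
  have hij : j ≠ i := by simp [i, j, Fin.ext_iff]
  obtain ⟨x, hx, hx0⟩ := exists_ne_zero_of_decomp hD i
  obtain ⟨y, hy, hy0⟩ := exists_ne_zero_of_decomp hD j
  have hmem : ∀ {k : Fin t} {z : ι → F}, z ∈ D k → k ≠ i → z ∈ ⨆ k, ⨆ (_ : k ≠ i), D k :=
    fun {k z} hz hk => Submodule.mem_iSup_of_mem k (Submodule.mem_iSup_of_mem hk hz)
  have hd := Submodule.disjoint_def.1 (hD.indep i)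
  have hxy : x + y ≠ 0 := fun h => hx0 (hd x hx (by
    rw [eq_neg_of_add_eq_zero_left h]; exact Submodule.neg_mem _ (hmem hy hij)))
  obtain ⟨k, hk⟩ : x + y ∈ {z | ∃ k, z ∈ D k} := mem_of_invariant hn (by
    rintro g hg z ⟨k, hk⟩
    obtain ⟨σ, hσ⟩ := hle hg
    exact ⟨σ k, hσ k ▸ Submodule.mem_map_of_mem (f := Matrix.toLin' (g : Matrix ι ι F)) hk⟩)
    (x := x) (by exact ⟨i, hx⟩) hx0 hxy
  by_cases hki : k = i
  · subst hki
    exact hy0 (hd y (by simpa using (D i).sub_mem hk hx) (hmem hy hij))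
  · exact hx0 (hd x hx (by simpa using Submodule.sub_mem _ (hmem hk hki) (hmem hy hij)))

/-- (C3) -/
theorem not_le_subalgebraNormalizer (hn : 3 ≤ Fintype.card ι) {r : ℕ} (hr : 2 ≤ r)
    {K : Subalgebra F (Matrix ι ι F)} (hK : IsFieldSubalgebra r K) :
    ¬ specialLinear ι F ≤ subalgebraNormalizer K := fun hle => by
  haveI : Nonempty ι := Fintype.card_pos_iff.1 (by omega)
  have h1 : finrank F K = 1 := finrank_eq_one_iff_scalar.2 fun z hz => by
    by_contra hs
    obtain ⟨y, hy, hzy⟩ := hK.inv z hz (by rintro rfl; exact hs ⟨0, by simp⟩)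
    let x : GL ι F := ⟨z, y, hzy, mul_eq_one_comm.1 hzy⟩
    obtain ⟨t, ht, h1, h2⟩ := exists_unipotent_commutator hn x hs
    have h3 : ((t * x * t⁻¹ * x⁻¹ : GL ι F) : Matrix ι ι F) - 1 ∈ K := by
      refine K.sub_mem ?_ K.one_mem
      rw [Units.val_mul]
      exact K.mul_mem ((hle ht z).1 hz) hy
    obtain ⟨w, -, hw⟩ := hK.inv _ h3 h1
    have h4 : IsUnit (((t * x * t⁻¹ * x⁻¹ : GL ι F) : Matrix ι ι F) - 1) :=
      ⟨⟨_, w, hw, mul_eq_one_comm.1 hw⟩, rfl⟩
    have h5 := h4.pow 3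
    rw [h2] at h5
    exact not_isUnit_zero h5
  have := hK.finrank_eq
  omega

/-- (C4) -/
theorem not_le_tensorProductSubgroup {a b : ℕ} (ha : 2 ≤ a) (hb : 2 ≤ b)
    (e : ι ≃ Fin a × Fin b) (P : GL ι F) :
    ¬ specialLinear ι F ≤ tensorProductSubgroup a b e P := fun hle => by
  have hn : 2 ≤ Fintype.card ι := by rw [card_eq_of_equiv_prod e]; nlinarith
  let i : Fin a := ⟨0, by omega⟩
  let i' : Fin a := ⟨1, by omega⟩
  let j : Fin b := ⟨0, by omega⟩
  let j' : Fin b := ⟨1, by omega⟩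
  have hi : i ≠ i' := by simp [i, i', Fin.ext_iff]
  have hj : j ≠ j' := by simp [j, j', Fin.ext_iff]
  let z : Fin a × Fin b → F := Pi.single (i, j) 1 + Pi.single (i', j') 1
  have hz : ∀ z : Fin a × Fin b → F, z (i, j) = 1 → trv e P z ≠ 0 := fun z h h0 => by
    have : z = 0 := (H8.trvE e P).map_eq_zero_iff.1 h0
    simp [this] at h
  obtain ⟨x, y, hxy⟩ : trv e P z ∈ {v | ∃ x y, v = trv e P (H8.pv x y)} := mem_of_invariant hn (by
    rintro g hg _ ⟨x, y, rfl⟩
    obtain ⟨A, B, hAB⟩ := (mem_tensorProductSubgroup e P g).1 (hle hg)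
    exact ⟨_, _, by rw [hAB, tr_mulVec, H8.kronecker_mulVec_pv]⟩)
    (x := trv e P (H8.pv 1 1)) (by exact ⟨1, 1, rfl⟩) (hz _ (by simp [H8.pv])) (hz _ (by simp [z, hi, hj]))
  have h := trv_injective e P hxy
  have h1 := congrFun h (i, j)
  have h2 := congrFun h (i', j')
  have h3 := congrFun h (i, j')
  simp [z, hi, hj, hi.symm, hj.symm, H8.pv] at h1 h2 h3
  rcases h3 with h3 | h3
  · simp [h3] at h1
  · simp [h3] at h2

/-- (C5) -/
theorem not_le_subfieldSubgroup (hn : 2 ≤ Fintype.card ι) {F₀ : Subfield F} (h0 : F₀ ≠ ⊤)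
    (P : GL ι F) : ¬ specialLinear ι F ≤ subfieldSubgroup F₀ P := fun hle => by
  obtain ⟨a, ha⟩ : ∃ a, a ∉ F₀ := by
    by_contra! h
    exact h0 (eq_top_iff.2 fun a _ => h a)
  obtain ⟨i, j, hij⟩ := Fintype.exists_pair_of_one_lt_card (α := ι) (by omega)
  have hz : ∀ z : ι → F, z i = 1 → (P : Matrix ι ι F) *ᵥ z ≠ 0 := fun z h h0 => by
    have := congrArg (((P⁻¹ : GL ι F) : Matrix ι ι F) *ᵥ ·) h0
    simp only [inv_mulVec_mulVec, Matrix.mulVec_zero] at this
    simp [this] at h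
  let z : ι → F := Pi.single i 1 + Pi.single j a
  obtain ⟨c, u, hu⟩ : (P : Matrix ι ι F) *ᵥ z ∈
      {v | ∃ (c : F) (u : ι → F₀), v = (P : Matrix ι ι F) *ᵥ (c • fun k => (u k : F))} :=
    mem_of_invariant hn (by
      rintro g hg _ ⟨c, u, rfl⟩
      obtain ⟨d, y, -, hy⟩ := (mem_subfieldSubgroup_iff F₀ P g).1 (hle hg)
      refine ⟨c * d, (y : Matrix ι ι F₀) *ᵥ u, ?_⟩
      have : (g : Matrix ι ι F) = cj P (d • (y : Matrix ι ι F₀).map F₀.subtype) := by
        rw [← hy, cj_cj_inv]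
      rw [this, cj_mulVec]
      congr 1
      ext k
      simp [Matrix.mulVec, dotProduct, Finset.mul_sum, mul_assoc, mul_left_comm])
      (x := (P : Matrix ι ι F) *ᵥ ((1 : F) • fun k => ((1 : ι → F₀) k : F)))
      (by exact ⟨1, 1, rfl⟩) (hz _ (by simp)) (hz _ (by simp [z, hij]))
  have h := congrArg (((P⁻¹ : GL ι F) : Matrix ι ι F) *ᵥ ·) hu
  simp only [inv_mulVec_mulVec] at h
  have h1 := congrFun h i
  have h2 := congrFun h j
  simp [z, hij, hij.symm] at h1 h2
  apply ha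
  have h3 : (u i : F) ≠ 0 := fun h => by simp [h] at h1
  have : a = u j / u i := by
    field_simp
    rw [h2]
    linear_combination -(u j : F) * h1
  rw [this]
  exact F₀.div_mem (u j).2 (u i).2

theorem ne_top_of_card [Fintype F] {F₀ : Subfield F} {r : ℕ} (hr : r.Prime)
    (h : Fintype.card F = Nat.card F₀ ^ r) : F₀ ≠ ⊤ := by
  rintro rfl
  have h1 : Nat.card (⊤ : Subfield F) = Fintype.card F := by
    rw [← Nat.card_eq_fintype_card]; exact Nat.card_congr Subfield.topEquiv.toEquiv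
  rw [h1] at h
  have h2 := Fintype.one_lt_card (α := F)
  have h3 := Nat.pow_lt_pow_right h2 hr.one_lt
  rw [pow_one] at h3
  omega

/-- (C6) -/
theorem not_le_subgroupNormalizer [Fintype F] (hn : 3 ≤ Fintype.card ι) {r : ℕ}
    {R : Subgroup (GL ι F)} (hR : IsLinearSymplecticTypeData r R) :
    ¬ specialLinear ι F ≤ subgroupNormalizer R := fun hle => by
  haveI : Nonempty ι := Fintype.card_pos_iff.1 (by omega)
  obtain ⟨p, e, hrp, ⟨hp, hchar, -⟩, -⟩ := hR.field
  haveI := Fact.mk hp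
  refine not_le_scalars_of_irred ((irred_iff R).2 hR.absIrred.1) (by omega) fun x hx => ?_
  by_contra hs
  obtain ⟨t, ht, h1, h2⟩ := exists_unipotent_commutator hn x
    fun ⟨c, hc⟩ => hs (mem_scalars_of_eq_smul hc)
  have h3 : t * x * t⁻¹ * x⁻¹ ∈ R :=
    R.mul_mem (gnorms_of_le_normalizer hle t ht x hx) (R.inv_mem hx)
  set y := t * x * t⁻¹ * x⁻¹
  obtain ⟨k, hk⟩ := hR.symplecticType.pGroup ⟨y, h3⟩
  have h4 : y ^ r ^ k = 1 := congrArg Subtype.val hk
  have h5 : y ^ p ^ 2 = 1 := by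
    apply Units.ext
    have h6 := add_pow_char_pow_of_commute p 2 (Commute.one_left ((y : Matrix ι ι F) - 1))
    have h7 : 3 ≤ p ^ 2 := by have := hp.two_le; nlinarith
    rw [add_sub_cancel, one_pow, pow_eq_zero_of_le h7 h2, add_zero] at h6
    rw [Units.val_pow_eq_pow_val, h6, Units.val_one]
  have h8 : Nat.Coprime (r ^ k) (p ^ 2) :=
    Nat.Coprime.pow _ _ ((Nat.coprime_primes hR.symplecticType.prime hp).2 hrp)
  have h9 : y = 1 := by
    rw [← orderOf_eq_one_iff]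
    exact Nat.eq_one_of_dvd_coprimes h8 (orderOf_dvd_of_pow_eq_one h4) (orderOf_dvd_of_pow_eq_one h5)
  exact h1 (by rw [h9, Units.val_one, sub_self])

/-- (C7) -/
theorem not_le_tensorWreathSubgroup {k t : ℕ} (hk : 2 ≤ k) (ht : 2 ≤ t)
    (e : ι ≃ (Fin t → Fin k)) (P : GL ι F) :
    ¬ specialLinear ι F ≤ tensorWreathSubgroup k t e P := fun hle => by
  let i : Fin k := ⟨0, by omega⟩
  let i' : Fin k := ⟨1, by omega⟩
  let j : Fin t := ⟨0, by omega⟩
  let j' : Fin t := ⟨1, by omega⟩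
  have hi : i ≠ i' := by simp [i, i', Fin.ext_iff]
  have hj : j ≠ j' := by simp [j, j', Fin.ext_iff]
  let a : Fin t → Fin k := fun _ => i
  let b : Fin t → Fin k := fun _ => i'
  have hab : a ≠ b := fun h => hi (congrFun h j)
  have hn : 2 ≤ Fintype.card ι := by
    rw [Fintype.card_congr e]; exact Fintype.one_lt_card_iff.2 ⟨a, b, hab⟩
  let z : (Fin t → Fin k) → F := Pi.single a 1 + Pi.single b 1
  have hz : ∀ z : (Fin t → Fin k) → F, z a = 1 → trv e P z ≠ 0 := fun z h h0 => by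
    have : z = 0 := (H8.trvE e P).map_eq_zero_iff.1 h0
    simp [this] at h
  obtain ⟨xs, hxs⟩ : trv e P z ∈ {v | ∃ xs, v = trv e P (H8.ptv xs)} := mem_of_invariant hn (by
    rintro g hg _ ⟨xs, rfl⟩
    obtain ⟨gs, σ, rfl⟩ := (mem_tensorWreathSubgroup e P g).1 (hle hg)
    refine ⟨fun i => (gs i : Matrix (Fin k) (Fin k) F) *ᵥ xs (σ.symm i), ?_⟩
    simp only [coe_trGL, tr_mulVec, Units.val_mul, ← Matrix.mulVec_mulVec,
      coe_fpGL, coe_ptGL, H8.fp_mulVec_ptv, H8.pt_mulVec_ptv, Function.comp_apply])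
    (x := trv e P (H8.ptv 1)) (by exact ⟨1, rfl⟩) (hz _ (by simp [H8.ptv])) (hz _ (by simp [z, hab]))
  have h := trv_injective e P hxs
  have h1 := congrFun h a
  have h2 := congrFun h b
  have h3 := congrFun h (Function.update a j i')
  have ha' : Function.update a j i' ≠ a := fun h => hi (by simpa [a] using (congrFun h j).symm)
  have hb' : Function.update a j i' ≠ b := fun h => hi (by simpa [a, b, hj.symm] using congrFun h j')
  simp only [z, Pi.add_apply, Pi.single_eq_same, Pi.single_eq_of_ne hab, Pi.single_eq_of_ne hab.symm,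
    Pi.single_eq_of_ne ha', Pi.single_eq_of_ne hb', add_zero, zero_add, H8.ptv] at h1 h2 h3
  obtain ⟨l, -, hl⟩ := Finset.prod_eq_zero_iff.1 h3.symm
  by_cases hlj : l = j
  · subst hlj
    rw [Function.update_self] at hl
    exact one_ne_zero (h2.trans (Finset.prod_eq_zero (Finset.mem_univ j) hl))
  · rw [Function.update_of_ne hlj] at hl
    exact one_ne_zero (h1.trans (Finset.prod_eq_zero (Finset.mem_univ l) hl))

theorem not_le_of_le_Sim [Finite F] (hn : 3 ≤ Fintype.card ι) (P : Polar F (ι → F)) {M : Subgroup (GL ι F)}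
    (hM : ∀ g ∈ M, toLE g ∈ P.Sim) : ¬ specialLinear ι F ≤ M := fun hle => by
  obtain ⟨g, hg, hg'⟩ := Polar.exists_SLV_notMem_Sim (P := P) (by simpa using hn)
  exact hg' (by simpa using hM _ (hle ((mem_specialLinear_iff (toLE.symm g)).2 (by simpa using hg))))

/-- (C8), symplectic -/
theorem not_le_symplectic [Finite F] (hn : 3 ≤ Fintype.card ι) {f : (ι → F) → (ι → F) → F}
    (hf : IsSymplecticForm f) : ¬ specialLinear ι F ≤ similarityGroup f :=
  not_le_of_le_Sim hn (spPolar hf) fun _ hg => hg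

/-- (C8), unitary -/
theorem not_le_unitary [Finite F] (hn : 3 ≤ Fintype.card ι) {σ : F ≃+* F} {f : (ι → F) → (ι → F) → F}
    (hf : IsUnitaryForm σ f) : ¬ specialLinear ι F ≤ similarityGroup f :=
  not_le_of_le_Sim hn (unitPolar hf) fun _ hg => hg

/-- (C8), orthogonal -/
theorem not_le_quad [Finite F] (hn : 3 ≤ Fintype.card ι) {Q : (ι → F) → F}
    (hQ : IsNondegenerateQuadraticForm Q) : ¬ specialLinear ι F ≤ quadSimilarityGroup Q :=
  not_le_of_le_Sim hn (oPolar hQ) fun g ⟨c, hc⟩ => ⟨c, fun x y => by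
    simp only [oPolar_B, toLE_apply, QuadraticMap.polar, ← Matrix.mulVec_add, hc]
    ring⟩

/-- The basic consequence of maximality. -/
theorem eq_inf_of_maximal {G : Type*} [Group G] {K H M : Subgroup G} (hH : IsMaximalIn K H)
    (hle : H ≤ M) (hM : ¬ K ≤ M) : H = M ⊓ K := by
  rcases hH.2 (M ⊓ K) (le_inf hle hH.1.le) inf_le_right with h | h
  · exact h.symm
  · exact absurd (h ▸ inf_le_left) hM

end Cfsg.Agent.H5.SL
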