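import Cfsg.Agent.H5.SUTools

/-!
Computable models of the fields with 4, 9 and 25 elements.
-/

set_option autoImplicit false
set_option linter.unusedSectionVars false
set_option maxRecDepth 100000

namespace Cfsg.Agent.H5.SU

open Module Cfsg.Geo Cfsg.Agent.H7 Cfsg.Agent.Asch
open scoped MatrixGroups Matrix Kronecker

/-- `x + y ω` is coded as `x + p y`, where `ω ^ 2 = a + b ω` -/
structure GF (p a b : ℕ) where
  /-- the code -/
  v : Fin (p * p)
deriving DecidableEq

namespace GF

variable {p a b : ℕ} [NeZero (p * p)]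

/-- the element with a given code -/
def of (n : ℕ) : GF p a b := ⟨⟨n.mod (p.mul p), Nat.mod_lt _ (NeZero.pos _)⟩⟩

instance : Fintype (GF p a b) :=
  Fintype.ofEquiv _ (⟨GF.mk, GF.v, fun _ => rfl, fun _ => rfl⟩ : Fin (p * p) ≃ GF p a b)

/-- addition of codes -/
def addN (p x y : ℕ) : ℕ := ((x.add y).mod p).add (p.mul ((x.div p).add (y.div p)))

/-- multiplication of codes -/
def mulN (p a b x y : ℕ) : ℕ := (((x.mul y).add (a.mul ((x.div p).mul (y.div p)))).mod p).add
  (p.mul ((x.mul (y.div p)).add ((x.div p).mul (y.add (b.mul (y.div p))))))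

/-- conjugation of codes -/
def cnjN (p b x : ℕ) : ℕ := ((x.add (b.mul (x.div p))).mod p).add (p.mul ((p.pred).mul (x.div p)))

instance : Zero (GF p a b) := ⟨of 0⟩
instance : One (GF p a b) := ⟨of 1⟩
instance : Add (GF p a b) := ⟨fun x y => of (addN p x.v.1 y.v.1)⟩
instance : Mul (GF p a b) := ⟨fun x y => of (mulN p a b x.v.1 y.v.1)⟩
instance : Neg (GF p a b) := ⟨fun x => of (mulN p a b p.pred x.v.1)⟩

/-- powers -/
def pw (x : GF p a b) : ℕ → GF p a b
  | 0 => 1
  | n + 1 => pw x n * x

instance : Inv (GF p a b) := ⟨fun x => pw x (p * p - 2)⟩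

/-- conjugation -/
def cnj (x : GF p a b) : GF p a b := of (cnjN p b x.v.1)

end GF

/-- the field with four elements -/
abbrev K4 := GF 2 1 1
/-- the field with nine elements -/
abbrev K9 := GF 3 1 2
/-- the field with twenty-five elements -/
abbrev K25 := GF 5 3 4

instance : Field K4 := Field.ofMinimalAxioms K4 (by decide +kernel) (by decide +kernel)
  (by decide +kernel) (by decide +kernel) (by decide +kernel) (by decide +kernel) (by decide +kernel)
  (by decide +kernel) (by decide +kernel) (by decide +kernel)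

instance : Field K9 := Field.ofMinimalAxioms K9 (by decide +kernel) (by decide +kernel)
  (by decide +kernel) (by decide +kernel) (by decide +kernel) (by decide +kernel) (by decide +kernel)
  (by decide +kernel) (by decide +kernel) (by decide +kernel)

instance : Field K25 := Field.ofMinimalAxioms K25 (by decide +kernel) (by decide +kernel)
  (by decide +kernel) (by decide +kernel) (by decide +kernel) (by decide +kernel) (by decide +kernel)
  (by decide +kernel) (by decide +kernel) (by decide +kernel)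

/-- conjugation of the field with four elements -/
def c4 : K4 ≃+* K4 where
  toFun := GF.cnj
  invFun := GF.cnj
  left_inv := by decide +kernel
  right_inv := by decide +kernel
  map_mul' := by decide +kernel
  map_add' := by decide +kernel

/-- conjugation of the field with nine elements -/
def c9 : K9 ≃+* K9 where
  toFun := GF.cnj
  invFun := GF.cnj
  left_inv := by decide +kernel
  right_inv := by decide +kernel
  map_mul' := by decide +kernel
  map_add' := by decide +kernel

/-- conjugation of the field with twenty-five elements -/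
def c25 : K25 ≃+* K25 where
  toFun := GF.cnj
  invFun := GF.cnj
  left_inv := by decide +kernel
  right_inv := by decide +kernel
  map_mul' := by decide +kernel
  map_add' := by decide +kernel

theorem exists_model {K F : Type*} [Field K] [Field F] [Fintype K] [Fintype F]
    (h : Fintype.card K = Fintype.card F) {τ : K ≃+* K} (hτ : ∀ a, τ (τ a) = a) {a : K} (ha : τ a ≠ a)
    {σ : F ≃+* F} (hσ : ∀ a, σ (σ a) = a) (hne : σ ≠ RingEquiv.refl F) :
    ∃ φ : K ≃+* F, ∀ x, φ (τ x) = σ (φ x) := by
  let φ := FiniteField.ringEquivOfCardEq h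
  have := invol_unique (τ := (φ.symm.trans τ).trans φ) (ρ := σ) (fun x => by simp [hτ]) hσ
    (fun h => ha (φ.injective (by simpa using DFunLike.congr_fun h (φ a)))) hne
  exact ⟨φ, fun x => by rw [← this]; simp⟩

variable {F : Type*} [Field F] [Fintype F] {σ : F ≃+* F}

theorem model4 (h : Fintype.card F = 2 ^ 2) (hσ : ∀ a, σ (σ a) = a) (hne : σ ≠ RingEquiv.refl F) :
    ∃ φ : K4 ≃+* F, ∀ x, φ (c4 x) = σ (φ x) :=
  exists_model (by rw [h]; decide +kernel) (by decide +kernel) (a := .of 2) (by decide +kernel) hσ hne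

theorem model9 (h : Fintype.card F = 3 ^ 2) (hσ : ∀ a, σ (σ a) = a) (hne : σ ≠ RingEquiv.refl F) :
    ∃ φ : K9 ≃+* F, ∀ x, φ (c9 x) = σ (φ x) :=
  exists_model (by rw [h]; decide +kernel) (by decide +kernel) (a := .of 3) (by decide +kernel) hσ hne

theorem model25 (h : Fintype.card F = 5 ^ 2) (hσ : ∀ a, σ (σ a) = a) (hne : σ ≠ RingEquiv.refl F) :
    ∃ φ : K25 ≃+* F, ∀ x, φ (c25 x) = σ (φ x) :=
  exists_model (by rw [h]; decide +kernel) (by decide +kernel) (a := .of 5) (by decide +kernel) hσ hne

section transport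

variable {K : Type*} [Field K] {κ : Type} [Fintype κ] [DecidableEq κ] {τ : K ≃+* K}

/-- change of field for invertible matrices -/
def glMap (φ : K ≃+* F) : GL κ K ≃* GL κ F := Units.mapEquiv (φ.mapMatrix (m := κ)).toMulEquiv

theorem coe_glMap (φ : K ≃+* F) (g : GL κ K) :
    ((glMap φ g : GL κ F) : Matrix κ κ F) = (g : Matrix κ κ K).map φ := rfl

theorem map_inj (φ : K ≃+* F) {x y : Matrix κ κ K} : x.map φ = y.map φ ↔ x = y :=
  (Matrix.map_injective φ.injective).eq_iff

theorem map_mul' (φ : K ≃+* F) (x y : Matrix κ κ K) : (x * y).map φ = x.map φ * y.map φ :=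
  Matrix.map_mul (f := (φ : K →+* F))

theorem map_pow' (φ : K ≃+* F) (x : Matrix κ κ K) (n : ℕ) : (x ^ n).map φ = x.map φ ^ n :=
  map_pow (φ.mapMatrix (m := κ)) x n

theorem map_one' (φ : K ≃+* F) : (1 : Matrix κ κ K).map φ = 1 := Matrix.map_one φ (map_zero φ) (map_one φ)

theorem glMap_mem_SUG {φ : K ≃+* F} (h : ∀ x, φ (τ x) = σ (φ x)) {Γ : Matrix κ κ K} {g : GL κ K} :
    glMap φ g ∈ SUG σ (Γ.map φ) ↔ g ∈ SUG τ Γ := by
  have h1 : ((g : Matrix κ κ K).map φ).map σ = ((g : Matrix κ κ K).map τ).map φ := by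
    ext i j; simp [h]
  have h2 : ((g : Matrix κ κ K).map φ).det = φ (g : Matrix κ κ K).det :=
    ((φ : K →+* F).map_det _).symm
  rw [mem_SUG', mem_SUG', coe_glMap, h1, ← Matrix.transpose_map, ← map_mul', ← map_mul', map_inj, h2,
    map_eq_one_iff φ φ.injective]

/-- transport of a maximal subgroup to coordinates over a model of the field -/
theorem max_model {ι : Type} [Fintype ι] [DecidableEq ι] {G : Matrix ι ι F} {H : Subgroup (GL ι F)}
    (hH : IsMaximalIn (SUG σ G) H) {φ : K ≃+* F} (h : ∀ x, φ (τ x) = σ (φ x)) (e : ι ≃ κ) (P : GL ι F)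
    {Γ : Matrix κ κ K} (hΓ : pbG σ e P G = Γ.map φ) :
    ∃ H' : Subgroup (GL κ K), IsMaximalIn (SUG τ Γ) H' ∧ ∀ g ∈ H', trGL e P (glMap φ g) ∈ H :=
  ⟨(H.comap (trGL e P).toMonoidHom).comap (glMap φ).toMonoidHom,
    max_comap (glMap φ) (fun _ => glMap_mem_SUG h) (hΓ ▸ max_frame hH e P), fun _ hg => hg⟩

end transport

end Cfsg.Agent.H5.SU
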