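import Cfsg.Agent.H5.SLMax

/-!
The monomial subgroup of `SL₄(5)` normalises a group of symplectic type.
-/

set_option autoImplicit false
set_option linter.unusedSectionVars false
set_option synthInstance.maxSize 2000

namespace Cfsg.Agent.H5.SL

open Module Cfsg.Geo Cfsg.Agent.H7 Cfsg.Agent.Asch
open scoped MatrixGroups Matrix Kronecker

variable {ι : Type} [Fintype ι] [DecidableEq ι] {F : Type*} [Field F]

/-- monomial action in the coordinates `ψ` -/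
def Mono {t : ℕ} (ψ : (ι → F) ≃ₗ[F] (Fin t → F)) (g : Matrix ι ι F) (σ : Equiv.Perm (Fin t))
    (d : Fin t → F) : Prop := ∀ v i, ψ (g *ᵥ v) (σ i) = d i * ψ v i

namespace Mono

variable {t : ℕ} {ψ : (ι → F) ≃ₗ[F] (Fin t → F)} {g g' : Matrix ι ι F} {σ σ' : Equiv.Perm (Fin t)}
  {d d' : Fin t → F}

theorem mul (h : Mono ψ g σ d) (h' : Mono ψ g' σ' d') :
    Mono ψ (g * g') (σ * σ') fun i => d (σ' i) * d' i := fun v i => by
  rw [← Matrix.mulVec_mulVec, Equiv.Perm.mul_apply, h, h', mul_assoc]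

theorem one : Mono ψ 1 1 1 := fun v i => by simp

theorem inv {g : GL ι F} (h : Mono ψ (g : Matrix ι ι F) σ d) (hd : ∀ i, d i ≠ 0) :
    Mono ψ ((g⁻¹ : GL ι F) : Matrix ι ι F) σ⁻¹ fun j => (d (σ⁻¹ j))⁻¹ := fun v j => by
  have := h (((g⁻¹ : GL ι F) : Matrix ι ι F) *ᵥ v) (σ⁻¹ j)
  rw [mulVec_inv_mulVec, show σ (σ⁻¹ j) = j from σ.apply_symm_apply j] at this
  rw [this, ← mul_assoc, inv_mul_cancel₀ (hd _), one_mul]

theorem eq_smul (h : Mono ψ g σ d) (h' : Mono ψ g' σ d') {c : F} (hc : ∀ i, d i = c * d' i) :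
    g = c • g' := Matrix.ext_iff_mulVec.2 fun v => ψ.injective <| funext fun j => by
  obtain ⟨i, rfl⟩ := σ.surjective j
  rw [h, Matrix.smul_mulVec, map_smul, Pi.smul_apply, h', hc, smul_eq_mul, mul_assoc]

theorem congr (h : Mono ψ g σ d) (h1 : σ = σ') : Mono ψ g σ' d := h1 ▸ h

theorem exists_gl (ψ : (ι → F) ≃ₗ[F] (Fin t → F)) (σ : Equiv.Perm (Fin t)) {d : Fin t → F}
    (hd : ∀ i, d i ≠ 0) : ∃ g : GL ι F, Mono ψ (g : Matrix ι ι F) σ d :=
  ⟨toLE.symm (ψ.trans ((LinearEquiv.piCongrRight fun i =>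
      LinearEquiv.smulOfNeZero F F (d i) (hd i)).trans
      ((LinearEquiv.funCongrLeft F F σ.symm).trans ψ.symm))), fun v i => by
    rw [H8.toLE_symm_mulVec]; simp [LinearMap.funLeft_apply]⟩

end Mono

/-- the multiplication table of the four-group -/
def xr (a j : Fin 4) : Fin 4 := ![![0, 1, 2, 3], ![1, 0, 3, 2], ![2, 3, 0, 1], ![3, 2, 1, 0]] a j

theorem xr_xr : ∀ a j, xr a (xr a j) = j := by decide

/-- the four-group of permutations -/
def kl (a : Fin 4) : Equiv.Perm (Fin 4) := Function.Involutive.toPerm (xr a) (xr_xr a)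

theorem kl_apply (a j : Fin 4) : kl a j = xr a j := rfl

theorem xr_comm : ∀ a b j, xr a (xr b j) = xr b (xr a j) := by decide

theorem xr_zero : ∀ a, xr a 0 = a := by decide

theorem kl_mul (a b : Fin 4) : kl a * kl b = kl (xr a b) := by
  revert a b; decide

theorem kl_comm (a b : Fin 4) : kl a * kl b = kl b * kl a := by
  revert a b; decide

theorem kl_inv (a : Fin 4) : (kl a)⁻¹ = kl a := rfl

theorem kl_zero : kl 0 = 1 := by decide

theorem kl_sq (a : Fin 4) : kl a * kl a = 1 := by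
  revert a; decide

theorem exists_conj : ∀ (π : Equiv.Perm (Fin 4)) (a : Fin 4), ∃ a', ∀ j, π (xr a j) = xr a' (π j) := by
  decide +kernel

/-- the characters of the four-group -/
def chi (F : Type*) [Field F] (b j : Fin 4) : F :=
  ![![1, 1, 1, 1], ![1, -1, 1, -1], ![1, 1, -1, -1], ![1, -1, -1, 1]] b j

theorem chi_ne_zero (b j : Fin 4) : chi F b j ≠ 0 := by
  fin_cases b <;> fin_cases j <;> simp [chi]

theorem chi_xr (b a j : Fin 4) : chi F b (xr a j) = chi F b a * chi F b j := by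
  fin_cases b <;> fin_cases a <;> fin_cases j <;> simp [chi, xr]

/-- the normalised group -/
def pauli (ψ : (ι → F) ≃ₗ[F] (Fin 4 → F)) : Subgroup (GL ι F) where
  carrier := {g | ∃ (a : Fin 4) (d : Fin 4 → F), (∀ i, d i ≠ 0) ∧
    (∀ b, ∃ ε, ∀ i, d (xr b i) = ε * d i) ∧ Mono ψ (g : Matrix ι ι F) (kl a) d}
  mul_mem' := by
    rintro g g' ⟨a, d, h1, h2, h3⟩ ⟨a', d', h1', h2', h3'⟩
    refine ⟨xr a a', _, fun i => mul_ne_zero (h1 _) (h1' _), fun b => ?_,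
      (h3.mul h3').congr (kl_mul a a')⟩
    obtain ⟨ε, hε⟩ := h2 b
    obtain ⟨ε', hε'⟩ := h2' b
    refine ⟨ε * ε', fun i => ?_⟩
    simp only [kl_apply]
    rw [xr_comm, hε, hε']; ring
  one_mem' := ⟨0, 1, fun _ => one_ne_zero, fun _ => ⟨1, fun _ => by simp⟩, Mono.one.congr kl_zero.symm⟩
  inv_mem' := by
    rintro g ⟨a, d, h1, h2, h3⟩
    refine ⟨a, _, fun i => inv_ne_zero (h1 _), fun b => ?_, h3.inv h1⟩
    obtain ⟨ε, hε⟩ := h2 b
    refine ⟨ε⁻¹, fun i => ?_⟩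
    simp only [kl_inv, kl_apply]
    rw [xr_comm, hε, mul_inv]

theorem eps_sq {d : Fin 4 → F} (h1 : ∀ i, d i ≠ 0) {b : Fin 4} {ε : F}
    (h : ∀ i, d (xr b i) = ε * d i) : ε * ε = 1 := by
  have := h (xr b 0)
  rw [xr_xr, h 0, ← mul_assoc] at this
  exact mul_right_cancel₀ (h1 0) (by rw [← this, one_mul])

variable {ψ : (ι → F) ≃ₗ[F] (Fin 4 → F)}

theorem pauli_sq {g : GL ι F} (hg : g ∈ pauli ψ) :
    ∃ ε d : F, ε * ε = 1 ∧ d ≠ 0 ∧ (g : Matrix ι ι F) * g = (ε * (d * d)) • 1 := by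
  obtain ⟨a, d, h1, h2, h3⟩ := hg
  obtain ⟨ε, hε⟩ := h2 a
  refine ⟨ε, d 0, eps_sq h1 hε, h1 0, ((h3.mul h3).congr (kl_sq a)).eq_smul Mono.one fun i => ?_⟩
  obtain ⟨η, hη⟩ := h2 i
  have h4 := hη 0
  rw [xr_zero] at h4
  simp only [kl_apply, hε, h4, Pi.one_apply]
  linear_combination (ε * d 0 * d 0) * eps_sq h1 hη

theorem pauli_absIrr (h2 : (2 : F) ≠ 0) : AbsIrr (pauli ψ) := fun x => by
  choose g hg using fun a b : Fin 4 => Mono.exists_gl ψ (kl a) (chi_ne_zero (F := F) b)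
  have hmem : ∀ a b, g a b ∈ pauli ψ := fun a b =>
    ⟨a, _, chi_ne_zero b, fun c => ⟨_, chi_xr b c⟩, hg a b⟩
  let X : Fin 4 → Fin 4 → F := fun j i => ψ (x *ᵥ ψ.symm (Pi.single i 1)) j
  have hX : ∀ v j, ψ (x *ᵥ v) j = ∑ i, X j i * ψ v i := fun v j => by
    have : v = ∑ i, ψ v i • ψ.symm (Pi.single i 1) := by
      apply ψ.injective
      simp only [map_sum, map_smul, LinearEquiv.apply_symm_apply]
      exact eq_sum_smul_single _
    conv_lhs => rw [this]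
    simp [Matrix.mulVec_sum, Matrix.mulVec_smul, X, mul_comm]
  have hg' : ∀ a b v j, ψ ((g a b : Matrix ι ι F) *ᵥ v) j = chi F b (xr a j) * ψ v (xr a j) :=
    fun a b v j => by rw [← hg a b v, kl_apply, xr_xr]
  have h4 : (4 : F) ≠ 0 := by rw [show (4 : F) = 2 * 2 by norm_num]; exact mul_ne_zero h2 h2
  have : x = ∑ a, ∑ b, (4⁻¹ * ∑ i, chi F b i * X (xr a i) i) • (g a b : Matrix ι ι F) := by
    refine Matrix.ext_iff_mulVec.2 fun v => ψ.injective (funext fun j => ?_)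
    simp only [Matrix.sum_mulVec, Matrix.smul_mulVec, map_sum, map_smul, Finset.sum_apply,
      Pi.smul_apply, hg', hX, smul_eq_mul]
    fin_cases j <;> simp [Fin.sum_univ_four, chi, xr] <;> field_simp <;> ring
  rw [this]
  exact Subalgebra.sum_mem _ fun a _ => Subalgebra.sum_mem _ fun b _ =>
    Subalgebra.smul_mem _ (coe_mem_spanAlg (hmem a b)) _

theorem pauli_rData (h2 : (2 : F) ≠ 0) : RData 2 (pauli ψ) where
  prime := Nat.prime_two
  abs := pauli_absIrr h2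
  comm := by
    rintro g ⟨a, d, h1, h2, h3⟩ g' ⟨a', d', h1', h2', h3'⟩
    obtain ⟨ε, hε⟩ := h2 a'
    obtain ⟨ε', hε'⟩ := h2' a
    refine ⟨ε * ε', (h3.mul h3').eq_smul ((h3'.mul h3).congr (kl_comm a' a)) fun i => ?_⟩
    simp only [kl_apply, hε, hε']
    linear_combination (-ε * d i * d' i) * eps_sq h1' hε'
  pow x hx := by
    obtain ⟨ε, d, -, -, h⟩ := pauli_sq hx
    exact mem_scalars_of_eq_smul (by rw [sq, Units.val_mul, h])

theorem key_five : ∀ a₀ a₁ a₂ a₃ : ZMod 5, (a₀ * a₁ * a₂ * a₃) ^ 2 = 1 → ∀ a b : Fin 4,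
    ∃ η : ZMod 5, ∀ i : Fin 4, ![a₀, a₁, a₂, a₃] (xr a (xr b i)) * ![a₀, a₁, a₂, a₃] i =
      η * (![a₀, a₁, a₂, a₃] (xr b i) * ![a₀, a₁, a₂, a₃] (xr a i)) := by
  decide +kernel

theorem key_five' [Fintype F] (hq : Fintype.card F = 5) (α : Fin 4 → F) (h : (∏ i, α i) ^ 2 = 1)
    (a b : Fin 4) : ∃ η : F, ∀ i, α (xr a (xr b i)) * α i = η * (α (xr b i) * α (xr a i)) := by
  let φ := ZMod.ringEquivOfPrime F Nat.prime_five hq
  have h1 : ∀ i, α i = φ (![φ.symm (α 0), φ.symm (α 1), φ.symm (α 2), φ.symm (α 3)] i) := by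
    intro i; fin_cases i <;> simp
  obtain ⟨η, hη⟩ := key_five (φ.symm (α 0)) (φ.symm (α 1)) (φ.symm (α 2)) (φ.symm (α 3)) (by
    rw [Fin.prod_univ_four] at h
    rw [← map_mul, ← map_mul, ← map_mul, ← map_pow, h, map_one]) a b
  refine ⟨φ η, fun i => ?_⟩
  rw [h1 (xr a (xr b i)), h1 i, h1 (xr b i), h1 (xr a i), ← map_mul, hη, map_mul, map_mul]

theorem conj_mem_pauli [Fintype F] (hq : Fintype.card F = 5) {h g : GL ι F} {π : Equiv.Perm (Fin 4)}
    {α : Fin 4 → F} (hα : ∀ i, α i ≠ 0) (hp : (∏ i, α i) ^ 2 = 1)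
    (hh : Mono ψ (h : Matrix ι ι F) π α) (hg : g ∈ pauli ψ) : h * g * h⁻¹ ∈ pauli ψ := by
  obtain ⟨a, d, h1, h2, h3⟩ := hg
  obtain ⟨a', ha'⟩ := exists_conj π a
  refine ⟨a', _, fun i => mul_ne_zero (mul_ne_zero (hα _) (h1 _)) (inv_ne_zero (hα _)), fun b => ?_,
    ((hh.mul h3).mul (hh.inv hα)).congr ?_⟩
  · obtain ⟨b', hb'⟩ := exists_conj π⁻¹ b
    obtain ⟨ε, hε⟩ := h2 b'
    obtain ⟨η, hη⟩ := key_five' hq α hp a b'
    refine ⟨ε * η, fun j => ?_⟩
    simp only [kl_apply, hb', hε]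
    have e1 := hα (xr b' (π⁻¹ j))
    have e2 := hα (π⁻¹ j)
    field_simp
    linear_combination (ε * d (π⁻¹ j)) * hη (π⁻¹ j)
  · ext j
    simp [kl_apply, ha']

/-- The monomial subgroup of `SL₄(5)`. -/
theorem lines_five [Fintype F] (hq : Fintype.card F = 5) {D : Fin 4 → Submodule F (ι → F)}
    (hD : IsMDecomposition 1 D) {H : Subgroup (GL ι F)} (hI : Irred H) (hH : H ≤ specialLinear ι F)
    (hle : H ≤ decompositionStabilizer D) :
    LinC5 H ∨ (∃ R, IsLinearSymplecticTypeData 2 R ∧ H ≤ subgroupNormalizer R) ∨ LinC8 H := by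
  have hn := H8.IsMDecomposition.mul_eq hD
  haveI : Nonempty ι := Fintype.card_pos_iff.1 (by omega)
  obtain ⟨ψ, hψ⟩ := exists_lineCoords hD
  have h2 : (2 : F) ≠ 0 := odd_card_iff.1 (by rw [hq]; decide)
  have hN : GNorms H (pauli ψ) := fun h hh g hg => by
    obtain ⟨π, α, h1, h2, h3⟩ := hψ h (hle hh)
    refine conj_mem_pauli hq h1 ?_ h2 hg
    have h4 : (h : Matrix ι ι F).det = 1 := congrArg Units.val (hH hh)
    have h5 : ((Equiv.Perm.sign π : ℤ) : F) ^ 2 = 1 := by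
      rw [sq, ← Int.cast_mul, ← Units.val_mul, Int.units_mul_self]; simp
    rw [← one_mul (_ ^ 2), ← h5, ← mul_pow, ← h3, h4, one_pow, h5]
  obtain ⟨R, hR⟩ := (pauli_rData (ψ := ψ) h2).exists_rSat fun x hx => ⟨1, by
    obtain ⟨ε, d, h1, h3, h4⟩ := pauli_sq hx
    have h5 := FiniteField.pow_card_sub_one_eq_one d h3
    rw [hq] at h5
    apply Units.ext
    rw [map_one, one_mul, show 2 * Nat.gcd 2 2 = 2 * 2 from rfl, pow_mul, Units.val_pow_eq_pow_val,
      Units.val_pow_eq_pow_val, sq (x : Matrix ι ι F), h4, smul_pow, one_pow,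
      show (ε * (d * d)) ^ 2 = 1 by linear_combination (d ^ 4) * h1 + h5, one_smul, Units.val_one]⟩
  rcases hR.linear hI (by omega) hN with h | h | h
  · exact Or.inl h
  · exact Or.inr (Or.inl ⟨R, h.1, (hR.norm H hN).le_normalizer⟩)
  · exact Or.inr (Or.inr h)

theorem card_ne_six [Fintype F] : Fintype.card F ≠ 6 := fun h => by
  obtain ⟨p, hp⟩ := CharP.exists F
  obtain ⟨e, hpp, he⟩ := FiniteField.card F p
  have h2 := eq_of_pow hpp Nat.prime_two (h.symm.trans he) (by norm_num)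
  have h3 := eq_of_pow hpp Nat.prime_three (h.symm.trans he) (by norm_num)
  omega

end Cfsg.Agent.H5.SL
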