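import Cfsg.Agent.H5.SLSmall

/-!
Maximal subgroups of the special linear groups: the list of cases.
-/

set_option autoImplicit false
set_option linter.unusedSectionVars false
set_option synthInstance.maxSize 2000

namespace Cfsg.Agent.H5.SL

open Module Cfsg.Geo Cfsg.Agent.H7 Cfsg.Agent.Asch
open scoped MatrixGroups Matrix Kronecker

variable {ι : Type} [Fintype ι] [DecidableEq ι] {F : Type*} [Field F] [Fintype F]

/-- class 8 with equality -/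
def Eq8 (H : Subgroup (GL ι F)) : Prop :=
  (Odd (Fintype.card F) ∧ ∃ Q : (ι → F) → F, IsNondegenerateQuadraticForm Q ∧
    H = quadSimilarityGroup Q ⊓ specialLinear ι F) ∨
  (Even (Fintype.card ι) ∧ ∃ f : (ι → F) → (ι → F) → F, IsSymplecticForm f ∧
    H = similarityGroup f ⊓ specialLinear ι F) ∨
  (∃ (σ : F ≃+* F) (f : (ι → F) → (ι → F) → F), IsUnitaryForm σ f ∧
    H = similarityGroup f ⊓ specialLinear ι F)

variable {H : Subgroup (GL ι F)}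

theorem eq8_of_linC8 (hH : IsMaximalIn (specialLinear ι F) H) (hn : 3 ≤ Fintype.card ι)
    (h : LinC8 H) : Eq8 H := by
  rcases h with ⟨f, h1, h2⟩ | ⟨σ, f, h1, h2⟩ | ⟨h1, Q, h2, h3⟩
  · exact Or.inr (Or.inl ⟨even_card_of_symplectic h1, f, h1,
      eq_inf_of_maximal hH h2 (not_le_symplectic hn h1)⟩)
  · exact Or.inr (Or.inr ⟨σ, f, h1, eq_inf_of_maximal hH h2 (not_le_unitary hn h1)⟩)
  · exact Or.inl ⟨h1, Q, h2, eq_inf_of_maximal hH h3 (not_le_quad hn h2)⟩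

theorem eq5_of_linC5 (hH : IsMaximalIn (specialLinear ι F) H) (hn : 3 ≤ Fintype.card ι)
    (h : LinC5 H) : ∃ (F₀ : Subfield F) (r : ℕ) (P : GL ι F), r.Prime ∧
      Fintype.card F = Nat.card F₀ ^ r ∧ H = subfieldSubgroup F₀ P ⊓ specialLinear ι F := by
  obtain ⟨F₀, r, P, h1, h2, h3⟩ := h
  exact ⟨F₀, r, P, h1, h2, eq_inf_of_maximal hH h3
    (not_le_subfieldSubgroup (by omega) (ne_top_of_card h1 h2) P)⟩

theorem maximal_cases (hH : IsMaximalIn (specialLinear ι F) H) (hn : 3 ≤ Fintype.card ι) :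
    (∃ W : Submodule F (ι → F), W ≠ ⊥ ∧ W ≠ ⊤ ∧ H = subspaceStabilizer W ⊓ specialLinear ι F) ∨
    (Irred H ∧ ∃ (t m : ℕ) (D : Fin t → Submodule F (ι → F)), IsMDecomposition m D ∧
      t * m = Fintype.card ι ∧ 2 ≤ t ∧ 1 ≤ m ∧ (m = 1 → 5 ≤ Fintype.card F) ∧
      (m = 2 → 3 ≤ Fintype.card F) ∧ H = decompositionStabilizer D ⊓ specialLinear ι F) ∨
    (∃ (r : ℕ) (K : Subalgebra F (Matrix ι ι F)), r.Prime ∧ r ∣ Fintype.card ι ∧
      IsFieldSubalgebra r K ∧ H = subalgebraNormalizer K ⊓ specialLinear ι F) ∨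
    (∃ (a b : ℕ) (e : ι ≃ Fin a × Fin b) (P : GL ι F), 2 ≤ a ∧ a < b ∧ a * b = Fintype.card ι ∧
      (a = 2 → 3 ≤ Fintype.card F) ∧ H = tensorProductSubgroup a b e P ⊓ specialLinear ι F) ∨
    (∃ (F₀ : Subfield F) (r : ℕ) (P : GL ι F), r.Prime ∧
      Fintype.card F = Nat.card F₀ ^ r ∧ H = subfieldSubgroup F₀ P ⊓ specialLinear ι F) ∨
    (∃ (r : ℕ) (R : Subgroup (GL ι F)), IsLinearSymplecticTypeData r R ∧
      (∃ m, Fintype.card ι = r ^ m) ∧ H = subgroupNormalizer R ⊓ specialLinear ι F) ∨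
    (∃ (m t : ℕ) (e : ι ≃ (Fin t → Fin m)) (P : GL ι F), 3 ≤ m ∧ 2 ≤ t ∧ m ^ t = Fintype.card ι ∧
      H = tensorWreathSubgroup m t e P ⊓ specialLinear ι F) ∨
    Eq8 H ∨ InLinearResidualClass H := by
  haveI : Nonempty ι := Fintype.card_pos_iff.1 (by omega)
  have hq := Fintype.one_lt_card (α := F)
  by_cases hI : Irred H
  swap
  · obtain ⟨W, h1, h2, h3⟩ := exists_invariant_of_not_irred hI
    exact Or.inl ⟨W, h1, h2, eq_inf_of_maximal hH (le_subspaceStabilizer h3)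
      (not_le_subspaceStabilizer h1 h2)⟩
  by_cases h8 : LinC8 H
  · iterate 7 right
    exact Or.inl (eq8_of_linC8 hH hn h8)
  right
  rcases hI.linear_structure hn with ⟨t, m, D, h1, h2⟩ | ⟨r, K, h1, h2, h3⟩ | ⟨a, b, e, P, h1, h2, h3⟩ |
    h | ⟨r, R, h1, h2, h3⟩ | ⟨m, t, e, P, h1, h2, h3⟩ | h | h
  · refine Or.inl ⟨hI, t, m, D, h1, H8.IsMDecomposition.mul_eq h1, h1.two_le, h1.pos, ?_, ?_,
      eq_inf_of_maximal hH h2 (not_le_decompositionStabilizer h1)⟩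
    · rintro rfl
      by_contra h5
      have : Fintype.card F = 2 ∨ Fintype.card F = 3 ∨ Fintype.card F = 4 := by omega
      rcases this with h | h | h
      · exact not_irred_lines_two h h1 h2 hI
      · exact h8 (linC8_lines_three h h1 hI (by omega) h2)
      · exact h8 (linC8_lines_four h h1 h2)
    · rintro rfl
      by_contra h5
      exact h8 (linC8_planes_two (by omega) h1 h2)
  · exact Or.inr (Or.inl ⟨r, K, h1, fieldSubalgebra_dvd h2, h2,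
      eq_inf_of_maximal hH h3 (not_le_subalgebraNormalizer hn h1.two_le h2)⟩)
  · by_cases h : a = 2 → 3 ≤ Fintype.card F
    · exact Or.inr (Or.inr (Or.inl ⟨a, b, e, P, h1, h2, (card_eq_of_equiv_prod e).symm, h,
        eq_inf_of_maximal hH h3 (not_le_tensorProductSubgroup h1 (by omega) e P)⟩))
    · push Not at h
      obtain ⟨rfl, h⟩ := h
      obtain ⟨K, hK, hle⟩ := tensor_two_le (F := F) (by omega) (by omega) e P
      exact Or.inr (Or.inl ⟨2, K, Nat.prime_two, fieldSubalgebra_dvd hK, hK,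
        eq_inf_of_maximal hH (h3.trans hle) (not_le_subalgebraNormalizer hn le_rfl hK)⟩)
  · exact Or.inr (Or.inr (Or.inr (Or.inl (eq5_of_linC5 hH hn h))))
  · exact Or.inr (Or.inr (Or.inr (Or.inr (Or.inl ⟨r, R, h1, h2,
      eq_inf_of_maximal hH h3 (not_le_subgroupNormalizer hn h1)⟩))))
  · exact Or.inr (Or.inr (Or.inr (Or.inr (Or.inr (Or.inl ⟨m, t, e, P, h1, h2,
      by rw [Fintype.card_congr e]; simp,
      eq_inf_of_maximal hH h3 (not_le_tensorWreathSubgroup (by omega) h2 e P)⟩)))))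
  · exact absurd h h8
  · iterate 7 right
    exact h

/-! ### numerics -/

theorem minimal_mod {z p e : ℕ} (h : IsMinimalFieldFor z p e F) (hz : 1 < z) :
    0 < e ∧ (p % z) ^ e % z = 1 ∧ ∀ d, d < e → 0 < d → (p % z) ^ d % z ≠ 1 := by
  have key : ∀ d, z ∣ p ^ d - 1 ↔ (p % z) ^ d % z = 1 := fun d => by
    rw [← Nat.pow_mod, ← Nat.modEq_iff_dvd' (Nat.one_le_pow _ _ h.1.pos), Nat.ModEq,
      Nat.mod_eq_of_lt hz, eq_comm]
  exact ⟨IsMinimalFieldFor.pos h, (key e).1 h.2.2.2.1, fun d h1 h2 h3 => h.2.2.2.2 d h2 h1 ((key d).2 h3)⟩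

theorem minimal_lt {z p e : ℕ} (h : IsMinimalFieldFor z p e F) (hz : z.Prime) : e < z := by
  obtain ⟨h1, h2, h3⟩ := minimal_mod h hz.one_lt
  by_contra he
  refine h3 (z - 1) (by have := hz.two_le; omega) (by have := hz.two_le; omega) ?_
  have h4 : Nat.Coprime (p % z) z := by
    rw [Nat.coprime_comm, hz.coprime_iff_not_dvd]
    intro h5
    rw [Nat.mod_eq_zero_of_dvd (dvd_pow h5 h1.ne')] at h2
    exact zero_ne_one h2
  have := Nat.ModEq.pow_totient h4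
  rw [Nat.totient_prime hz, Nat.ModEq, Nat.mod_eq_of_lt hz.one_lt] at this
  exact this

theorem odd_data {r : ℕ} {R : Subgroup (GL ι F)} (hR : IsLinearSymplecticTypeData r R) (hr : r ≠ 2) :
    ∃ p e : ℕ, p.Prime ∧ CharP F p ∧ Fintype.card F = p ^ e ∧ p % r < r ∧ e < r ∧ e % 2 = 1 ∧
      (p % r) ^ e % r = 1 ∧ ∀ d, d < e → 0 < d → (p % r) ^ d % r ≠ 1 := by
  obtain ⟨p, e, -, hmin, ⟨-, h1, h2, -⟩ | ⟨h, -⟩ | ⟨h, -⟩⟩ := hR.field
  · rw [h2] at hmin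
    have hr' := hR.symplecticType.prime
    obtain ⟨-, h3, h4⟩ := minimal_mod hmin hr'.one_lt
    exact ⟨p, e, hmin.1, hmin.2.1, hmin.2.2.1, Nat.mod_lt _ hr'.pos, minimal_lt hmin hr',
      Nat.odd_iff.1 h1, h3, h4⟩
  · exact absurd h hr
  · exact absurd h hr

theorem data_two {R : Subgroup (GL ι F)} (hR : IsLinearSymplecticTypeData 2 R)
    (hn : 3 ≤ Fintype.card ι) : ∃ p : ℕ, p.Prime ∧ Fintype.card F = p ∧ p % 4 = 1 := by
  obtain ⟨p, e, -, hmin, ⟨h, -⟩ | ⟨-, rfl, h, -⟩ | ⟨-, -, h, -⟩⟩ := hR.field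
  · exact absurd h (by decide)
  · rw [h] at hmin
    rcases minimal_four hmin with ⟨-, h1⟩ | ⟨h1, -⟩
    · exact ⟨p, hmin.1, by rw [hmin.2.2.1, pow_one], h1⟩
    · omega
  · omega

theorem data_three {R : Subgroup (GL ι F)} (hR : IsLinearSymplecticTypeData 3 R) :
    ∃ p : ℕ, p.Prime ∧ Fintype.card F = p ∧ p % 3 = 1 := by
  obtain ⟨p, e, h1, -, h3, h4, h5, h6, h7, h8⟩ := odd_data hR (by decide)
  have key : ∀ s : ℕ, s < 3 → ∀ e : ℕ, e < 3 → e % 2 = 1 → s ^ e % 3 = 1 → (∀ d < e, 0 < d → s ^ d % 3 ≠ 1) →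
      e = 1 ∧ s = 1 := by decide
  obtain ⟨rfl, h⟩ := key _ h4 _ h5 h6 h7 h8
  exact ⟨p, h1, by rw [h3, pow_one], h⟩

theorem data_five {R : Subgroup (GL ι F)} (hR : IsLinearSymplecticTypeData 5 R) :
    ∃ p : ℕ, p.Prime ∧ Fintype.card F = p ∧ p % 5 = 1 := by
  obtain ⟨p, e, h1, -, h3, h4, h5, h6, h7, h8⟩ := odd_data hR (by decide)
  have key : ∀ s : ℕ, s < 5 → ∀ e : ℕ, e < 5 → e % 2 = 1 → s ^ e % 5 = 1 → (∀ d < e, 0 < d → s ^ d % 5 ≠ 1) →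
      e = 1 ∧ s = 1 := by decide
  obtain ⟨rfl, h⟩ := key _ h4 _ h5 h6 h7 h8
  exact ⟨p, h1, by rw [h3, pow_one], h⟩

theorem data_seven {R : Subgroup (GL ι F)} (hR : IsLinearSymplecticTypeData 7 R) :
    ∃ p : ℕ, p.Prime ∧ CharP F p ∧ ((Fintype.card F = p ∧ p % 7 = 1) ∨
      (Fintype.card F = p ^ 3 ∧ (p % 7 = 2 ∨ p % 7 = 4))) := by
  obtain ⟨p, e, h1, h2, h3, h4, h5, h6, h7, h8⟩ := odd_data hR (by decide)
  have key : ∀ s : ℕ, s < 7 → ∀ e : ℕ, e < 7 → e % 2 = 1 → s ^ e % 7 = 1 → (∀ d < e, 0 < d → s ^ d % 7 ≠ 1) →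
      (e = 1 ∧ s = 1) ∨ (e = 3 ∧ (s = 2 ∨ s = 4)) := by decide
  rcases key _ h4 _ h5 h6 h7 h8 with ⟨rfl, h⟩ | ⟨rfl, h⟩
  · exact ⟨p, h1, h2, Or.inl ⟨by rw [h3, pow_one], h⟩⟩
  · exact ⟨p, h1, h2, Or.inr ⟨h3, h⟩⟩

theorem data_eleven {R : Subgroup (GL ι F)} (hR : IsLinearSymplecticTypeData 11 R) :
    ∃ p : ℕ, p.Prime ∧ CharP F p ∧ ((Fintype.card F = p ∧ p % 11 = 1) ∨
      (Fintype.card F = p ^ 5 ∧ (p % 11 = 3 ∨ p % 11 = 4 ∨ p % 11 = 5 ∨ p % 11 = 9))) := by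
  obtain ⟨p, e, h1, h2, h3, h4, h5, h6, h7, h8⟩ := odd_data hR (by decide)
  have key : ∀ s : ℕ, s < 11 → ∀ e : ℕ, e < 11 → e % 2 = 1 → s ^ e % 11 = 1 → (∀ d < e, 0 < d → s ^ d % 11 ≠ 1) →
      (e = 1 ∧ s = 1) ∨ (e = 5 ∧ (s = 3 ∨ s = 4 ∨ s = 5 ∨ s = 9)) := by decide +kernel
  rcases key _ h4 _ h5 h6 h7 h8 with ⟨rfl, h⟩ | ⟨rfl, h⟩
  · exact ⟨p, h1, h2, Or.inl ⟨by rw [h3, pow_one], h⟩⟩
  · exact ⟨p, h1, h2, Or.inr ⟨h3, h⟩⟩

/-- a prime `s` dividing a power of the prime `r` equals `r` -/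
theorem eq_of_pow {r m n s : ℕ} (hr : r.Prime) (hs : s.Prime) (h : n = r ^ m) (hd : s ∣ n) : r = s :=
  ((Nat.prime_dvd_prime_iff_eq hs hr).1 (hs.dvd_of_dvd_pow (h ▸ hd))).symm

theorem pow_cases {m t n : ℕ} (hm : 3 ≤ m) (ht : 2 ≤ t) (h : m ^ t = n) (hn : n ≤ 15) :
    m = 3 ∧ t = 2 ∧ n = 9 := by
  have h1 : m ^ 2 ≤ m ^ t := Nat.pow_le_pow_right (by omega) ht
  obtain rfl : m = 3 := by nlinarith
  obtain rfl : t = 2 := by
    by_contra h2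
    have : 3 ^ 3 ≤ 3 ^ t := Nat.pow_le_pow_right (by omega) (by omega)
    omega
  omega

end Cfsg.Agent.H5.SL
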