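import Cfsg.Agent.H5.SLProper

/-!
Imprimitive and tensor-decomposable groups over very small fields lie in other geometric classes.
-/

set_option autoImplicit false
set_option linter.unusedSectionVars false

namespace Cfsg.Agent.H5.SL

open Module Cfsg.Geo Cfsg.Agent.H7 Cfsg.Agent.Asch
open scoped MatrixGroups Matrix Kronecker

variable {ι : Type} [Fintype ι] [DecidableEq ι] {F : Type*} [Field F]

/-- Coordinates adapted to a direct sum decomposition. -/
theorem exists_blockCoords {t m : ℕ} {D : Fin t → Submodule F (ι → F)} (hD : IsMDecomposition m D) :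
    ∃ ψ : (ι → F) ≃ₗ[F] (Fin t → Fin m → F), ∀ g ∈ decompositionStabilizer D,
      ∃ (σ : Equiv.Perm (Fin t)) (A : Fin t → Matrix (Fin m) (Fin m) F),
        (∀ v i, ψ ((g : Matrix ι ι F) *ᵥ v) (σ i) = A i *ᵥ ψ v i) ∧
        (g : Matrix ι ι F).det = ((Equiv.Perm.sign σ : ℤ) : F) ^ m * ∏ i, (A i).det := by
  have hI := DirectSum.isInternal_submodule_of_iSupIndep_of_iSup_eq_top hD.indep hD.iSup_eq_top
  let b : ∀ i, Basis (Fin m) F (D i) := fun i => Module.finBasisOfFinrankEq F (D i) (hD.finrank_eq i)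
  let B : Basis (Fin t × Fin m) F (ι → F) := (hI.collectedBasis b).reindex (Equiv.sigmaEquivProd _ _)
  have hB1 : ∀ i j, B (i, j) ∈ D i := fun i j => by
    simp only [B, Basis.reindex_apply]
    exact hI.collectedBasis_mem b ⟨i, j⟩
  have hB2 : ∀ {i k : Fin t} (l : Fin m) {x : ι → F}, x ∈ D i → i ≠ k → B.repr x (k, l) = 0 :=
    fun {i k} l {x} hx hik => by
      simp only [B, Basis.repr_reindex_apply]
      exact hI.collectedBasis_repr_of_mem_ne b hik hx
  refine ⟨B.equivFun.trans (LinearEquiv.curry F F (Fin t) (Fin m)), ?_⟩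
  rintro g ⟨σ, hσ⟩
  let M := LinearMap.toMatrix B B (Matrix.toLin' (g : Matrix ι ι F))
  have hM : ∀ k l i j, k ≠ σ i → M (k, l) (i, j) = 0 := fun k l i j h => by
    simp only [M, LinearMap.toMatrix_apply]
    exact hB2 l (hσ i ▸ Submodule.mem_map_of_mem (hB1 i j)) h.symm
  refine ⟨σ, fun i => Matrix.of fun l j => M (σ i, l) (i, j), fun v i => ?_, ?_⟩
  · ext l
    have h1 := congrFun (LinearMap.toMatrix_mulVec_repr B B (Matrix.toLin' (g : Matrix ι ι F)) v) (σ i, l)
    rw [Matrix.toLin'_apply] at h1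
    change B.repr _ (σ i, l) = _
    rw [← h1]
    simp only [Matrix.mulVec, dotProduct, Fintype.sum_prod_type, Matrix.of_apply]
    rw [Finset.sum_eq_single i]
    · rfl
    · intro k _ hk
      refine Finset.sum_eq_zero fun j _ => ?_
      rw [show LinearMap.toMatrix B B (Matrix.toLin' (g : Matrix ι ι F)) (σ i, l) (k, j) = 0 from
        hM _ _ _ _ (fun h => hk (σ.injective h).symm), zero_mul]
    · simp
  · have h1 : M.det = (g : Matrix ι ι F).det := by
      rw [LinearMap.det_toMatrix, LinearMap.det_toLin']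
    have h2 : M.submatrix (Equiv.prodCongrLeft fun _ : Fin m => σ) id =
        (Matrix.blockDiagonal fun i => Matrix.of fun l j => M (σ i, l) (i, j)).submatrix
          (Equiv.prodComm _ _) (Equiv.prodComm _ _) := by
      ext ⟨k, l⟩ ⟨i, j⟩
      simp only [Matrix.submatrix_apply, Equiv.prodCongrLeft_apply, id, Equiv.prodComm_apply,
        Prod.swap_prod_mk, Matrix.blockDiagonal_apply, Matrix.of_apply]
      split_ifs with h
      · rw [h]
      · exact hM _ _ _ _ fun h' => h (σ.injective h')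
    have h3 := congrArg Matrix.det h2
    rw [Matrix.det_permute, Matrix.det_submatrix_equiv_self, Matrix.det_blockDiagonal,
      Equiv.Perm.sign_prodCongrLeft, h1] at h3
    rw [← h3, ← mul_assoc]
    simp only [Finset.prod_const, Finset.card_univ, Fintype.card_fin, Units.val_pow_eq_pow_val,
      Int.cast_pow]
    rw [← mul_pow, ← Int.cast_mul, ← Units.val_mul, Int.units_mul_self]
    simp

theorem det_ne_zero_of_eq {t : ℕ} {g : GL ι F} {c : F} {a : Fin t → F}
    (h : (g : Matrix ι ι F).det = c * ∏ i, a i) (i : Fin t) : a i ≠ 0 := fun h0 => by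
  rw [Finset.prod_eq_zero (Finset.mem_univ i) h0, mul_zero] at h
  exact (Matrix.isUnits_det_units g).ne_zero h

/-- Coordinates adapted to a decomposition into lines. -/
theorem exists_lineCoords {t : ℕ} {D : Fin t → Submodule F (ι → F)} (hD : IsMDecomposition 1 D) :
    ∃ ψ : (ι → F) ≃ₗ[F] (Fin t → F), ∀ g ∈ decompositionStabilizer D,
      ∃ (σ : Equiv.Perm (Fin t)) (a : Fin t → F), (∀ i, a i ≠ 0) ∧
        (∀ v i, ψ ((g : Matrix ι ι F) *ᵥ v) (σ i) = a i * ψ v i) ∧
        (g : Matrix ι ι F).det = ((Equiv.Perm.sign σ : ℤ) : F) * ∏ i, a i := by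
  obtain ⟨ψ, hψ⟩ := exists_blockCoords hD
  refine ⟨ψ.trans (LinearEquiv.piCongrRight fun _ => LinearEquiv.funUnique (Fin 1) F F), fun g hg => ?_⟩
  obtain ⟨σ, A, h1, h2⟩ := hψ g hg
  simp only [pow_one, Matrix.det_unique] at h2
  refine ⟨σ, fun i => A i default default, det_ne_zero_of_eq h2, fun v i => ?_, h2⟩
  have := congrFun (h1 v i) default
  simpa [Matrix.mulVec, dotProduct] using this

theorem eq_zero_or_one_of_card_two [Fintype F] (hq : Fintype.card F = 2) (a : F) : a = 0 ∨ a = 1 := by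
  by_cases h : a = 0
  · exact Or.inl h
  · have := FiniteField.pow_card_sub_one_eq_one a h
    rw [hq] at this
    exact Or.inr (by simpa using this)

/-- Over the field with two elements monomial groups are reducible. -/
theorem not_irred_lines_two [Fintype F] (hq : Fintype.card F = 2) {t : ℕ}
    {D : Fin t → Submodule F (ι → F)} (hD : IsMDecomposition 1 D) {H : Subgroup (GL ι F)}
    (hle : H ≤ decompositionStabilizer D) : ¬ Irred H := fun hI => by
  obtain ⟨ψ, hψ⟩ := exists_lineCoords hD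
  have ht := hD.two_le
  have hm := H8.IsMDecomposition.mul_eq hD
  have hw : ∀ g ∈ H, (g : Matrix ι ι F) *ᵥ ψ.symm 1 = ψ.symm 1 := fun g hg => by
    obtain ⟨σ, a, h1, h2, -⟩ := hψ g (hle hg)
    apply ψ.injective
    ext k
    obtain ⟨i, rfl⟩ := σ.surjective k
    rw [h2, ((eq_zero_or_one_of_card_two hq (a i)).resolve_left (h1 i))]
    simp
  rcases hI (F ∙ ψ.symm 1) (fun g hg v hv => by
    obtain ⟨c, rfl⟩ := Submodule.mem_span_singleton.1 hv
    rw [Matrix.mulVec_smul, hw g hg]
    exact hv) with h | h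
  · rw [Submodule.span_singleton_eq_bot, LinearEquiv.map_eq_zero_iff] at h
    exact one_ne_zero (congrFun h ⟨0, by omega⟩)
  · have := finrank_span_singleton_le (F := F) (ψ.symm 1)
    rw [h, finrank_top, finrank_fintype_fun_eq_card] at this
    omega

theorem linC8_of_symm [Fintype F] {H : Subgroup (GL ι F)} (hI : Irred H) (hn : 2 ≤ Fintype.card ι)
    {f : (ι → F) → (ι → F) → F} (hf : IsBilinearForm f) (hnd : IsNondegenerateForm f)
    (hs : ∀ u v, f u v = f v u) (hle : H ≤ similarityGroup f) : LinC8 H := by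
  have h1 := sesq_of_bilinear hf
  refine hI.linC8_of_bilin hn (h1.isUnit_gram hnd) (Or.inl ?_) (by rw [← h1.eq_gf]; exact hle)
  ext i j
  exact hs _ _

/-- The standard form in given coordinates. -/
theorem nondeg_sum {t : ℕ} (ψ : (ι → F) ≃ₗ[F] (Fin t → F)) (σ : F ≃+* F) :
    IsNondegenerateForm fun u v : ι → F => ∑ i, ψ u i * σ (ψ v i) := fun v hv => by
  obtain ⟨i, hi⟩ := Function.ne_iff.1 (ψ.map_ne_zero_iff.2 hv)
  have hi' : ψ v i ≠ 0 := hi
  refine ⟨⟨ψ.symm (Pi.single i 1), ?_⟩, ⟨ψ.symm (Pi.single i 1), ?_⟩⟩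
  · simp [Pi.single_apply, hi']
  · simp [Pi.single_apply, apply_ite σ, hi']

theorem lines_le_sim {t : ℕ} {D : Fin t → Submodule F (ι → F)} (hD : IsMDecomposition 1 D)
    (σ : F ≃+* F) (hσ : ∀ a : F, a ≠ 0 → a * σ a = 1) :
    ∃ ψ : (ι → F) ≃ₗ[F] (Fin t → F),
      decompositionStabilizer D ≤ similarityGroup fun u v : ι → F => ∑ i, ψ u i * σ (ψ v i) := by
  obtain ⟨ψ, hψ⟩ := exists_lineCoords hD
  refine ⟨ψ, fun g hg => ⟨1, fun u v => ?_⟩⟩
  obtain ⟨τ, a, h1, h2, -⟩ := hψ g hg
  beta_reduce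
  rw [← Equiv.sum_comp τ, Units.val_one, one_mul]
  refine Finset.sum_congr rfl fun i _ => ?_
  rw [h2, h2, map_mul]
  linear_combination (ψ u i * σ (ψ v i)) * hσ _ (h1 i)

/-- Monomial groups over the field with three elements. -/
theorem linC8_lines_three [Fintype F] (hq : Fintype.card F = 3) {t : ℕ}
    {D : Fin t → Submodule F (ι → F)} (hD : IsMDecomposition 1 D) {H : Subgroup (GL ι F)}
    (hI : Irred H) (hn : 2 ≤ Fintype.card ι) (hle : H ≤ decompositionStabilizer D) : LinC8 H := by
  obtain ⟨ψ, hψ⟩ := lines_le_sim hD (RingEquiv.refl F) fun a ha => by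
    have := FiniteField.pow_card_sub_one_eq_one a ha
    rw [hq] at this
    simpa [sq] using this
  refine linC8_of_symm hI hn ⟨?_, ?_, ?_, ?_⟩ (nondeg_sum ψ _) (fun u v => ?_) (hle.trans hψ)
  · intro x y v; simp [add_mul, Finset.sum_add_distrib]
  · intro c x v; simp [Finset.mul_sum, mul_assoc]
  · intro v x y; simp [mul_add, Finset.sum_add_distrib]
  · intro c v x; simp [Finset.mul_sum, mul_left_comm]
  · simp [mul_comm]

/-- Monomial groups over the field with four elements. -/
theorem linC8_lines_four [Fintype F] (hq : Fintype.card F = 4) {t : ℕ}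
    {D : Fin t → Submodule F (ι → F)} (hD : IsMDecomposition 1 D) {H : Subgroup (GL ι F)}
    (hle : H ≤ decompositionStabilizer D) : LinC8 H := by
  haveI : CharP F 2 := by
    have := FiniteField.cast_card_eq_zero F
    rw [hq] at this
    have h2 : (2 : F) = 0 := by
      have h4 : (2 : F) ^ 2 = 0 := by rw [← this]; norm_num
      exact pow_eq_zero_iff (by norm_num) |>.1 h4
    exact (CharP.charP_iff_prime_eq_zero Nat.prime_two).2 (by exact_mod_cast h2)
  obtain ⟨σ, h1, h2, h3⟩ := exists_invol (F := F) Nat.prime_two (k := 1) one_pos (by rw [hq]; norm_num)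
  obtain ⟨ψ, hψ⟩ := lines_le_sim hD σ fun a ha => by
    have := FiniteField.pow_card_sub_one_eq_one a ha
    rw [hq] at this
    rw [h1, ← this]; ring
  refine Or.inr (Or.inl ⟨σ, _, ⟨h3, h2, ?_, ?_, ?_, nondeg_sum ψ σ⟩, hle.trans hψ⟩)
  · intro x y v; simp [add_mul, Finset.sum_add_distrib]
  · intro c x v; simp [Finset.mul_sum, mul_assoc]
  · intro v w; simp [h2, mul_comm]

/-- The symplectic form attached to a decomposition into planes. -/
theorem exists_symplectic_planes {t : ℕ} {D : Fin t → Submodule F (ι → F)}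
    (hD : IsMDecomposition 2 D) :
    ∃ f : (ι → F) → (ι → F) → F, IsSymplecticForm f ∧ ∀ g ∈ decompositionStabilizer D,
      ∃ a : Fin t → F, (g : Matrix ι ι F).det = ∏ i, a i ∧
        ∀ c : F, (∀ i, a i = c) → g ∈ similarityGroup f := by
  obtain ⟨ψ, hψ⟩ := exists_blockCoords hD
  refine ⟨fun u v => ∑ i, (ψ u i 0 * ψ v i 1 - ψ u i 1 * ψ v i 0), ⟨⟨?_, ?_, ?_, ?_⟩, ?_, ?_, ?_⟩,
    fun g hg => ?_⟩
  · intro x y v
    simp only [map_add, Pi.add_apply, ← Finset.sum_add_distrib]
    exact Finset.sum_congr rfl fun i _ => by ring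
  · intro c x v
    simp only [map_smul, Pi.smul_apply, smul_eq_mul, Finset.mul_sum]
    exact Finset.sum_congr rfl fun i _ => by ring
  · intro x y v
    simp only [map_add, Pi.add_apply, ← Finset.sum_add_distrib]
    exact Finset.sum_congr rfl fun i _ => by ring
  · intro c x v
    simp only [map_smul, Pi.smul_apply, smul_eq_mul, Finset.mul_sum]
    exact Finset.sum_congr rfl fun i _ => by ring
  · intro v w
    rw [← Finset.sum_neg_distrib]
    exact Finset.sum_congr rfl fun i _ => by ring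
  · intro v
    exact Finset.sum_eq_zero fun i _ => by ring
  · intro v hv
    obtain ⟨i, hi⟩ := Function.ne_iff.1 (ψ.map_ne_zero_iff.2 hv)
    obtain ⟨j, hj⟩ := Function.ne_iff.1 hi
    have hj' : ψ v i j ≠ 0 := hj
    have key : ∀ (x : Fin 2 → F) (G : (Fin 2 → F) → Fin t → F), (∀ k, G 0 k = 0) →
        ∑ k, G ((Pi.single i x : Fin t → Fin 2 → F) k) k = G x i := fun x G hG => by
      rw [Finset.sum_eq_single i]
      · simp
      · intro k _ hk; simp [hk, hG]
      · simp
    fin_cases j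
    · refine ⟨⟨ψ.symm (Pi.single i ![0, 1]), ?_⟩, ⟨ψ.symm (Pi.single i ![0, 1]), ?_⟩⟩
      · simp only [LinearEquiv.apply_symm_apply]
        rw [key ![0, 1] (fun x k => x 0 * ψ v k 1 - x 1 * ψ v k 0) (by simp)]
        simpa using hj'
      · simp only [LinearEquiv.apply_symm_apply]
        rw [key ![0, 1] (fun x k => ψ v k 0 * x 1 - ψ v k 1 * x 0) (by simp)]
        simpa using hj'
    · refine ⟨⟨ψ.symm (Pi.single i ![1, 0]), ?_⟩, ⟨ψ.symm (Pi.single i ![1, 0]), ?_⟩⟩
      · simp only [LinearEquiv.apply_symm_apply]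
        rw [key ![1, 0] (fun x k => x 0 * ψ v k 1 - x 1 * ψ v k 0) (by simp)]
        simpa using hj'
      · simp only [LinearEquiv.apply_symm_apply]
        rw [key ![1, 0] (fun x k => ψ v k 0 * x 1 - ψ v k 1 * x 0) (by simp)]
        simpa using hj'
  · obtain ⟨σ, A, h1, h2⟩ := hψ g hg
    have h3 : ((Equiv.Perm.sign σ : ℤ) : F) ^ 2 = 1 := by
      rw [sq, ← Int.cast_mul, ← Units.val_mul, Int.units_mul_self]; simp
    refine ⟨fun i => (A i).det, by rw [h2, h3, one_mul], fun c hc => ?_⟩
    have hc0 : c ≠ 0 := by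
      rw [← hc ⟨0, by have := hD.two_le; omega⟩]
      exact det_ne_zero_of_eq h2 _
    refine ⟨Units.mk0 c hc0, fun u v => ?_⟩
    beta_reduce at hc ⊢
    rw [← Equiv.sum_comp σ, Units.val_mk0, Finset.mul_sum]
    refine Finset.sum_congr rfl fun i _ => ?_
    rw [h1, h1, ← hc i]
    simp only [Matrix.mulVec, dotProduct, Fin.sum_univ_two, Matrix.det_fin_two]
    ring

/-- Decompositions into planes over the field with two elements. -/
theorem linC8_planes_two [Fintype F] (hq : Fintype.card F = 2) {t : ℕ}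
    {D : Fin t → Submodule F (ι → F)} (hD : IsMDecomposition 2 D) {H : Subgroup (GL ι F)}
    (hle : H ≤ decompositionStabilizer D) : LinC8 H := by
  obtain ⟨f, hf, h⟩ := exists_symplectic_planes hD
  refine Or.inl ⟨f, hf, fun g hg => ?_⟩
  obtain ⟨a, h1, h2⟩ := h g (hle hg)
  exact h2 1 fun i => (eq_zero_or_one_of_card_two hq _).resolve_left
    (det_ne_zero_of_eq (c := 1) (by rw [h1, one_mul]) i)

/-- Decompositions into two planes over the field with three elements. -/
theorem linC8_planes_three [Fintype F] (hq : Fintype.card F = 3)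
    {D : Fin 2 → Submodule F (ι → F)} (hD : IsMDecomposition 2 D) {H : Subgroup (GL ι F)}
    (hH : H ≤ specialLinear ι F) (hle : H ≤ decompositionStabilizer D) : LinC8 H := by
  obtain ⟨f, hf, h⟩ := exists_symplectic_planes hD
  refine Or.inl ⟨f, hf, fun g hg => ?_⟩
  obtain ⟨a, h1, h2⟩ := h g (hle hg)
  have h3 : (g : Matrix ι ι F).det = 1 := congrArg Units.val (hH hg)
  have h4 := FiniteField.pow_card_sub_one_eq_one _ 
    (det_ne_zero_of_eq (g := g) (c := 1) (a := a) (by rw [h1, one_mul]) 0)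
  rw [hq] at h4
  rw [h3, Fin.prod_univ_two] at h1
  refine h2 (a 0) fun i => ?_
  fin_cases i
  · rfl
  · simp only [Fin.mk_one]
    linear_combination (-a 0) * h1 - a 1 * h4

/-- The quadratic field generated by a root of `X ^ 2 + X + 1` over the field with two elements. -/
theorem exists_quadratic_field [Fintype F] [Nonempty ι] (hq : Fintype.card F = 2) {W : Matrix ι ι F}
    (hW : W * W = W + 1) : ∃ K : Subalgebra F (Matrix ι ι F), IsFieldSubalgebra 2 K ∧
      ∀ x, x ∈ K ↔ ∃ a b : F, x = a • 1 + b • W := by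
  have h2 : (1 : F) + 1 = 0 := by
    have := FiniteField.cast_card_eq_zero F
    rw [hq] at this
    rw [← this]; norm_num
  have hWW : W + W = 0 := by rw [← one_smul F W, ← add_smul, h2, zero_smul]
  have h11 : (1 : Matrix ι ι F) + 1 = 0 := by rw [← one_smul F (1 : Matrix ι ι F), ← add_smul, h2, zero_smul]
  have hmem : ∀ x, x ∈ Submodule.span F (Set.range ![1, W]) ↔ ∃ a b : F, x = a • 1 + b • W := by
    intro x
    rw [Matrix.range_cons, Matrix.range_cons, Matrix.range_empty, Set.union_empty, Set.singleton_union,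
      Submodule.mem_span_pair]
    exact ⟨fun ⟨a, b, h⟩ => ⟨a, b, h.symm⟩, fun ⟨a, b, h⟩ => ⟨a, b, h.symm⟩⟩
  have hmul : ∀ a b c d : F, (a • 1 + b • W) * (c • 1 + d • W) =
      (a * c + b * d) • (1 : Matrix ι ι F) + (a * d + b * c + b * d) • W := fun a b c d => by
    simp only [add_mul, mul_add, Matrix.smul_mul, Matrix.mul_smul, one_mul, mul_one, hW]
    module
  refine ⟨(Submodule.span F (Set.range ![1, W])).toSubalgebra ((hmem 1).2 ⟨1, 0, by simp⟩) ?_,
    ⟨?_, ?_, ?_⟩, hmem⟩
  · intro x y hx hy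
    obtain ⟨a, b, rfl⟩ := (hmem x).1 hx
    obtain ⟨c, d, rfl⟩ := (hmem y).1 hy
    exact (hmem _).2 ⟨_, _, hmul a b c d⟩
  · intro x hx y hy
    obtain ⟨a, b, rfl⟩ := (hmem x).1 hx
    obtain ⟨c, d, rfl⟩ := (hmem y).1 hy
    rw [hmul, hmul]
    module
  · intro x hx hx0
    obtain ⟨a, b, rfl⟩ := (hmem x).1 hx
    rcases eq_zero_or_one_of_card_two hq a with rfl | rfl <;>
      rcases eq_zero_or_one_of_card_two hq b with rfl | rfl
    · simp at hx0
    · exact ⟨_, (hmem _).2 ⟨1, 1, rfl⟩, by rw [hmul]; simp [h2]⟩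
    · exact ⟨_, (hmem _).2 ⟨1, 0, rfl⟩, by rw [hmul]; simp⟩
    · exact ⟨_, (hmem _).2 ⟨0, 1, rfl⟩, by rw [hmul]; simp [h2]⟩
  · have : LinearIndependent F ![1, W] := by
      rw [LinearIndependent.pair_iff]
      intro a b hab
      rcases eq_zero_or_one_of_card_two hq a with rfl | rfl <;>
        rcases eq_zero_or_one_of_card_two hq b with rfl | rfl
      · simp
      · rw [zero_smul, zero_add, one_smul] at hab
        simp [hab] at hW
      · simp at hab
      · rw [one_smul, one_smul] at hab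
        have h3 : W = 1 := by
          rw [← add_zero W, ← h11, ← add_assoc, add_comm W, hab, zero_add]
        rw [h3, h11, one_mul] at hW
        exact absurd hW one_ne_zero
    have h3 := finrank_span_eq_card this
    rw [Fintype.card_fin] at h3
    exact h3

/-- Tensor decompositions with a two-dimensional factor over the field with two elements. -/
theorem tensor_two_le [Fintype F] (hq : Fintype.card F = 2) {b : ℕ} (hb : 0 < b)
    (e : ι ≃ Fin 2 × Fin b) (P : GL ι F) : ∃ K : Subalgebra F (Matrix ι ι F),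
      IsFieldSubalgebra 2 K ∧ tensorProductSubgroup 2 b e P ≤ subalgebraNormalizer K := by
  haveI : Nonempty ι := ⟨e.symm (0, ⟨0, hb⟩)⟩
  have h2 : (1 : F) + 1 = 0 := by
    have := FiniteField.cast_card_eq_zero F
    rw [hq] at this
    rw [← this]; norm_num
  let ω : Matrix (Fin 2) (Fin 2) F := !![0, 1; 1, 1]
  have hω : ω * ω = ω + 1 := by
    ext i j
    fin_cases i <;> fin_cases j <;> simp [ω, Matrix.mul_apply, Fin.sum_univ_two, h2]
  have key : ∀ k : Matrix (Fin 2) (Fin 2) F, k * k = k + 1 → ∃ a b : F, k = a • 1 + b • ω := by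
    intro k hk
    have e00 := congrFun (congrFun hk 0) 0
    have e01 := congrFun (congrFun hk 0) 1
    have e11 := congrFun (congrFun hk 1) 1
    simp only [Matrix.mul_apply, Fin.sum_univ_two, Matrix.add_apply, Matrix.one_apply_eq,
      Matrix.one_apply_ne (show (0 : Fin 2) ≠ 1 by decide)] at e00 e01 e11
    refine ⟨k 0 0, k 0 1, ?_⟩
    ext i j
    rcases eq_zero_or_one_of_card_two hq (k 0 0) with h00 | h00 <;>
      rcases eq_zero_or_one_of_card_two hq (k 0 1) with h01 | h01 <;>
      rcases eq_zero_or_one_of_card_two hq (k 1 0) with h10 | h10 <;>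
      rcases eq_zero_or_one_of_card_two hq (k 1 1) with h11 | h11 <;>
      simp only [h00, h01, h10, h11, h2, mul_zero, mul_one, add_zero, zero_add, zero_ne_one,
        one_ne_zero] at e00 e01 e11 <;>
      fin_cases i <;> fin_cases j <;> simp [ω, h00, h01, h10, h11, h2]
  obtain ⟨K, hK, hmem⟩ := exists_quadratic_field hq (W := tr e P (lk (Fin b) ω))
    (by rw [← map_mul, ← map_mul, hω, map_add, map_add, map_one, map_one])
  refine ⟨K, hK, Norms.le_subalgebraNormalizer fun g hg z hz => ?_⟩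
  obtain ⟨x, y, hxy⟩ := (mem_tensorProductSubgroup e P g).1 hg
  obtain ⟨c, d, rfl⟩ := (hmem z).1 hz
  have h1 : cj g (tr e P (lk (Fin b) ω)) = tr e P (lk (Fin b) (cj x ω)) := by
    apply (g.isUnit.mul_left_inj).1
    rw [cj_mul_self, hxy, ← map_mul, ← map_mul, lk_apply, lk_apply, ← Matrix.mul_kronecker_mul,
      ← Matrix.mul_kronecker_mul, cj_mul_self, mul_one, one_mul]
  obtain ⟨c', d', h⟩ := key (cj x ω) (by rw [← map_mul, hω, map_add, map_one])
  rw [map_add, map_smul, map_smul, map_one, h1, h]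
  simp only [map_add, map_smul, map_one]
  exact K.add_mem (K.smul_mem K.one_mem _) (K.smul_mem ((hmem _).2 ⟨_, _, rfl⟩) _)

end Cfsg.Agent.H5.SL
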