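import Cfsg.Agent.H5.SLMax

/-!
The normaliser in `SL₃(4)` of a cubic field lies in a subfield group.
-/

set_option autoImplicit false
set_option linter.unusedSectionVars false

namespace Cfsg.Agent.H5.SL

open Module Cfsg.Geo Cfsg.Agent.H7 Cfsg.Agent.Asch
open scoped MatrixGroups Matrix Kronecker

theorem charP_two_of_card_four {F : Type*} [Field F] [Fintype F] (hq : Fintype.card F = 4) :
    CharP F 2 := by
  have := FiniteField.cast_card_eq_zero F
  rw [hq] at this
  have h2 : (2 : F) = 0 := by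
    have h4 : (2 : F) ^ 2 = 0 := by rw [← this]; norm_num
    exact pow_eq_zero_iff (by norm_num) |>.1 h4
  exact (CharP.charP_iff_prime_eq_zero Nat.prime_two).2 (by exact_mod_cast h2)

theorem cubic_roots {L : Type*} [Field L] [CharP L 2] {w u : L} (hw : w * w * w = w * w + 1)
    (hu : u * u * u = u * u + 1) : u = w ∨ u = w * w ∨ u = w * w + w + 1 := by
  have : (u - w) * ((u - w * w) * (u - (w * w + w + 1))) = 0 := by grind
  simpa only [mul_eq_zero, sub_eq_zero] using this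

theorem cubic_indep {L : Type*} [Field L] [CharP L 2] {w a b c : L} (hw : w * w * w = w * w + 1)
    (ha : a ^ 4 = a) (hb : b ^ 4 = b) (hc : c ^ 4 = c) (h : a + b * w + c * (w * w) = 0) :
    a = 0 ∧ b = 0 ∧ c = 0 := by
  have h1 : a + b * (w * w + w + 1) + c * w = 0 := by
    have : (a + b * w + c * (w * w)) ^ 4 = 0 := by rw [h]; norm_num
    grind
  have h2 : a + b * (w * w) + c * (w * w + w + 1) = 0 := by
    have : (a + b * (w * w + w + 1) + c * w) ^ 4 = 0 := by rw [h1]; norm_num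
    grind
  refine ⟨?_, ?_, ?_⟩ <;> grind

theorem exists_cubic {L : Type*} [Field L] [Finite L] [CharP L 2] (hL : Nat.card L = 64) :
    ∃ w : L, w * w * w = w * w + 1 := by
  haveI : Fact (Nat.Prime 7) := ⟨by norm_num⟩
  obtain ⟨θ, hθ⟩ := exists_prime_orderOf_dvd_card' (G := Lˣ) 7 (by rw [Nat.card_units, hL]; norm_num)
  have h1 : (θ : L) ^ 7 = 1 := by rw [← Units.val_pow_eq_pow_val, ← hθ, pow_orderOf_eq_one, Units.val_one]
  have h2 : (θ : L) ≠ 1 := fun h => by
    rw [Units.val_eq_one.1 h, orderOf_one] at hθ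
    omega
  generalize (θ : L) = x at h1 h2
  have : (x - 1) * ((x * x * x - (x * x + 1)) * (x ^ 3 + x + 1)) = 0 := by grind
  simp only [mul_eq_zero, sub_eq_zero] at this
  rcases this with h | h | h
  · exact absurd h h2
  · exact ⟨x, h⟩
  · exact ⟨x + 1, by grind⟩

theorem norm_one_four {F : Type*} [Field F] [CharP F 2] {x y z : F} (hx : x ^ 4 = x)
    (hy : y ^ 4 = y) (hz : z ^ 4 = z)
    (h : x ^ 3 + y ^ 3 + z ^ 3 + x ^ 2 * y + x ^ 2 * z + y ^ 2 * z + x * y * z = 1) :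
    ∃ c : F, c ≠ 0 ∧ (x = 0 ∨ x = c) ∧ (y = 0 ∨ y = c) ∧ (z = 0 ∨ z = c) := by
  have h1 : x * (y * (x - y)) = 0 := by grind
  have h2 : x * (z * (x - z)) = 0 := by grind
  have h3 : y * (z * (y - z)) = 0 := by grind
  simp only [mul_eq_zero, sub_eq_zero] at h1 h2 h3
  by_cases hx0 : x = 0
  · by_cases hy0 : y = 0
    · refine ⟨z, ?_, Or.inl hx0, Or.inl hy0, Or.inr rfl⟩
      rintro rfl
      simp [hx0, hy0] at h
    · exact ⟨y, hy0, Or.inl hx0, Or.inr rfl, (h3.resolve_left hy0).imp_right Eq.symm⟩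
  · exact ⟨x, hx0, Or.inr rfl, (h1.resolve_left hx0).imp_right Eq.symm,
      (h2.resolve_left hx0).imp_right Eq.symm⟩

variable {F : Type*} [Field F]

/-- the companion matrix of `X ^ 3 + X ^ 2 + 1` -/
def cub (F : Type*) [Field F] : Matrix (Fin 3) (Fin 3) F := !![0, 0, 1; 1, 0, 0; 0, 1, 1]

theorem entries_of_comm [CharP F 2] (h4 : ∀ a : F, a ^ 4 = a) (F₁ : Subfield F)
    {g C : Matrix (Fin 3) (Fin 3) F} (hdet : g.det = 1)
    (hC : C = cub F ∨ C = cub F * cub F ∨ C = cub F * cub F + cub F + 1) (h : g * cub F = C * g) :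
    ∃ c : F, c ≠ 0 ∧ ∀ i j, c⁻¹ * g i j ∈ F₁ := by
  have e : ∀ i j, (g * cub F) i j = (C * g) i j := fun i j => by rw [h]
  have e00 := e 0 0; have e10 := e 1 0; have e20 := e 2 0
  have e01 := e 0 1; have e11 := e 1 1; have e21 := e 2 1
  rw [Matrix.det_fin_three] at hdet
  have key : ∀ c : F, c ≠ 0 → (g 0 0 = 0 ∨ g 0 0 = c) → (g 1 0 = 0 ∨ g 1 0 = c) →
      (g 2 0 = 0 ∨ g 2 0 = c) → ∀ i, c⁻¹ * g i 0 ∈ F₁ := fun c hc h0 h1 h2 i => by
    have : g i 0 = 0 ∨ g i 0 = c := by fin_cases i <;> assumption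
    rcases this with h | h <;> rw [h]
    · simp
    · rw [inv_mul_cancel₀ hc]; exact F₁.one_mem
  have hC' : ∀ i j, C i j ∈ F₁ := by
    have h1 : ∀ i j, cub F i j ∈ F₁ := fun i j => by
      fin_cases i <;> fin_cases j <;> simp [cub]
    have h2 : ∀ i j, (cub F * cub F) i j ∈ F₁ := fun i j => by
      rw [Matrix.mul_apply]
      exact F₁.sum_mem fun k _ => F₁.mul_mem (h1 _ _) (h1 _ _)
    rcases hC with rfl | rfl | rfl
    · exact h1
    · exact h2
    · intro i j
      refine F₁.add_mem (F₁.add_mem (h2 i j) (h1 i j)) ?_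
      rw [Matrix.one_apply]; split_ifs <;> simp
  obtain ⟨c, hc, h0, h1, h2⟩ := norm_one_four (h4 (g 0 0)) (h4 (g 1 0)) (h4 (g 2 0)) (by
    rcases hC with rfl | rfl | rfl <;>
      simp [cub, Matrix.mul_apply, Fin.sum_univ_three, Matrix.one_apply] at e00 e10 e20 e01 e11 e21 <;>
      grind)
  have k0 := key c hc h0 h1 h2
  have step : ∀ j j' : Fin 3, (∀ i, (g * cub F) i j = g i j') → (∀ i, c⁻¹ * g i j ∈ F₁) →
      ∀ i, c⁻¹ * g i j' ∈ F₁ := fun j j' h1 h2 i => by
    rw [← h1, e, Matrix.mul_apply, Finset.mul_sum]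
    exact F₁.sum_mem fun k _ => by rw [mul_left_comm]; exact F₁.mul_mem (hC' _ _) (h2 _)
  have k1 := step 0 1 (fun i => by simp [cub, Matrix.mul_apply, Fin.sum_univ_three]) k0
  have k2 := step 1 2 (fun i => by simp [cub, Matrix.mul_apply, Fin.sum_univ_three]) k1
  refine ⟨c, hc, fun i j => ?_⟩
  fin_cases j
  · exact k0 i
  · exact k1 i
  · exact k2 i

theorem mem_subfieldSubgroup_of_entries {ι : Type} [Fintype ι] [DecidableEq ι] {F₁ : Subfield F}
    {P g : GL ι F} {c : F} (hc : c ≠ 0) (h : ∀ i j, c⁻¹ * cj P⁻¹ (g : Matrix ι ι F) i j ∈ F₁) :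
    g ∈ subfieldSubgroup F₁ P := by
  let y : Matrix ι ι F₁ := Matrix.of fun i j => ⟨_, h i j⟩
  have h1 : cj P⁻¹ (g : Matrix ι ι F) = c • y.map F₁.subtype := by
    ext i j
    simp [y, hc]
  have h2 : y.det ≠ 0 := fun h0 => by
    have h3 := congrArg Matrix.det h1
    rw [Matrix.det_smul, ← RingHom.mapMatrix_apply, ← RingHom.map_det, h0, map_zero, mul_zero,
      cj_coe] at h3
    exact (Matrix.isUnits_det_units _).ne_zero h3
  exact (mem_subfieldSubgroup_iff F₁ P g).2 ⟨c, Matrix.GeneralLinearGroup.mkOfDetNeZero y h2, hc, h1⟩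

theorem cubic_four [Fintype F] (hq : Fintype.card F = 4) {K : Subalgebra F (Matrix (Fin 3) (Fin 3) F)}
    (hK : IsFieldSubalgebra 3 K) {H : Subgroup (GL (Fin 3) F)} (hH : H ≤ specialLinear (Fin 3) F)
    (hle : H ≤ subalgebraNormalizer K) : LinC5 H := by
  haveI := charP_two_of_card_four hq
  have h4 : ∀ a : F, a ^ 4 = a := fun a => by rw [← hq, FiniteField.pow_card]
  obtain ⟨W, hWK, hW, hroot, hind⟩ : ∃ W ∈ K, W * W * W = W * W + 1 ∧
      (∀ u ∈ K, u * u * u = u * u + 1 → u = W ∨ u = W * W ∨ u = W * W + W + 1) ∧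
      ∀ a b c : F, a • (1 : Matrix (Fin 3) (Fin 3) F) + b • W + c • (W * W) = 0 →
        a = 0 ∧ b = 0 ∧ c = 0 := by
    letI : Field K := (isField_of_inv hK.comm hK.inv).toField
    haveI : CharP K 2 := charP_of_injective_algebraMap (algebraMap F K).injective 2
    obtain ⟨w, hw⟩ := exists_cubic (L := K) (by
      rw [Module.natCard_eq_pow_finrank (K := F), hK.finrank_eq, Nat.card_eq_fintype_card, hq]; norm_num)
    refine ⟨w, w.2, congrArg Subtype.val hw, fun u hu h => ?_, fun a b c h => ?_⟩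
    · rcases cubic_roots (u := (⟨u, hu⟩ : K)) hw (Subtype.ext h) with h | h | h
      · exact Or.inl (congrArg Subtype.val h)
      · exact Or.inr (Or.inl (congrArg Subtype.val h))
      · exact Or.inr (Or.inr (congrArg Subtype.val h))
    · have := cubic_indep (a := algebraMap F K a) (b := algebraMap F K b) (c := algebraMap F K c) hw
        (by rw [← map_pow, h4]) (by rw [← map_pow, h4]) (by rw [← map_pow, h4]) (by
          rw [← Algebra.smul_def, ← Algebra.smul_def, Algebra.algebraMap_eq_smul_one]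
          exact Subtype.ext h)
      simpa using this
  let v : Fin 3 → F := Pi.single 0 1
  let P₀ : Matrix (Fin 3) (Fin 3) F := (Matrix.of ![v, W *ᵥ v, (W * W) *ᵥ v])ᵀ
  have hP : ∀ u : Fin 3 → F, P₀ *ᵥ u = (u 0 • (1 : Matrix (Fin 3) (Fin 3) F) + u 1 • W + u 2 • (W * W)) *ᵥ v := by
    intro u
    rw [Matrix.add_mulVec, Matrix.add_mulVec, Matrix.smul_mulVec, Matrix.smul_mulVec,
      Matrix.smul_mulVec, Matrix.one_mulVec]
    ext i
    simp [P₀, Matrix.mulVec, dotProduct, Fin.sum_univ_three, mul_comm]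
  have hPu : IsUnit P₀ := by
    rw [← Matrix.mulVec_injective_iff_isUnit]
    refine (injective_iff_map_eq_zero (Matrix.mulVecLin P₀)).2 fun u hu => ?_
    rw [Matrix.mulVecLin_apply, hP] at hu
    have h0 : u 0 • (1 : Matrix (Fin 3) (Fin 3) F) + u 1 • W + u 2 • (W * W) = 0 := by
      by_contra h0
      obtain ⟨y, -, hy⟩ := hK.inv _ (K.add_mem (K.add_mem (K.smul_mem K.one_mem _) (K.smul_mem hWK _))
        (K.smul_mem (K.mul_mem hWK hWK) _)) h0
      have := congrArg (y *ᵥ ·) hu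
      simp only [Matrix.mulVec_mulVec, mul_eq_one_comm.1 hy, Matrix.one_mulVec,
        Matrix.mulVec_zero] at this
      simpa [v] using congrFun this 0
    obtain ⟨h1, h2, h3⟩ := hind _ _ _ h0
    ext i
    fin_cases i <;> assumption
  obtain ⟨P, hPP⟩ := hPu
  have hWP : cj P⁻¹ W = cub F := by
    rw [cj_apply, inv_inv, mul_assoc, Units.inv_mul_eq_iff_eq_mul, hPP]
    refine Matrix.ext_iff_mulVec.2 fun u => ?_
    rw [← Matrix.mulVec_mulVec, ← Matrix.mulVec_mulVec, hP, hP, Matrix.mulVec_mulVec]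
    congr 1
    simp only [mul_add, Matrix.mul_smul, mul_one, ← mul_assoc, hW]
    simp [cub, Matrix.mulVec, dotProduct, Fin.sum_univ_three]
    module
  obtain ⟨x, hx⟩ := exists_pow_ne_self (F := F) (a := 2) (by norm_num) (by rw [hq]; norm_num)
  obtain ⟨F₁, r, -, hr, hcard⟩ := exists_prime_index_subfield (frobSub F 2 1) fun h =>
    hx (mem_frobSub (p := 2) (d := 1).1 (h ▸ Subfield.mem_top x))
  refine ⟨F₁, r, P, hr, hcard, fun g hg => ?_⟩
  have h1 := hroot _ ((hle hg W).1 hWK) (by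
    change cj g W * cj g W * cj g W = cj g W * cj g W + 1
    rw [← map_mul, ← map_mul, hW, map_add, map_one])
  obtain ⟨c, hc, h⟩ := entries_of_comm h4 F₁ (g := cj P⁻¹ (g : Matrix (Fin 3) (Fin 3) F))
    (C := cj P⁻¹ (cj g W)) (by
      have : (g : Matrix (Fin 3) (Fin 3) F).det = 1 := congrArg Units.val (hH hg)
      rw [cj_apply, Matrix.det_units_conj, this]) (by
      change cj g W = _ ∨ cj g W = _ ∨ cj g W = _ at h1
      rcases h1 with h | h | h <;> rw [h] <;> simp [hWP]) (by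
      rw [← hWP, ← map_mul, ← map_mul, cj_mul_self])
  exact mem_subfieldSubgroup_of_entries hc h

end Cfsg.Agent.H5.SL
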