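import Cfsg.Agent.H5.SUSix

/-!
The normaliser of a Singer cycle in `SU₅(2)` is not maximal.
-/

set_option autoImplicit false
set_option linter.unusedSectionVars false
set_option maxRecDepth 100000

namespace Cfsg.Agent.H5.SU

open Module Cfsg.Geo Cfsg.Agent.H7 Cfsg.Agent.Asch
open scoped MatrixGroups Matrix Kronecker

variable {ι : Type} [Fintype ι] [DecidableEq ι] {F : Type*} [Field F] {σ : F ≃+* F} {G : Matrix ι ι F}

theorem gf_pow_pow (hG : Herm σ 1 G) {x : Matrix ι ι F}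
    (h : ∀ u v, gf σ G (x *ᵥ u) (x *ᵥ v) = gf σ G u v) (v : ι → F) (i j : ℕ) :
    gf σ G (x ^ i *ᵥ v) (x ^ j *ᵥ v) =
      if j ≤ i then gf σ G (x ^ (i - j) *ᵥ v) v else σ (gf σ G (x ^ (j - i) *ᵥ v) v) := by
  have key : ∀ i j, j ≤ i → gf σ G (x ^ i *ᵥ v) (x ^ j *ᵥ v) = gf σ G (x ^ (i - j) *ᵥ v) v :=
    fun i j hij => by
      rw [← gf_pow h j (x ^ (i - j) *ᵥ v), Matrix.mulVec_mulVec, ← pow_add, Nat.add_sub_cancel' hij]
  split_ifs with hij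
  · exact key i j hij
  · rw [← key j i (by omega), gf_conj hG]

theorem singer_frame {r : ℕ} {K : Subalgebra F (Matrix ι ι F)} (hK : IsFieldSubalgebra r K)
    {x : Matrix ι ι F} (hx : x ∈ K) (hi : ∀ c : Fin r → F, ∑ i, c i • x ^ (i : ℕ) = 0 → ∀ i, c i = 0)
    (e : ι ≃ Fin r) {v : ι → F} (hv : v ≠ 0) :
    ∃ P : GL ι F, ∀ i : Fin r, trv e P (Pi.single i 1) = x ^ (i : ℕ) *ᵥ v := by
  refine exists_frame_of_linearIndependent e (Fintype.linearIndependent_iff.2 fun c hc => hi c ?_)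
  refine (mulVec_eq_zero_of_field hK (K.sum_mem fun i _ => K.smul_mem (K.pow_mem hx _) _)
    (v := v) ?_).resolve_right hv
  simpa [Matrix.sum_mulVec, Matrix.smul_mulVec] using hc

theorem singer_model [Fintype F] {K : Type*} [Field K] {τ : K ≃+* K} {φ : K ≃+* F}
    (h : ∀ x, φ (τ x) = σ (φ x)) {H : Subgroup (GL ι F)} (hH : IsMaximalIn (SUG σ G) H)
    {κ : Type} [Fintype κ] [DecidableEq κ] (e : ι ≃ κ) (P : GL ι F) {Γ X : Matrix κ κ K}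
    (hΓ : pbG σ e P G = Γ.map φ) {T : ℕ → Prop}
    (hn : ∀ g ∈ H, ∃ j, T j ∧ (g : Matrix ι ι F) * tr e P (X.map φ) = tr e P (X.map φ) ^ j * g) :
    ∃ H' : Subgroup (GL κ K), IsMaximalIn (SUG τ Γ) H' ∧
      ∀ g ∈ H', ∃ j, T j ∧ (g : Matrix κ κ K) * X = X ^ j * g := by
  obtain ⟨H', h1, h2⟩ := max_model hH h e P hΓ
  refine ⟨H', h1, fun g hg => ?_⟩
  obtain ⟨j, h3, h4⟩ := hn _ (h2 g hg)
  rw [coe_trGL, ← map_pow, ← map_mul, ← map_mul, coe_glMap, ← map_pow', ← map_mul', ← map_mul'] at h4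
  exact ⟨j, h3, (map_inj φ).1 ((tr e P).injective h4)⟩

theorem mul_pow_of_conj {R : Type*} [Monoid R] {g X Y : R} (h : g * X = Y * g) (l : ℕ) :
    g * X ^ l = Y ^ l * g := SemiconjBy.pow_right h l

theorem tau_conj {g : GL ι F} (hg : g ∈ SUG σ G) {X : Matrix ι ι F} {k m : ℕ} (hm : X ^ m = 1)
    (h : (g : Matrix ι ι F) * X = X ^ k * g) (l : ℕ) (v : ι → F) :
    gf σ G (X ^ (k * l % m) *ᵥ ((g : Matrix ι ι F) *ᵥ v)) ((g : Matrix ι ι F) *ᵥ v) =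
      gf σ G (X ^ l *ᵥ v) v := by
  rw [← pow_eq_pow_mod _ hm, pow_mul, Matrix.mulVec_mulVec, ← mul_pow_of_conj h, ← Matrix.mulVec_mulVec,
    (mem_SUG.1 hg).1]

theorem swap_model {K : Type*} [Field K] {τ : K ≃+* K} (hτ : ∀ a, τ (τ a) = a) (hσ : ∀ a, σ (σ a) = a)
    {φ : K ≃+* F} (h : ∀ x, φ (τ x) = σ (φ x)) (x : K) : (τ.trans φ) (τ x) = σ ((τ.trans φ) x) := by
  simp [hτ, h, hσ]

theorem eleven_roots {L : Type*} [Field L] (h2 : (2 : L) = 0) {w x : L} (hw : w * w + w + 1 = 0)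
    (hx : x ^ 11 = 1) (h1 : x ≠ 1) : x ^ 5 = 1 + w * x + x ^ 2 + x ^ 3 + w * w * x ^ 4 ∨
      x ^ 5 = 1 + w * w * x + x ^ 2 + x ^ 3 + w * x ^ 4 := by
  have : (x - 1) * ((x ^ 5 - (1 + w * x + x ^ 2 + x ^ 3 + w * w * x ^ 4)) *
    (x ^ 5 - (1 + w * w * x + x ^ 2 + x ^ 3 + w * x ^ 4))) = 0 := by grind
  simpa only [mul_eq_zero, sub_eq_zero, h1, false_or] using this

/-- an element of order eleven -/
def X5 : Matrix (Fin 5) (Fin 5) K4 :=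
  !![0, 0, 0, 0, 1; 1, 0, 0, 0, .of 2; 0, 1, 0, 0, 1; 0, 0, 1, 0, 1; 0, 0, 0, 1, .of 3]

/-- the invariant form -/
def G5 : Matrix (Fin 5) (Fin 5) K4 :=
  !![1, 0, 0, 1, 1; 0, 1, 0, 0, 1; 0, 0, 1, 0, 0; 1, 0, 0, 1, 0; 1, 1, 0, 0, 1]

/-- an involution -/
def t5 : Matrix (Fin 5) (Fin 5) K4 :=
  !![0, 1, 0, 1, 0; 1, 0, .of 2, 0, 0; 0, 0, 0, .of 3, 0; 0, 0, .of 2, 0, 0; 0, 0, .of 2, 1, 1]

theorem X5_3 : X5 ^ 3 = !![0, 0, 1, .of 3, .of 3; 0, 0, .of 2, 0, .of 2; 0, 0, 1, 1, .of 3;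
    1, 0, 1, .of 2, .of 2; 0, 1, .of 3, .of 3, 0] := by decide +kernel

theorem X5_4 : X5 ^ 4 = !![0, 1, .of 3, .of 3, 0; 0, .of 2, 0, .of 2, .of 3; 0, 1, 1, .of 3, .of 2;
    0, 1, .of 2, .of 2, .of 3; 1, .of 3, .of 3, 0, .of 2] := by
  rw [pow_succ, X5_3]; decide +kernel

theorem X5_5 : X5 ^ 5 = !![1, .of 3, .of 3, 0, .of 2; .of 2, 0, .of 2, .of 3, .of 3; 1, 1, .of 3, .of 2, 1;
    1, .of 2, .of 2, .of 3, 0; .of 3, .of 3, 0, .of 2, .of 2] := by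
  rw [pow_succ, X5_4]; decide +kernel

theorem X5_9 : X5 ^ 9 = !![.of 2, .of 2, 1, 0, 0; .of 3, 1, 0, 1, 0; 1, 1, 0, 0, 1; 0, .of 3, 0, 0, 0;
    .of 2, 1, 0, 0, 0] := by
  rw [show 9 = 5 + 4 from rfl, pow_add, X5_4, X5_5]; decide +kernel

theorem X5_11 : X5 ^ 11 = 1 := by
  rw [show 11 = 9 + 2 from rfl, pow_add, X5_9]; decide +kernel

/-- the invariant set -/
def S5 (v : Fin 5 → K4) : Prop := gf c4 G5 v v = 0 ∧
  wt (gf c4 G5 (X5 ^ 1 *ᵥ v) v) + wt (gf c4 G5 (X5 ^ 3 *ᵥ v) v) + wt (gf c4 G5 (X5 ^ 4 *ᵥ v) v) +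
    wt (gf c4 G5 (X5 ^ 5 *ᵥ v) v) + wt (gf c4 G5 (X5 ^ 9 *ᵥ v) v) = 4

/-- the invariant set in coordinates -/
def S5' (v : Fin 5 → K4) : Prop := gf c4 G5 v v = 0 ∧
  wt (gf c4 !![0, 1, 0, 0, 1; 0, 0, 1, 0, 0; 1, 0, 0, 1, 0; 1, 1, 0, 0, 1; .of 3, 1, 1, 0, 0] v v) +
  wt (gf c4 !![1, 0, 0, 1, 0; 1, 1, 0, 0, 1; .of 3, 1, 1, 0, 0; .of 2, .of 3, 1, 1, 0;
    1, .of 2, .of 3, 1, 1] v v) +
  wt (gf c4 !![1, 1, 0, 0, 1; .of 3, 1, 1, 0, 0; .of 2, .of 3, 1, 1, 0; 1, .of 2, .of 3, 1, 1;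
    1, 1, .of 2, .of 3, 1] v v) +
  wt (gf c4 !![.of 3, 1, 1, 0, 0; .of 2, .of 3, 1, 1, 0; 1, .of 2, .of 3, 1, 1; 1, 1, .of 2, .of 3, 1;
    0, 1, 1, .of 2, .of 3] v v) +
  wt (gf c4 !![0, 1, 1, .of 2, .of 3; 0, 0, 1, 1, .of 2; 1, 0, 0, 1, 1; 0, 1, 0, 0, 1;
    0, 0, 1, 0, 0] v v) = 4

instance : DecidablePred S5' := fun _ => instDecidableAnd

theorem S5_iff (v : Fin 5 → K4) : S5 v ↔ S5' v := by
  unfold S5 S5'
  simp only [gf_mulVec_left, X5_3, X5_4, X5_5, X5_9, pow_one]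
  congr! 8 <;> decide +kernel

theorem S5_check : ∀ a b c d e : K4, S5' ![a, b, c, d, e] →
    S5' ![b + d, a + .of 2 * c, .of 3 * d, .of 2 * c, .of 2 * c + d + e] := by
  decide +kernel

theorem five_model {H : Subgroup (GL (Fin 5) K4)} (hH : IsMaximalIn (SUG c4 G5) H)
    (h : ∀ g ∈ H, ∃ j, (j = 1 ∨ j = 3 ∨ j = 4 ∨ j = 5 ∨ j = 9) ∧
      (g : Matrix (Fin 5) (Fin 5) K4) * X5 = X5 ^ j * g) : False := by
  have hG : Herm c4 1 G5 := ⟨by decide +kernel, IsUnit.of_mul_eq_one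
    !![0, 1, 0, 0, 1; 1, 1, 0, 1, 0; 0, 0, 1, 0, 0; 0, 1, 0, 1, 1; 1, 0, 0, 1, 0] (by decide +kernel),
    by decide +kernel, Or.inl rfl⟩
  obtain ⟨g₀, k1, k2⟩ := exists_mem_SUG (σ := c4) (G := G5) (x := t5) (by decide +kernel) (by
    have h1 : t5 * t5 = 1 := by decide +kernel
    have h2 := congrArg Matrix.det h1
    rw [Matrix.det_mul, Matrix.det_one] at h2
    exact (by decide +kernel : ∀ a : K4, a * a = 1 → a = 1) _ h2)
  obtain ⟨g₁, l1, -, -, l2, -⟩ := exists_tv hG (v := ![1, 1, 0, 0, 0]) (by decide +kernel) (c := 1)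
    (by decide +kernel)
  have := no_max hH S5 (fun g hg v hv => by
      obtain ⟨j, hj, h1⟩ := h g hg
      have h2 := hH.1.le hg
      have e := fun l => tau_conj h2 X5_11 h1 l v
      have e1 := e 1; have e3 := e 3; have e4 := e 4; have e5 := e 5; have e9 := e 9
      refine ⟨by rw [(mem_SUG.1 h2).1, hv.1], ?_⟩
      have := hv.2
      rcases hj with rfl | rfl | rfl | rfl | rfl <;> norm_num at e1 e3 e4 e5 e9 this ⊢ <;>
        rw [e1, e3, e4, e5, e9] <;> omega)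
    k1 (fun hg => by
      obtain ⟨j, hj, h1⟩ := h g₀ hg
      rw [k2] at h1
      rcases hj with rfl | rfl | rfl | rfl | rfl <;> simp only [X5_3, X5_4, X5_5, X5_9, pow_one] at h1 <;>
        revert h1 <;> decide +kernel)
    (fun v hv => by
      rw [S5_iff] at hv ⊢
      have e1 : v = ![v 0, v 1, v 2, v 3, v 4] := by ext1 i; fin_cases i <;> rfl
      have := S5_check _ _ _ _ _ (e1 ▸ hv)
      convert this
      rw [k2]
      ext1 i
      fin_cases i <;> simp [t5, Matrix.mulVec, dotProduct, Fin.sum_univ_five])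
    l1 (v := ![0, 0, 0, 1, .of 2]) ((S5_iff _).2 (by decide +kernel))
  rw [l2, S5_iff] at this
  revert this
  decide +kernel

theorem singer_five_two [Fintype F] (h4 : Fintype.card F = 2 ^ 2) (hG : Herm σ 1 G)
    (hne : σ ≠ RingEquiv.refl F) (hn : Fintype.card ι = 5) {K : Subalgebra F (Matrix ι ι F)}
    (hK : IsFieldSubalgebra 5 K) (ha : IsAdjointClosedFor (gf σ G) K) {H : Subgroup (GL ι F)}
    (hH : IsMaximalIn (SUG σ G) H) (hle : H ≤ subalgebraNormalizer K) : False := by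
  haveI : Nonempty ι := Fintype.card_pos_iff.1 (by omega)
  obtain ⟨x, hxK, hx11, hxu, hxi, -, hxn, hxv⟩ := singer_data (m := 2) h4 hG hne Nat.prime_five hK ha
    (l := 11) (by norm_num) (by norm_num)
  have h2 : (2 : F) = 0 := two_eq_zero_of_four h4
  have hx1 : x ^ 11 = 1 := by rw [← hx11, pow_orderOf_eq_one]
  obtain ⟨φ, hφ, hx5⟩ : ∃ φ : K4 ≃+* F, (∀ a, φ (c4 a) = σ (φ a)) ∧
      x ^ 5 = 1 + φ (.of 2) • x + x ^ 2 + x ^ 3 + φ (.of 3) • x ^ 4 := by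
    obtain ⟨φ, hφ⟩ := model4 h4 hG.invol hne
    letI : Field K := (isField_of_inv hK.comm hK.inv).toField
    have e1 : φ (.of 2) * φ (.of 2) = φ (.of 3) := by rw [← map_mul]; congr 1
    rcases eleven_roots (L := K) (w := algebraMap F K (φ (.of 2))) (x := ⟨x, hxK⟩)
      (by rw [← map_ofNat (algebraMap F K), h2, map_zero])
      (by rw [← map_mul, ← map_one (algebraMap F K), ← map_add, ← map_add, ← map_mul, ← map_one φ,
        ← map_add, ← map_add, show (GF.of 2 * .of 2 + .of 2 + 1 : K4) = 0 by decide +kernel, map_zero,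
        map_zero]) (Subtype.ext hx1)
      (fun h => by rw [show x = 1 from congrArg Subtype.val h, orderOf_one] at hx11; omega) with h | h
    · rw [← map_mul, e1, ← Algebra.smul_def, ← Algebra.smul_def] at h
      exact ⟨φ, hφ, congrArg Subtype.val h⟩
    · rw [← map_mul, e1, ← Algebra.smul_def, ← Algebra.smul_def] at h
      exact ⟨c4.trans φ, swap_model (by decide +kernel) hG.invol hφ, congrArg Subtype.val h⟩
  obtain ⟨u₀, hu₀⟩ := exists_unit hG hne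
  obtain ⟨k, -, hk0, hk⟩ := hxv u₀ (by rw [hu₀]; exact one_ne_zero) 1 (map_one σ) 0
  generalize k *ᵥ u₀ = v at hk0 hk
  let e : ι ≃ Fin 5 := Fintype.equivFinOfCardEq hn
  obtain ⟨P, hP⟩ := singer_frame hK hxK hxi e (v := v) (by
    rintro rfl; exact zero_ne_one ((gf_zero_left _).symm.trans hk0))
  have hg := gf_pow_pow hG hxu v
  have t1 : gf σ G (x *ᵥ v) v = 0 := by simpa using hk 0
  have t2 : gf σ G (x ^ 2 *ᵥ v) v = 0 := by simpa using hk 1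
  have hr : ∀ j, gf σ G (x ^ 5 *ᵥ v) (x ^ j *ᵥ v) = gf σ G (x ^ 0 *ᵥ v) (x ^ j *ᵥ v) +
      φ (.of 2) * gf σ G (x ^ 1 *ᵥ v) (x ^ j *ᵥ v) + gf σ G (x ^ 2 *ᵥ v) (x ^ j *ᵥ v) +
      gf σ G (x ^ 3 *ᵥ v) (x ^ j *ᵥ v) + φ (.of 3) * gf σ G (x ^ 4 *ᵥ v) (x ^ j *ᵥ v) := fun j => by
    rw [hx5]
    simp only [Matrix.add_mulVec, Matrix.smul_mulVec, gf_add_left, gf_smul_left, pow_zero, pow_one]
  have t3 : gf σ G (x ^ 3 *ᵥ v) v = 1 := by
    have := hr 2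
    simp only [hg] at this
    simpa [hk0, t1, t2] using this
  have t4 : gf σ G (x ^ 4 *ᵥ v) v = 1 := by
    have := hr 1
    simp only [hg] at this
    simp [hk0, t1, t2, t3] at this
    rw [this, ← map_add, ← map_one φ]
    congr 1
  have hΓ : pbG σ e P G = G5.map φ := by
    ext i j
    rw [pbG_apply, hP, hP, hg]
    fin_cases i <;> fin_cases j <;> simp [G5, hk0, t1, t2, t3, t4]
  have hx : x = tr e P (X5.map φ) := eq_tr_of_cols hP fun i => by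
    rw [Matrix.mulVec_mulVec, ← pow_succ']
    fin_cases i <;>
      simp [X5, Fin.sum_univ_five, hx5, Matrix.add_mulVec, Matrix.smul_mulVec]
  obtain ⟨H', h1, h2⟩ := singer_model hφ hH e P hΓ (X := X5)
    (T := fun j => j = 1 ∨ j = 3 ∨ j = 4 ∨ j = 5 ∨ j = 9) fun g hg => by
      obtain ⟨j, h1, h2⟩ := hxn g (hle hg)
      rw [pow_eq_pow_mod _ hx1] at h2
      refine ⟨_, ?_, hx ▸ h2⟩
      interval_cases j <;> norm_num
  exact five_model h1 h2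

end Cfsg.Agent.H5.SU
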