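import Cfsg.Agent.H5.SUTools

/-!
Exceptional imprimitive subgroups of `SU₄(2)` and `SU₄(3)`.
-/

set_option autoImplicit false
set_option linter.unusedSectionVars false

namespace Cfsg.Agent.H5.SU

open Module Cfsg.Geo Cfsg.Agent.H7 Cfsg.Agent.Asch Cfsg.Agent.H5.SL
open scoped MatrixGroups Matrix Kronecker

variable {ι : Type} [Fintype ι] [DecidableEq ι] {F : Type*} [Field F] {σ : F ≃+* F} {G : Matrix ι ι F}

theorem key_four (α : Fin 4 → F) (h4 : ∀ i, α i ^ 4 = 1) (h : (∏ i, α i) ^ 2 = 1) (a b : Fin 4) :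
    ∃ η : F, ∀ i, α (xr a (xr b i)) * α i = η * (α (xr b i) * α (xr a i)) := by
  refine ⟨α (xr a b) * α 0 * (α b * α a) ^ 3, fun i => ?_⟩
  rw [Fin.prod_univ_four] at h
  have h0 := h4 0; have h1 := h4 1; have h2 := h4 2; have h3 := h4 3
  fin_cases a <;> fin_cases b <;> fin_cases i <;> simp only [xr] <;> simp <;> grind

theorem conj_mem_pauli' {ψ : (ι → F) ≃ₗ[F] (Fin 4 → F)} {h g : GL ι F} {π : Equiv.Perm (Fin 4)}
    {α : Fin 4 → F} (h4 : ∀ i, α i ^ 4 = 1) (hp : (∏ i, α i) ^ 2 = 1)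
    (hh : Mono ψ (h : Matrix ι ι F) π α) (hg : g ∈ pauli ψ) : h * g * h⁻¹ ∈ pauli ψ := by
  have hα : ∀ i, α i ≠ 0 := fun i h0 => by simpa [h0] using h4 i
  obtain ⟨a, d, h1, h2, h3⟩ := hg
  obtain ⟨a', ha'⟩ := exists_conj π a
  refine ⟨a', _, fun i => mul_ne_zero (mul_ne_zero (hα _) (h1 _)) (inv_ne_zero (hα _)), fun b => ?_,
    ((hh.mul h3).mul (hh.inv hα)).congr ?_⟩
  · obtain ⟨b', hb'⟩ := exists_conj π⁻¹ b
    obtain ⟨ε, hε⟩ := h2 b'
    obtain ⟨η, hη⟩ := key_four α h4 hp a b'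
    refine ⟨ε * η, fun j => ?_⟩
    simp only [kl_apply, hb', hε]
    have e1 := hα (xr b' (π⁻¹ j))
    have e2 := hα (π⁻¹ j)
    field_simp
    linear_combination (ε * d (π⁻¹ j)) * hη (π⁻¹ j)
  · ext j
    simp [kl_apply, ha']

theorem gf_one {κ : Type} [Fintype κ] [DecidableEq κ] (u v : κ → F) :
    gf σ 1 u v = ∑ i, u i * σ (v i) := by
  rw [gf, Matrix.one_mulVec]; rfl

/-- the monomial subgroup of `SU₄(3)` -/
theorem frames_four_three [Fintype F] (h9 : Fintype.card F = 3 ^ 2) (hG : Herm σ 1 G)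
    (hne : σ ≠ RingEquiv.refl F) {D : Fin 4 → Submodule F (ι → F)}
    (hD : IsNondegenerateMDecomposition (gf σ G) 1 D) {H : Subgroup (GL ι F)} (hH : H ≤ SUG σ G)
    (hle : H ≤ decompositionStabilizer D) : FormC5 σ G H ∨ UniC6 σ G H := by
  have hn := H8.IsMDecomposition.mul_eq hD.decomp
  haveI : Nonempty ι := Fintype.card_pos_iff.1 (by omega)
  let e : ι ≃ Fin 4 := Fintype.equivFinOfCardEq (by omega)
  obtain ⟨P, hP, hm⟩ := exists_mono_frame hG hne hD e
  have h2 : (2 : F) ≠ 0 := odd_card_iff.1 (by rw [h9]; decide)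
  have hN : GNorms H (pauli (H8.trvE e P).symm) := fun h hh g hg => by
    obtain ⟨h, rfl⟩ := (trGL e P).surjective h
    obtain ⟨π, α, h1⟩ := hm h (hle hh)
    have h3 := mem_SUG'.1 ((trGL_mem_SUG e P).1 (hH hh))
    rw [hP] at h3
    refine conj_mem_pauli' (fun i => ?_) ?_ (h1.mono e P) hg
    · rw [← h1.norm h3.1 i, invol_eq_pow hG.invol hne h9]; ring
    · rw [← one_mul (_ ^ 2), ← sign_sq π, ← mul_pow, ← h1.det, h3.2, one_pow, sign_sq]
  obtain ⟨R, hR⟩ := (pauli_rData (ψ := (H8.trvE e P).symm) h2).exists_rSat fun x hx => by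
    obtain ⟨ε, d, h1, h3, h4⟩ := pauli_sq hx
    refine ⟨(Units.mk0 d h3)⁻¹, Units.ext ?_⟩
    rw [show 2 * Nat.gcd 2 2 = 2 * 2 from rfl, pow_mul, Units.val_pow_eq_pow_val,
      Units.val_pow_eq_pow_val, Units.val_mul, coe_sc, smul_mul_assoc, one_mul, smul_pow,
      sq (x : Matrix ι ι F), h4, smul_smul, smul_pow, one_pow, Units.val_one]
    simp only [Units.val_inv_eq_inv_val, Units.val_mk0]
    rw [show (d⁻¹ ^ 2 * (ε * (d * d))) ^ 2 = 1 by field_simp; linear_combination h1, one_smul]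
  refine hR.uni hG hne ?_ (by omega) hN
  rintro g ⟨a, d, h1, h3, h4⟩
  have h5 : ∀ u v, gf σ G u v = ∑ i, (H8.trvE e P).symm u i * σ ((H8.trvE e P).symm v i) := by
    intro u v
    obtain ⟨u, rfl⟩ := (H8.trvE e P).surjective u
    obtain ⟨v, rfl⟩ := (H8.trvE e P).surjective v
    rw [LinearEquiv.symm_apply_apply, LinearEquiv.symm_apply_apply, H8.trvE_apply, H8.trvE_apply,
      gf_trv, hP, gf_one]
  refine ⟨Units.mk0 (d 0 * σ (d 0)) (mul_ne_zero (h1 0) (by simpa using h1 0)), fun u v => ?_⟩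
  rw [h5, h5, ← Equiv.sum_comp (kl a), Finset.mul_sum]
  refine Finset.sum_congr rfl fun i _ => ?_
  obtain ⟨ε, hε⟩ := h3 i
  have h6 := hε 0
  rw [xr_zero] at h6
  rw [h4, h4, h6, Units.val_mk0]
  rcases mul_self_eq_one_iff.1 (eps_sq h1 hε) with rfl | rfl <;> simp <;> ring

theorem det_diag4 (a b c d e f g h : F) :
    (!![a, b, 0, 0; c, d, 0, 0; 0, 0, e, f; 0, 0, g, h] : Matrix (Fin 4) (Fin 4) F).det =
      (a * d - b * c) * (e * h - f * g) := by
  simp [Matrix.det_succ_row_zero, Fin.sum_univ_succ, Fin.succAbove]; ring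

theorem det_anti4 (a b c d e f g h : F) :
    (!![0, 0, a, b; 0, 0, c, d; e, f, 0, 0; g, h, 0, 0] : Matrix (Fin 4) (Fin 4) F).det =
      (a * d - b * c) * (e * h - f * g) := by
  simp [Matrix.det_succ_row_zero, Fin.sum_univ_succ, Fin.succAbove]; ring

/-- dual bases of a pair of totally isotropic subspaces -/
theorem exists_dual (hG : Herm σ 1 G) {m : ℕ} {D : Fin 2 → Submodule F (ι → F)}
    (hD : IsMDecomposition m D) (ht : ∀ i, IsTotallySingularFor (gf σ G) (D i)) :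
    ∃ u w : Fin m → ι → F, (∀ i, u i ∈ D 0) ∧ (∀ i, w i ∈ D 1) ∧
      ∀ i j, gf σ G (w i) (u j) = if i = j then 1 else 0 := by
  let b := Module.finBasisOfFinrankEq F (D 0) (hD.finrank_eq 0)
  let φ : D 1 →ₗ[F] (Fin m → F) := LinearMap.pi fun j => (fl σ G (b j)).comp (D 1).subtype
  have h1 : Function.Injective φ := (injective_iff_map_eq_zero φ).2 fun w hw => by
    refine Subtype.ext (hG.eq_zero_of_left fun v => ?_)
    have h2 : v ∈ D 0 ⊔ D 1 := by
      have := hD.iSup_eq_top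
      rw [show iSup D = D 0 ⊔ D 1 from le_antisymm (iSup_le fun i => by fin_cases i <;> simp)
        (sup_le (le_iSup D 0) (le_iSup D 1))] at this
      rw [this]; trivial
    obtain ⟨x, hx, y, hy, rfl⟩ := Submodule.mem_sup.1 h2
    rw [gf_add_left, ht 1 y hy _ w.2, add_zero]
    have h3 : x = ∑ j, b.repr ⟨x, hx⟩ j • (b j : ι → F) := by
      have := (congrArg Subtype.val (b.sum_repr ⟨x, hx⟩)).symm
      simpa only [Submodule.coe_sum, Submodule.coe_smul] using this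
    rw [h3, gf_sum_left]
    refine Finset.sum_eq_zero fun j _ => ?_
    rw [gf_smul_left, hG.gf_eq_zero_comm (show gf σ G w (b j) = 0 from congrFun hw j), mul_zero]
  have h2 : Function.Surjective φ :=
    (LinearMap.injective_iff_surjective_of_finrank_eq_finrank (by simp [hD.finrank_eq])).1 h1
  choose w hw using fun i => h2 (Pi.single i 1)
  refine ⟨fun i => b i, fun i => w i, fun i => (b i).2, fun i => (w i).2, fun i j => ?_⟩
  have : gf σ G (w i) (b j) = _ := congrFun (hw i) j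
  rw [this, Pi.single_apply]
  simp [eq_comm]

/-- pairs of totally isotropic planes over small fields -/
theorem pair_four [Fintype F] (hs : ∀ x : F, σ x = x → x ≠ 0 → x * x = 1) (hG : Herm σ 1 G)
    (hne : σ ≠ RingEquiv.refl F) {D : Fin 2 → Submodule F (ι → F)} (hD : IsMDecomposition 2 D)
    (ht : ∀ i, IsTotallySingularFor (gf σ G) (D i)) {H : Subgroup (GL ι F)} (hH : H ≤ SUG σ G)
    (hle : H ≤ decompositionStabilizer D) : FormC5 σ G H := by
  have hn := H8.IsMDecomposition.mul_eq hD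
  haveI : Nonempty ι := Fintype.card_pos_iff.1 (by omega)
  let e : ι ≃ Fin 4 := Fintype.equivFinOfCardEq (by omega)
  obtain ⟨u, w, hu, hw, hwu⟩ := exists_dual hG hD ht
  have huw : ∀ i j, gf σ G (u i) (w j) = if j = i then 1 else 0 := fun i j => by
    rw [← gf_conj hG, hwu]; split_ifs <;> simp
  have huu : ∀ i j, gf σ G (u i) (u j) = 0 := fun i j => ht 0 _ (hu i) _ (hu j)
  have hww : ∀ i j, gf σ G (w i) (w j) = 0 := fun i j => ht 1 _ (hw i) _ (hw j)
  have hli : LinearIndependent F ![u 0, u 1, w 0, w 1] := by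
    rw [Fintype.linearIndependent_iff]
    intro c hc i
    have k : ∀ v, gf σ G (∑ i, c i • ![u 0, u 1, w 0, w 1] i) v = 0 := fun v => by
      rw [hc, gf_zero_left]
    fin_cases i
    · simpa [Fin.sum_univ_four, gf_add_left, gf_smul_left, huw, hww] using k (w 0)
    · simpa [Fin.sum_univ_four, gf_add_left, gf_smul_left, huw, hww] using k (w 1)
    · simpa [Fin.sum_univ_four, gf_add_left, gf_smul_left, huu, hwu] using k (u 0)
    · simpa [Fin.sum_univ_four, gf_add_left, gf_smul_left, huu, hwu] using k (u 1)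
  obtain ⟨P, hP⟩ := exists_frame_of_linearIndependent e hli
  have hΓ : pbG σ e P G = !![0, 0, 1, 0; 0, 0, 0, 1; 1, 0, 0, 0; 0, 1, 0, 0] := by
    ext i j
    rw [pbG_apply, hP, hP]
    fin_cases i <;> fin_cases j <;> simp [huw, hwu, huu, hww]
  obtain ⟨c, hc, hσc⟩ := exists_skew' hG hne
  have hc4 : c * c * (c * c) = 1 := hs _ (by rw [map_mul, hσc, neg_mul_neg]) (mul_ne_zero hc hc)
  refine formC5_of_bilinear hG hne (hH.trans fixesGram_SUG.le_sim) e P hc
    (A := !![0, 1, 0, 0; -1, 0, 0, 0; 0, 0, 0, c * c; 0, 0, -(c * c), 0])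
    (M := !![0, 0, 0, -c; 0, 0, c, 0; 0, -c⁻¹, 0, 0; c⁻¹, 0, 0, 0]) ?_ ?_ ?_ fun g hg => ?_
  · rw [hΓ]
    ext i j
    fin_cases i <;> fin_cases j <;> simp [Matrix.mul_apply, Fin.sum_univ_four, hc]
  · ext i j
    fin_cases i <;> fin_cases j <;> simp [Matrix.mul_apply, Fin.sum_univ_four, hc, hσc]
  · ext i j
    fin_cases i <;> fin_cases j <;> simp [hσc]
  obtain ⟨h1, h2⟩ := mem_SUG'.1 ((trGL_mem_SUG e P).1 (hH hg))
  rw [hΓ] at h1
  obtain ⟨π, hπ⟩ := mulVec_mem_decomp (hle hg)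
  have hmem : ∀ i : Fin 4, trv e P (Pi.single i 1) ∈ D (![0, 0, 1, 1] i) := fun i => by
    rw [hP]; fin_cases i; exacts [hu 0, hu 1, hw 0, hw 1]
  have h3 : ∀ i j : Fin 4, π (![0, 0, 1, 1] i) = ![0, 0, 1, 1] j →
      (g : Matrix (Fin 4) (Fin 4) F) (![2, 3, 0, 1] j) i = 0 := fun i j hij => by
    have := ht _ _ (hπ _ _ (hmem i)) _ (hij ▸ hmem j)
    rw [coe_trGL, tr_mulVec, gf_trv, hΓ, gf, comp_single] at this
    fin_cases j <;> simpa [dotProduct, Fin.sum_univ_four] using this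
  rw [mem_similarityGroup_gf, map_refl]
  generalize (g : Matrix (Fin 4) (Fin 4) F) = x at h1 h2 h3
  have key : ∀ {α β : F}, α * σ β = 1 → α * β = 1 → α ≠ 0 ∧ β = α := fun {α β} k1 k2 => by
    have k0 : α ≠ 0 := left_ne_zero_of_mul_eq_one k1
    have k3 := hs β (mul_left_cancel₀ k0 (k1.trans k2.symm)) (right_ne_zero_of_mul_eq_one k2)
    exact ⟨k0, by linear_combination (-β) * k2 + α * k3⟩
  have hπ' : ∀ π : Equiv.Perm (Fin 2), (π 0 = 0 ∧ π 1 = 1) ∨ (π 0 = 1 ∧ π 1 = 0) := by decide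
  rcases hπ' π with ⟨p0, p1⟩ | ⟨p0, p1⟩
  · have hx : x = !![x 0 0, x 0 1, 0, 0; x 1 0, x 1 1, 0, 0; 0, 0, x 2 2, x 2 3; 0, 0, x 3 2, x 3 3] := by
      ext i j
      fin_cases i <;> fin_cases j <;> simp
      exacts [h3 2 2 p1, h3 3 2 p1, h3 2 3 p1, h3 3 3 p1, h3 0 0 p0, h3 1 0 p0, h3 0 1 p0, h3 1 1 p0]
    rw [hx] at h1 h2 ⊢
    rw [det_diag4] at h2
    have e02 := congrFun (congrFun h1 0) 2
    have e03 := congrFun (congrFun h1 0) 3
    have e12 := congrFun (congrFun h1 1) 2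
    have e13 := congrFun (congrFun h1 1) 3
    simp [Matrix.mul_apply, Fin.sum_univ_four] at e02 e03 e12 e13
    obtain ⟨k1, k2⟩ := key (by simp only [map_sub, map_mul]; grind) h2
    refine ⟨Units.mk0 _ k1, ?_⟩
    ext i j
    fin_cases i <;> fin_cases j <;> simp [Matrix.mul_apply, Fin.sum_univ_four] <;> grind
  · have hx : x = !![0, 0, x 0 2, x 0 3; 0, 0, x 1 2, x 1 3; x 2 0, x 2 1, 0, 0; x 3 0, x 3 1, 0, 0] := by
      ext i j
      fin_cases i <;> fin_cases j <;> simp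
      exacts [h3 0 2 p0, h3 1 2 p0, h3 0 3 p0, h3 1 3 p0, h3 2 0 p1, h3 3 0 p1, h3 2 1 p1, h3 3 1 p1]
    rw [hx] at h1 h2 ⊢
    rw [det_anti4] at h2
    have e02 := congrFun (congrFun h1 2) 0
    have e03 := congrFun (congrFun h1 2) 1
    have e12 := congrFun (congrFun h1 3) 0
    have e13 := congrFun (congrFun h1 3) 1
    simp [Matrix.mul_apply, Fin.sum_univ_four] at e02 e03 e12 e13
    obtain ⟨k1, k2⟩ := key (by simp only [map_sub, map_mul]; grind) h2
    refine ⟨Units.mk0 _ (mul_ne_zero (mul_ne_zero hc hc) k1), ?_⟩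
    ext i j
    fin_cases i <;> fin_cases j <;> simp [Matrix.mul_apply, Fin.sum_univ_four] <;> grind

end Cfsg.Agent.H5.SU
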