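import Cfsg.Agent.H5.SUSmall
import Cfsg.Agent.H5.SLMax
import Cfsg.Agent.Asch.Final

/-!
Maximal subgroups of the special unitary groups: the list of cases.
-/

set_option autoImplicit false
set_option linter.unusedSectionVars false
set_option synthInstance.maxSize 2000

namespace Cfsg.Agent.H5.SU

open Module Cfsg.Geo Cfsg.Agent.H7 Cfsg.Agent.Asch
open scoped MatrixGroups Matrix Kronecker

variable {F : Type*} [Field F] [Fintype F] {q n : ℕ}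

/-- the special unitary group of the standard form -/
abbrev SUn (n : ℕ) (F : Type*) [Field F] (q : ℕ) : Subgroup (GL (Fin n) F) :=
  GU n F q ⊓ specialLinear (Fin n) F

theorem SUn_eq (hF : Fintype.card F = q ^ 2) : SUn n F q = SUG (qInv hF) 1 := by
  rw [SUn, GU, hermForm_eq hF, SUG]

theorem two_le_q (hF : Fintype.card F = q ^ 2) : 2 ≤ q := by
  have := Fintype.one_lt_card (α := F)
  by_contra h
  have : q = 0 ∨ q = 1 := by omega
  rcases this with rfl | rfl <;> omega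

/-- class 5 with equality -/
def Eq5 (q : ℕ) (H : Subgroup (GL (Fin n) F)) : Prop :=
  (∃ (F₀ : Subfield F) (r : ℕ) (P : GL (Fin n) F), r.Prime ∧ Odd r ∧ Fintype.card F = Nat.card F₀ ^ r ∧
    IsFormRationalStructure (hermForm n F q) F₀ 1 P ∧ H = subfieldSubgroup F₀ P ⊓ SUn n F q) ∨
  (Odd q ∧ ∃ (F₀ : Subfield F) (P : GL (Fin n) F), Fintype.card F = Nat.card F₀ ^ 2 ∧
    IsFormRationalStructure (hermForm n F q) F₀ 1 P ∧ H = subfieldSubgroup F₀ P ⊓ SUn n F q) ∨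
  (Even n ∧ ∃ (F₀ : Subfield F) (P : GL (Fin n) F) (ζ : F), Fintype.card F = Nat.card F₀ ^ 2 ∧ ζ ≠ 0 ∧
    ζ + ζ ^ q = 0 ∧ IsFormRationalStructure (hermForm n F q) F₀ ζ P ∧
    (∀ u : Fin n → F, (∀ i, u i ∈ F₀) → hermForm n F q ((P : Matrix (Fin n) (Fin n) F) *ᵥ u)
      ((P : Matrix (Fin n) (Fin n) F) *ᵥ u) = 0) ∧ H = subfieldSubgroup F₀ P ⊓ SUn n F q)

/-- class 6 with equality -/
def Eq6 (q : ℕ) (H : Subgroup (GL (Fin n) F)) : Prop :=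
  ∃ (r : ℕ) (R : Subgroup (GL (Fin n) F)) (p e k : ℕ), IsSymplecticTypeGroup r R ∧
    ActsAbsolutelyIrreducibly (matrixSet R) ∧ R ≤ similarityGroup (hermForm n F q) ∧ r ≠ p ∧
    IsMinimalFieldFor (Nat.card (Subgroup.center R)) p e F ∧
    ((Odd r ∧ Nat.card (Subgroup.center R) = r ∧ 1 ≤ k ∧ Nat.card R = r ^ (1 + 2 * k)) ∨
     (r = 2 ∧ e = 2 ∧ Nat.card (Subgroup.center R) = 4 ∧ Nat.card R = 2 ^ (2 + 2 * k))) ∧
    H = subgroupNormalizer R ⊓ SUn n F q ∧ RData r R ∧ n = r ^ k ∧ (Odd r → R ≤ GU n F q)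

variable {H : Subgroup (GL (Fin n) F)}

theorem le_GU (hH : IsMaximalIn (SUn n F q) H) : H ≤ GU n F q := hH.1.le.trans inf_le_left

theorem le_sim (hF : Fintype.card F = q ^ 2) (hH : IsMaximalIn (SUn n F q) H) :
    H ≤ similarityGroup (gf (qInv hF) 1) := (fixesGram_of_le_GU hF (le_GU hH)).le_sim

theorem eq_of (hF : Fintype.card F = q ^ 2) (hH : IsMaximalIn (SUn n F q) H)
    {M : Subgroup (GL (Fin n) F)} (hle : H ≤ M) (hM : ¬ SUG (qInv hF) 1 ≤ M) : H = M ⊓ SUn n F q :=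
  SL.eq_inf_of_maximal hH hle (SUn_eq (n := n) hF ▸ hM)

theorem eq5_of_uniC5 (hF : Fintype.card F = q ^ 2) (hn : 3 ≤ n) (hH : IsMaximalIn (SUn n F q) H)
    (h : UniC5 (qInv hF) 1 H) : Eq5 q H := by
  have key : ∀ {F₀ : Subfield F} {r : ℕ} {P : GL (Fin n) F}, r.Prime → Fintype.card F = Nat.card F₀ ^ r →
      H ≤ subfieldSubgroup F₀ P → H = subfieldSubgroup F₀ P ⊓ SUn n F q := fun h1 h2 h3 =>
    eq_of hF hH h3 (not_le_subfieldSubgroup (herm_one hF) (qInv_ne hF) (by simpa using hn)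
      (SL.ne_top_of_card h1 h2) _)
  unfold Eq5
  rw [hermForm_eq hF]
  rcases h with ⟨F₀, r, P, h1, h2, h3, h4, h⟩ | ⟨F₀, P, h1, h2, h3, h⟩ | ⟨F₀, P, ζ, h1, h2, h3, h4, h5, h6, h⟩
  · exact Or.inl ⟨F₀, r, P, h1, h2, h3, h4, key h1 h3 h⟩
  · exact Or.inr (Or.inl ⟨(Nat.odd_pow_iff two_ne_zero).1 (hF ▸ h1), F₀, P, h2, h3, key Nat.prime_two h2 h⟩)
  · exact Or.inr (Or.inr ⟨by simpa using h1, F₀, P, ζ, h2, h3, h4, h5, h6, key Nat.prime_two h2 h⟩)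

theorem eq5_of_formC5 (hF : Fintype.card F = q ^ 2) (hn : 3 ≤ n) (hH : IsMaximalIn (SUn n F q) H)
    (hI : Irred H) (h : FormC5 (qInv hF) 1 H) : Eq5 q H :=
  eq5_of_uniC5 hF hn hH (h.uni (herm_one hF) (qInv_ne hF) (by simp; omega) hI (le_sim hF hH))

theorem eq6_of_uniC6 (hF : Fintype.card F = q ^ 2) (hn : 3 ≤ n) (hq : n = 3 → 3 ≤ q)
    (hH : IsMaximalIn (SUn n F q) H) (h : UniC6 (qInv hF) 1 H) : Eq6 q H := by
  obtain ⟨r, R, p, e, k, h1, h2, h3, h4, h5, h6, h7, h8, h9, h10⟩ := h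
  rw [Fintype.card_fin] at h9
  refine ⟨r, R, p, e, k, h1, h2, hermForm_eq hF n ▸ h3, h4, h5, h6, eq_of hF hH h7
    (not_le_subgroupNormalizer (herm_one hF) (qInv_ne hF) (by simpa using hn) ?_ h8), h8, h9,
    fun h => le_GU_of_fixesGram hF (h10 h)⟩
  rw [Fintype.card_fin]
  by_contra! h
  have hn3 : n = 3 := by omega
  obtain rfl : q = 3 := by
    have := hq hn3
    rw [hF] at h
    nlinarith [h.2]
  have e1 : r = 3 := SL.eq_of_pow h8.prime Nat.prime_three h9 (by rw [hn3])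
  have e2 : p = 3 := SL.eq_of_pow h5.1 Nat.prime_three h5.2.2.1 (by rw [hF]; norm_num)
  omega

theorem maximal_cases (hF : Fintype.card F = q ^ 2) (hn : 3 ≤ n) (hq : n = 3 → 3 ≤ q)
    (hH : IsMaximalIn (SUn n F q) H) :
    (∃ W : Submodule F (Fin n → F), W ≠ ⊥ ∧ IsTotallySingularFor (hermForm n F q) W ∧
      H = subspaceStabilizer W ⊓ SUn n F q) ∨
    (∃ W : Submodule F (Fin n → F), W ≠ ⊥ ∧ IsNondegenerateOn (hermForm n F q) W ∧
      2 * finrank F W < n ∧ H = subspaceStabilizer W ⊓ SUn n F q) ∨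
    (∃ (t m : ℕ) (D : Fin t → Submodule F (Fin n → F)),
      IsNondegenerateMDecomposition (hermForm n F q) m D ∧ t * m = n ∧ 2 ≤ t ∧ 1 ≤ m ∧
      (m = 2 → 3 ≤ q) ∧ (m = 1 → 3 ≤ q → Irred H) ∧ H = decompositionStabilizer D ⊓ SUn n F q) ∨
    (Irred H ∧ ∃ (m : ℕ) (D : Fin 2 → Submodule F (Fin n → F)), 2 * m = n ∧ IsMDecomposition m D ∧
      (∀ i, IsTotallySingularFor (hermForm n F q) (D i)) ∧ H = decompositionStabilizer D ⊓ SUn n F q) ∨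
    (Irred H ∧ ∃ (r : ℕ) (K : Subalgebra F (Matrix (Fin n) (Fin n) F)), r.Prime ∧ Odd r ∧ r ∣ n ∧
      IsFieldSubalgebra r K ∧ IsAdjointClosedFor (hermForm n F q) K ∧
      H = subalgebraNormalizer K ⊓ SUn n F q) ∨
    (∃ (a b : ℕ) (e : Fin n ≃ Fin a × Fin b) (P : GL (Fin n) F) (f₁ : (Fin a → F) → (Fin a → F) → F)
      (f₂ : (Fin b → F) → (Fin b → F) → F), 2 ≤ a ∧ a < b ∧ a * b = n ∧ (a = 2 → 3 ≤ q) ∧
      IsUnitaryFormPow q f₁ ∧ IsUnitaryFormPow q f₂ ∧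
      IsTensorFormStructure (fun x : F => x ^ q) (hermForm n F q) f₁ f₂ e P ∧
      H = tensorProductSubgroup a b e P ⊓ SUn n F q) ∨
    (Irred H ∧ Eq5 q H) ∨ Eq6 q H ∨
    (∃ (k t : ℕ) (e : Fin n ≃ (Fin t → Fin k)) (P : GL (Fin n) F) (f₁ : (Fin k → F) → (Fin k → F) → F),
      3 ≤ k ∧ 2 ≤ t ∧ k ^ t = n ∧ (k = 3 → 3 ≤ q) ∧ IsUnitaryFormPow q f₁ ∧
      IsTensorPowerFormStructure (fun x : F => x ^ q) (hermForm n F q) f₁ e P ∧
      H = tensorWreathSubgroup k t e P ⊓ SUn n F q) ∨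
    InUnitaryResidualClass H := by
  have hG : Herm (qInv hF) 1 (1 : Matrix (Fin n) (Fin n) F) := herm_one hF
  have hne := qInv_ne hF
  have hc : Fintype.card (Fin n) = n := Fintype.card_fin n
  have hq2 := two_le_q hF
  have h4 : ¬ 3 ≤ q → Fintype.card F = 4 := fun h => by rw [hF, show q = 2 by omega]; rfl
  have hs := le_sim hF hH
  have hdec : ∀ (t m : ℕ) (D : Fin t → Submodule F (Fin n → F)),
      IsNondegenerateMDecomposition (gf (qInv hF) 1) m D → H ≤ decompositionStabilizer D →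
      (m = 1 → 3 ≤ q → Irred H) →
      ∃ (t m : ℕ) (D : Fin t → Submodule F (Fin n → F)),
      IsNondegenerateMDecomposition (hermForm n F q) m D ∧ t * m = n ∧ 2 ≤ t ∧ 1 ≤ m ∧
      (m = 2 → 3 ≤ q) ∧ (m = 1 → 3 ≤ q → Irred H) ∧ H = decompositionStabilizer D ⊓ SUn n F q := by
    intro t m D hD hle hI
    rw [hermForm_eq hF]
    wlog hm : m = 2 → 3 ≤ q generalizing t m D
    · push Not at hm
      obtain ⟨rfl, hm⟩ := hm
      obtain ⟨D', h1, h2⟩ := frame_of_planes (h4 hm.not_ge) hG hne hD hs hle hc.symm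
      exact this n 1 D' h1 h2 (fun _ h => absurd h hm.not_ge) (by omega)
    have h1 := H8.IsMDecomposition.mul_eq hD.decomp
    rw [hc] at h1
    have h2 := hD.decomp.pos
    refine ⟨t, m, D, hD, h1, hD.decomp.two_le, h2, hm, hI, eq_of hF hH hle ?_⟩
    by_cases h : 2 ≤ m ∨ 4 < Fintype.card F
    · exact not_le_decompositionStabilizer hG hne hD.decomp h
    · push Not at h
      obtain rfl : m = 1 := by omega
      refine not_le_frame hG hne hD ?_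
      by_contra h5
      have := hq (by omega)
      rw [hF] at h
      nlinarith [h.2]
  by_cases hI : Irred H
  swap
  · rcases su_red hF (le_GU hH) hI with ⟨W, h1, h2, h3⟩ | ⟨W, h1, h2, h3, h4⟩ | ⟨m, D, h1, h2, -⟩
    · refine Or.inl ⟨W, h1, h2, eq_of hF hH h3 (not_le_subspaceStabilizer hG hne (by omega) h1 ?_)⟩
      rintro rfl
      obtain ⟨x, hx⟩ := (hG.nondeg 1 (fun h => one_ne_zero (congrFun h ⟨0, by omega⟩))).1
      rw [hermForm_eq hF] at h2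
      exact hx (h2 _ trivial _ trivial)
    · refine Or.inr (Or.inl ⟨W, h1, h2, h3,
        eq_of hF hH h4 (not_le_subspaceStabilizer hG hne (by omega) h1 ?_)⟩)
      rintro rfl
      rw [finrank_top, finrank_fintype_fun_eq_card] at h3
      omega
    · have := IsMDecomposition.two_mul_eq h1.decomp
      exact Or.inr (Or.inr (Or.inl (hdec 2 m D (hermForm_eq hF n ▸ h1) h2 (by omega))))
  right; right
  rcases su_irr hF hn (le_GU hH) hI with ⟨t, k, D, h1, h⟩ | ⟨k, D, h1, h2, h⟩ | h | h |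
    ⟨r, K, h1, h2, h3, h4, h⟩ | ⟨a, b, e, P, G₁, G₂, h1, h⟩ | ⟨k, t, e, P, G₀, h1, h2, h⟩ | h
  · exact Or.inl (hdec t k D h1 h fun _ _ => hI)
  · have := IsMDecomposition.two_mul_eq h1
    exact Or.inr (Or.inl ⟨hI, k, D, by omega, h1, hermForm_eq hF n ▸ h2,
      eq_of hF hH h (not_le_decompositionStabilizer hG hne h1 (Or.inl (by omega)))⟩)
  · iterate 4 right
    exact Or.inl ⟨hI, eq5_of_uniC5 hF hn hH h⟩
  · iterate 5 right
    exact Or.inl (eq6_of_uniC6 hF hn hq hH h)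
  · haveI : Nonempty (Fin n) := ⟨⟨0, by omega⟩⟩
    exact Or.inr (Or.inr (Or.inl ⟨hI, r, K, h1, h2, hc ▸ fieldSubalgebra_dvd h3, h3, hermForm_eq hF n ▸ h4,
      eq_of hF hH h (not_le_subalgebraNormalizer hG hne (by omega) h1.two_le h3)⟩))
  · have h2 := h.ha
    have h3 := h.card_eq
    by_cases ha : a = 2 → 3 ≤ q
    · refine Or.inr (Or.inr (Or.inr (Or.inl ⟨a, b, e, P, _, _, h2, h1, by omega, ha,
        h.h₁.isUnitaryFormPow hF, h.h₂.isUnitaryFormPow hF, hermForm_eq hF n ▸ h.isTensorFormStructure,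
        SL.eq_inf_of_maximal hH h.le ?_⟩)))
      exact (H8.hasE_SU hF (by nlinarith)).not_le_tensorProductSubgroup h2 h.hb e P
    · push Not at ha
      obtain ⟨rfl, ha⟩ := ha
      obtain ⟨D, k1, k2⟩ := pair_of_tensor (h4 ha.not_ge) hne h hs
      exact Or.inl (hdec 2 b D k1 k2 fun _ _ => hI)
  · iterate 6 right
    have h3 : k ^ t = n := by rw [← hc, Fintype.card_congr e]; simp
    have h5 : k ^ 2 ≤ k ^ t := Nat.pow_le_pow_right (by omega) h.ht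
    refine Or.inl ⟨k, t, e, P, _, h1, h.ht, h3, fun hk => ?_, h.herm.isUnitaryFormPow hF,
      hermForm_eq hF n ▸ h.isTensorPowerFormStructure, SL.eq_inf_of_maximal hH h.le ?_⟩
    · by_contra h6
      exact h2 ⟨h4 h6, hk⟩
    · exact (H8.hasE_SU hF (by nlinarith)).not_le_tensorWreathSubgroup (by omega) h.ht e P
  · iterate 7 right
    exact h

/-! ### numerics -/

theorem exists_half (hF : Fintype.card F = q ^ 2) {p e : ℕ} (hp : p.Prime) (h : Fintype.card F = p ^ e) :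
    ∃ m, e = 2 * m ∧ q = p ^ m := by
  obtain ⟨m, -, hm⟩ := (Nat.dvd_prime_pow hp).1 (show q ∣ p ^ e from h ▸ hF ▸ dvd_pow_self q two_ne_zero)
  refine ⟨m, Nat.pow_right_injective hp.two_le ?_, hm⟩
  simp only
  rw [← h, hF, hm, ← pow_mul, mul_comm]

theorem odd_data (hF : Fintype.card F = q ^ 2) (h : Eq6 q H) {s k : ℕ} (hs : s.Prime) (hs2 : s ≠ 2)
    (hn : n = s ^ k) (hk : k ≠ 0) :
    ∃ (p m : ℕ) (R : Subgroup (GL (Fin n) F)), p.Prime ∧ CharP F p ∧ q = p ^ m ∧ p % s < s ∧ 2 * m < s ∧ 0 < m ∧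
      (p % s) ^ (2 * m) % s = 1 ∧ (∀ d, d < 2 * m → 0 < d → (p % s) ^ d % s ≠ 1) ∧
      IsSymplecticTypeGroup s R ∧ ActsAbsolutelyIrreducibly (matrixSet R) ∧
      R ≤ similarityGroup (hermForm n F q) ∧ R ≤ GU n F q ∧ Nat.card R = s ^ (1 + 2 * k) ∧
      Nat.card (Subgroup.center R) = s ∧ H = subgroupNormalizer R ⊓ SUn n F q ∧ RData s R := by
  obtain ⟨r, R, p, e, k', h1, h2, h3, h4, h5, h6, h7, h8, h9, h10⟩ := h
  obtain rfl : r = s := SL.eq_of_pow h8.prime hs h9 (hn ▸ dvd_pow_self s hk)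
  obtain rfl : k' = k := Nat.pow_right_injective hs.two_le (h9.symm.trans hn)
  obtain ⟨k1, k2, -, k4⟩ := h6.resolve_right fun h => hs2 h.1
  rw [k2] at h5
  obtain ⟨m, rfl, hm⟩ := exists_half hF h5.1 h5.2.2.1
  obtain ⟨l1, l2, l3⟩ := SL.minimal_mod h5 hs.one_lt
  exact ⟨p, m, R, h5.1, h5.2.1, hm, Nat.mod_lt _ hs.pos, SL.minimal_lt h5 hs, by omega, l2, l3, h1, h2, h3,
    h10 k1, k4, k2, h7, h8⟩

theorem data_two (hF : Fintype.card F = q ^ 2) (h : Eq6 q H) {k c : ℕ} (hn : n = 2 ^ k) (hk : k ≠ 0)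
    (hc : 2 ^ (2 + 2 * k) = c) :
    ∃ (p : ℕ) (R : Subgroup (GL (Fin n) F)), p.Prime ∧ q = p ∧ p % 4 = 3 ∧
      IsSymplecticTypeGroup 2 R ∧ ActsAbsolutelyIrreducibly (matrixSet R) ∧
      R ≤ similarityGroup (hermForm n F q) ∧ Nat.card R = c ∧
      Nat.card (Subgroup.center R) = 4 ∧ H = subgroupNormalizer R ⊓ SUn n F q := by
  obtain ⟨r, R, p, e, k', h1, h2, h3, h4, h5, h6, h7, h8, h9, h10⟩ := h
  obtain rfl : r = 2 := SL.eq_of_pow h8.prime Nat.prime_two h9 (hn ▸ dvd_pow_self 2 hk)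
  obtain rfl : k' = k := Nat.pow_right_injective le_rfl (h9.symm.trans hn)
  obtain ⟨-, rfl, k2, k4⟩ := h6.resolve_left fun h => absurd h.1 (by decide)
  rw [k2] at h5
  obtain ⟨m, hm, hm'⟩ := exists_half hF h5.1 h5.2.2.1
  obtain rfl : m = 1 := by omega
  exact ⟨p, R, h5.1, by rw [hm', pow_one], ((minimal_four h5).resolve_left (by omega)).2, h1, h2, h3,
    hc ▸ k4, k2, h7⟩

theorem data_three (hF : Fintype.card F = q ^ 2) (h : Eq6 q H) {k c : ℕ} (hn : n = 3 ^ k) (hk : k ≠ 0)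
    (hc : 3 ^ (1 + 2 * k) = c) :
    ∃ (p : ℕ) (R : Subgroup (GL (Fin n) F)), p.Prime ∧ q = p ∧ p % 3 = 2 ∧
      IsSymplecticTypeGroup 3 R ∧ ActsAbsolutelyIrreducibly (matrixSet R) ∧
      R ≤ similarityGroup (hermForm n F q) ∧ Nat.card R = c ∧
      Nat.card (Subgroup.center R) = 3 ∧ H = subgroupNormalizer R ⊓ SUn n F q := by
  obtain ⟨p, m, R, h1, -, h3, h4, h5, h6, h7, h8, k1, k2, k3, -, k5, k6, k7, -⟩ :=
    odd_data hF h Nat.prime_three (by decide) hn hk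
  obtain rfl : m = 1 := by omega
  have := h8 1 (by omega) one_pos
  refine ⟨p, R, h1, by rw [h3, pow_one], ?_, k1, k2, k3, hc ▸ k5, k6, k7⟩
  generalize p % 3 = s at *
  interval_cases s <;> simp_all

theorem data_five (hF : Fintype.card F = q ^ 2) {H : Subgroup (GL (Fin 5) F)} (h : Eq6 q H) :
    ∃ (p : ℕ) (R : Subgroup (GL (Fin 5) F)), p.Prime ∧ CharP F p ∧
      ((q = p ∧ p % 5 = 4) ∨ (q = p ^ 2 ∧ (p % 5 = 2 ∨ p % 5 = 3))) ∧
      IsSymplecticTypeGroup 5 R ∧ ActsAbsolutelyIrreducibly (matrixSet R) ∧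
      R ≤ similarityGroup (hermForm 5 F q) ∧ Nat.card R = 125 ∧
      Nat.card (Subgroup.center R) = 5 ∧ H = subgroupNormalizer R ⊓ SUn 5 F q := by
  obtain ⟨p, m, R, h1, h2, h3, h4, h5, h6, h7, h8, k1, k2, k3, -, k5, k6, k7, -⟩ :=
    odd_data (k := 1) hF h (s := 5) (by norm_num) (by decide) rfl one_ne_zero
  have key : ∀ s : ℕ, s < 5 → ∀ m : ℕ, m < 3 → 0 < m → s ^ (2 * m) % 5 = 1 →
      (∀ d < 2 * m, 0 < d → s ^ d % 5 ≠ 1) → (m = 1 ∧ s = 4) ∨ (m = 2 ∧ (s = 2 ∨ s = 3)) := by decide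
  refine ⟨p, R, h1, h2, ?_, k1, k2, k3, k5, k6, k7⟩
  rcases key _ h4 _ (by omega) h6 h7 h8 with ⟨rfl, h⟩ | ⟨rfl, h⟩
  · exact Or.inl ⟨by rw [h3, pow_one], h⟩
  · exact Or.inr ⟨h3, h⟩

theorem data_seven (hF : Fintype.card F = q ^ 2) {H : Subgroup (GL (Fin 7) F)} (h : Eq6 q H) :
    ∃ (p : ℕ) (R : Subgroup (GL (Fin 7) F)), p.Prime ∧ CharP F p ∧
      ((q = p ∧ p % 7 = 6) ∨ (q = p ^ 3 ∧ (p % 7 = 3 ∨ p % 7 = 5))) ∧
      IsSymplecticTypeGroup 7 R ∧ ActsAbsolutelyIrreducibly (matrixSet R) ∧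
      R ≤ similarityGroup (hermForm 7 F q) ∧ Nat.card R = 343 ∧
      Nat.card (Subgroup.center R) = 7 ∧ H = subgroupNormalizer R ⊓ SUn 7 F q := by
  obtain ⟨p, m, R, h1, h2, h3, h4, h5, h6, h7, h8, k1, k2, k3, -, k5, k6, k7, -⟩ :=
    odd_data (k := 1) hF h (s := 7) (by norm_num) (by decide) rfl one_ne_zero
  have key : ∀ s : ℕ, s < 7 → ∀ m : ℕ, m < 4 → 0 < m → s ^ (2 * m) % 7 = 1 →
      (∀ d < 2 * m, 0 < d → s ^ d % 7 ≠ 1) → (m = 1 ∧ s = 6) ∨ (m = 3 ∧ (s = 3 ∨ s = 5)) := by decide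
  refine ⟨p, R, h1, h2, ?_, k1, k2, k3, k5, k6, k7⟩
  rcases key _ h4 _ (by omega) h6 h7 h8 with ⟨rfl, h⟩ | ⟨rfl, h⟩
  · exact Or.inl ⟨by rw [h3, pow_one], h⟩
  · exact Or.inr ⟨h3, h⟩

theorem data_eleven (hF : Fintype.card F = q ^ 2) {H : Subgroup (GL (Fin 11) F)} (h : Eq6 q H) :
    ∃ (p : ℕ) (R : Subgroup (GL (Fin 11) F)), p.Prime ∧ CharP F p ∧
      ((q = p ∧ p % 11 = 10) ∨ (q = p ^ 5 ∧ (p % 11 = 2 ∨ p % 11 = 6 ∨ p % 11 = 7 ∨ p % 11 = 8))) ∧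
      IsSymplecticTypeGroup 11 R ∧ ActsAbsolutelyIrreducibly (matrixSet R) ∧
      R ≤ GU 11 F q ∧ Nat.card R = 1331 ∧
      Nat.card (Subgroup.center R) = 11 ∧ H = subgroupNormalizer R ⊓ SUn 11 F q := by
  obtain ⟨p, m, R, h1, h2, h3, h4, h5, h6, h7, h8, k1, k2, -, k3, k5, k6, k7, -⟩ :=
    odd_data (k := 1) hF h (s := 11) (by norm_num) (by decide) rfl one_ne_zero
  have key : ∀ s : ℕ, s < 11 → ∀ m : ℕ, m < 6 → 0 < m → s ^ (2 * m) % 11 = 1 →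
      (∀ d < 2 * m, 0 < d → s ^ d % 11 ≠ 1) →
      (m = 1 ∧ s = 10) ∨ (m = 5 ∧ (s = 2 ∨ s = 6 ∨ s = 7 ∨ s = 8)) := by decide +kernel
  refine ⟨p, R, h1, h2, ?_, k1, k2, k3, k5, k6, k7⟩
  rcases key _ h4 _ (by omega) h6 h7 h8 with ⟨rfl, h⟩ | ⟨rfl, h⟩
  · exact Or.inl ⟨by rw [h3, pow_one], h⟩
  · exact Or.inr ⟨h3, h⟩

theorem not_eq6 (h : Eq6 q H) {a b : ℕ} (ha : a.Prime) (hb : b.Prime) (hab : a ≠ b) (h1 : a ∣ n)
    (h2 : b ∣ n) : False := by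
  obtain ⟨r, R, p, e, k, -, -, -, -, -, -, -, h8, h9, -⟩ := h
  exact hab ((SL.eq_of_pow h8.prime ha h9 h1).symm.trans (SL.eq_of_pow h8.prime hb h9 h2))

end Cfsg.Agent.H5.SU
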