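import Cfsg.Agent.H5.SLFour
import Cfsg.Agent.Asch.FormMain

/-!
The special unitary group in dimension at least three is contained in none of the geometric
subgroups.
-/

set_option autoImplicit false
set_option linter.unusedSectionVars false

namespace Cfsg.Agent.H5.SU

open Module Cfsg.Geo Cfsg.Agent.H7 Cfsg.Agent.Asch
open scoped MatrixGroups Matrix Kronecker

variable {ι : Type} [Fintype ι] [DecidableEq ι] {F : Type*} [Field F] {σ : F ≃+* F} {G : Matrix ι ι F}

/-- The special unitary group of a Gram matrix. -/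
def SUG (σ : F ≃+* F) (G : Matrix ι ι F) : Subgroup (GL ι F) :=
  preserving (Units.coeHom (Matrix ι ι F)) (gf σ G) ⊓ specialLinear ι F

theorem mem_SL {g : GL ι F} : g ∈ specialLinear ι F ↔ (g : Matrix ι ι F).det = 1 := by
  rw [specialLinear, MonoidHom.mem_ker, ← Units.val_inj]; simp

theorem mem_SUG {g : GL ι F} : g ∈ SUG σ G ↔
    (∀ u v, gf σ G ((g : Matrix ι ι F) *ᵥ u) ((g : Matrix ι ι F) *ᵥ v) = gf σ G u v) ∧
      (g : Matrix ι ι F).det = 1 :=
  and_congr Iff.rfl mem_SL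

theorem mem_SUG' {g : GL ι F} : g ∈ SUG σ G ↔
    (g : Matrix ι ι F)ᵀ * G * (g : Matrix ι ι F).map σ = G ∧ (g : Matrix ι ι F).det = 1 := by
  rw [mem_SUG]
  refine and_congr_left fun _ => ⟨fun h => gf_ext (σ := σ) fun u v => ?_, fun h u v => ?_⟩
  · rw [← gf_mulVec, h]
  · rw [gf_mulVec, h]

theorem fixesGram_SUG : FixesGram σ (SUG σ G) G := fun _ hg => (mem_SUG'.1 hg).1

theorem gf_add_left (x y v : ι → F) : gf σ G (x + y) v = gf σ G x v + gf σ G y v :=
  (sesq_gf σ G).add_left x y v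

theorem gf_add_right (v x y : ι → F) : gf σ G v (x + y) = gf σ G v x + gf σ G v y :=
  (sesq_gf σ G).add_right v x y

theorem gf_smul_left (c : F) (x v : ι → F) : gf σ G (c • x) v = c * gf σ G x v :=
  (sesq_gf σ G).smul_left c x v

theorem gf_smul_right (c : F) (v x : ι → F) : gf σ G v (c • x) = σ c * gf σ G v x :=
  (sesq_gf σ G).smul_right c v x

theorem gf_sub_left (x y v : ι → F) : gf σ G (x - y) v = gf σ G x v - gf σ G y v :=
  (sesq_gf σ G).sub_left x y v

theorem gf_sub_right (v x y : ι → F) : gf σ G v (x - y) = gf σ G v x - gf σ G v y :=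
  (sesq_gf σ G).sub_right v x y

theorem gf_zero_left (v : ι → F) : gf σ G 0 v = 0 := (sesq_gf σ G).zero_left v

theorem gf_zero_right (v : ι → F) : gf σ G v 0 = 0 := (sesq_gf σ G).zero_right v

theorem gf_conj (hG : Herm σ 1 G) (u v : ι → F) : σ (gf σ G u v) = gf σ G v u := by
  rw [hG.gf_swap' v u, one_mul]

/-- the form as a linear functional in the first argument -/
def fl (σ : F ≃+* F) (G : Matrix ι ι F) (v : ι → F) : Dual F (ι → F) where
  toFun x := gf σ G x v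
  map_add' x y := gf_add_left x y v
  map_smul' c x := gf_smul_left c x v

@[simp] theorem fl_apply (v x : ι → F) : fl σ G v x = gf σ G x v := rfl

/-- the rank one matrix `z ↦ f(z, v) a` -/
def rk1 (σ : F ≃+* F) (G : Matrix ι ι F) (a v : ι → F) : Matrix ι ι F :=
  Matrix.vecMulVec a (G *ᵥ (σ ∘ v))

theorem rk1_mulVec (a v z : ι → F) : rk1 σ G a v *ᵥ z = gf σ G z v • a := by
  rw [rk1, Matrix.vecMulVec_mulVec, gf, dotProduct_comm]; simp

theorem trace_rk1 (a v : ι → F) : (rk1 σ G a v).trace = gf σ G a v := Matrix.trace_vecMulVec _ _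

theorem mul_rk1 (x : Matrix ι ι F) (a v : ι → F) : x * rk1 σ G a v = rk1 σ G (x *ᵥ a) v :=
  Matrix.mul_vecMulVec _ _ _

theorem rk1_smul (c : F) (a v : ι → F) : rk1 σ G (c • a) v = c • rk1 σ G a v :=
  Matrix.smul_vecMulVec _ _ _

/-- unitary transvections -/
theorem exists_tv (hG : Herm σ 1 G) {v : ι → F} (hv : gf σ G v v = 0) {c : F} (hc : σ c = -c) :
    ∃ t ∈ SUG σ G, (t : Matrix ι ι F) = 1 + c • rk1 σ G v v ∧
      ((t⁻¹ : GL ι F) : Matrix ι ι F) = 1 - c • rk1 σ G v v ∧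
      (∀ z, (t : Matrix ι ι F) *ᵥ z = z + (c * gf σ G z v) • v) ∧
      (∀ z, ((t⁻¹ : GL ι F) : Matrix ι ι F) *ᵥ z = z - (c * gf σ G z v) • v) := by
  have h0 : rk1 σ G v v * rk1 σ G v v = 0 := by
    rw [mul_rk1, rk1_mulVec, hv, rk1_smul, zero_smul]
  have h1 : (1 + c • rk1 σ G v v) * (1 - c • rk1 σ G v v) = 1 := by
    simp [mul_sub, add_mul, h0]
  have h2 : (1 - c • rk1 σ G v v) * (1 + c • rk1 σ G v v) = 1 := by
    simp [mul_add, sub_mul, h0]
  have h3 : ∀ z, (1 + c • rk1 σ G v v) *ᵥ z = z + (c * gf σ G z v) • v := fun z => by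
    rw [Matrix.add_mulVec, Matrix.one_mulVec, Matrix.smul_mulVec, rk1_mulVec, smul_smul]
  refine ⟨⟨_, _, h1, h2⟩, mem_SUG.2 ⟨fun u w => ?_, ?_⟩, rfl, rfl, h3, fun z => ?_⟩
  · simp only [h3, gf_add_left, gf_add_right, gf_smul_left, gf_smul_right, hv, map_mul, hc,
      gf_conj hG]
    ring
  · change (1 + c • rk1 σ G v v).det = 1
    rw [← rk1_smul, rk1, Matrix.vecMulVec_eq Unit, Matrix.det_one_add_replicateCol_mul_replicateRow,
      dotProduct_comm]
    change 1 + gf σ G (c • v) v = 1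
    rw [gf_smul_left, hv, mul_zero, add_zero]
  · change (1 - c • rk1 σ G v v) *ᵥ z = _
    rw [Matrix.sub_mulVec, Matrix.one_mulVec, Matrix.smul_mulVec, rk1_mulVec, smul_smul]

theorem exists_skew' (hG : Herm σ 1 G) (hne : σ ≠ RingEquiv.refl F) : ∃ δ : F, δ ≠ 0 ∧ σ δ = -δ :=
  H7.exists_skew (σ : F →+* F) hG.invol (exists_ne_of_ne_refl hne)

theorem exists_norm [Finite F] (hσ : ∀ a, σ (σ a) = a) (hne : σ ≠ RingEquiv.refl F) {t : F}
    (ht : σ t = t) : ∃ a, a * σ a = t :=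
  H7.exists_norm_eq (σ : F →+* F) hσ (exists_ne_of_ne_refl hne) ht

theorem exists_two_norms [Finite F] (hσ : ∀ a, σ (σ a) = a) (hne : σ ≠ RingEquiv.refl F) :
    ∃ a a' : F, a ≠ a' ∧ a * σ a = -1 ∧ a' * σ a' = -1 := by
  obtain ⟨a, ha⟩ := exists_norm hσ hne (t := -1) (by simp)
  obtain ⟨b, hb⟩ := exists_ne_of_ne_refl hne
  simp only [RingHom.coe_coe] at hb
  have hb0 : b ≠ 0 := by rintro rfl; simp at hb
  have hb1 : σ b ≠ 0 := by simpa using hb0
  have ha0 : a ≠ 0 := by rintro rfl; simp at ha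
  refine ⟨a, a * (σ b / b), fun h => hb ?_, ha, ?_⟩
  · field_simp at h
    exact h.symm
  · rw [map_mul, map_div₀, hσ, ← ha]
    field_simp

theorem exists_orthonormal [Finite F] (hG : Herm σ 1 G) (hne : σ ≠ RingEquiv.refl F) :
    ∃ b : ι → ι → F, (∀ i j, gf σ G (b i) (b j) = if i = j then 1 else 0) ∧
      ∀ x, ∃ c : ι → F, x = ∑ i, c i • b i := by
  obtain ⟨P, hP⟩ := hG.exists_pbG_one hne (Equiv.refl ι)
  refine ⟨fun i => trv (Equiv.refl ι) P (Pi.single i 1), fun i j => ?_, fun x => ?_⟩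
  · rw [← pbG_apply, hP, Matrix.one_apply]
  · obtain ⟨c, rfl⟩ := trv_surjective (Equiv.refl ι) P x
    refine ⟨c, ?_⟩
    conv_lhs => rw [eq_sum_smul_single c]
    simp only [← H8.trvE_apply, map_sum, map_smul]

/-- isotropic vectors span -/
theorem mem_of_iso [Finite F] (hG : Herm σ 1 G) (hne : σ ≠ RingEquiv.refl F)
    (hn : 2 ≤ Fintype.card ι) {W : Submodule F (ι → F)} (hW : ∀ v, gf σ G v v = 0 → v ∈ W)
    (x : ι → F) : x ∈ W := by
  obtain ⟨b, hb, hx⟩ := exists_orthonormal hG hne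
  obtain ⟨a, a', h1, h2, h3⟩ := exists_two_norms hG.invol hne
  obtain ⟨c, rfl⟩ := hx x
  refine W.sum_mem fun j _ => W.smul_mem _ ?_
  haveI : Nontrivial ι := Fintype.one_lt_card_iff_nontrivial.1 hn
  obtain ⟨i, hi⟩ := exists_ne j
  have key : ∀ a : F, a * σ a = -1 → b i + a • b j ∈ W := fun a ha => hW _ (by
    simp only [gf_add_left, gf_add_right, gf_smul_left, gf_smul_right, hb, hi, hi.symm, if_true,
      if_false]
    linear_combination ha)
  have h4 := W.smul_mem (a - a')⁻¹ (W.sub_mem (key a h2) (key a' h3))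
  rwa [add_sub_add_left_eq_sub, ← sub_smul, smul_smul, inv_mul_cancel₀ (sub_ne_zero.2 h1),
    one_smul] at h4

theorem exists_iso_ne [Finite F] (hG : Herm σ 1 G) (hne : σ ≠ RingEquiv.refl F)
    (hn : 2 ≤ Fintype.card ι) {x : ι → F} (hx : x ≠ 0) : ∃ v, gf σ G v v = 0 ∧ gf σ G x v ≠ 0 := by
  by_contra! h
  refine hx (hG.eq_zero_of_left fun u => ?_)
  exact mem_of_iso hG hne hn (W := LinearMap.ker (fl σ G x))
    (fun v hv => hG.gf_eq_zero_comm (h v hv)) u

theorem exists_iso_comb (hG : Herm σ 1 G) (hne : σ ≠ RingEquiv.refl F) {v w : ι → F}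
    (hv : gf σ G v v = 0) (hw : gf σ G w w = 0) :
    ∃ a : F, a ≠ 0 ∧ gf σ G (v + a • w) (v + a • w) = 0 := by
  obtain ⟨δ, h0, hδ⟩ := exists_skew' hG hne
  by_cases h : gf σ G w v = 0
  · exact ⟨1, one_ne_zero, by
      simp only [gf_add_left, gf_add_right, one_smul, hv, hw, h, hG.gf_eq_zero_comm h, add_zero]⟩
  · refine ⟨δ / gf σ G w v, div_ne_zero h0 h, ?_⟩
    have h' : gf σ G v w ≠ 0 := fun h' => h (hG.gf_eq_zero_comm h')
    simp only [gf_add_left, gf_add_right, gf_smul_left, gf_smul_right, hv, hw, map_div₀, hδ,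
      gf_conj hG]
    field_simp
    ring

theorem exists_iso_ne₂ [Finite F] (hG : Herm σ 1 G) (hne : σ ≠ RingEquiv.refl F)
    (hn : 2 ≤ Fintype.card ι) {x y : ι → F} (hx : x ≠ 0) (hy : y ≠ 0) :
    ∃ v, gf σ G v v = 0 ∧ gf σ G x v ≠ 0 ∧ gf σ G y v ≠ 0 := by
  obtain ⟨v, hv, hxv⟩ := exists_iso_ne hG hne hn hx
  obtain ⟨w, hw, hyw⟩ := exists_iso_ne hG hne hn hy
  by_cases h1 : gf σ G y v = 0
  swap
  · exact ⟨v, hv, hxv, h1⟩
  by_cases h2 : gf σ G x w = 0
  swap
  · exact ⟨w, hw, h2, hyw⟩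
  obtain ⟨a, ha, h⟩ := exists_iso_comb hG hne hv hw
  refine ⟨_, h, ?_, ?_⟩
  · rwa [gf_add_right, gf_smul_right, h2, mul_zero, add_zero]
  · rw [gf_add_right, gf_smul_right, h1, zero_add]
    exact mul_ne_zero (by simpa using ha) hyw

/-- A non-scalar matrix moves some isotropic point. -/
theorem exists_iso_not_eigen [Finite F] (hG : Herm σ 1 G) (hne : σ ≠ RingEquiv.refl F)
    (hn : 2 ≤ Fintype.card ι) {x : Matrix ι ι F} (hx : ¬ ∃ c : F, x = c • 1) :
    ∃ v, gf σ G v v = 0 ∧ x *ᵥ v ∉ F ∙ v := by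
  by_contra! h
  haveI : Nonempty ι := Fintype.card_pos_iff.1 (by omega)
  obtain ⟨v, hv, hv'⟩ := exists_iso_ne hG hne hn (x := 1) one_ne_zero
  have hv0 : v ≠ 0 := by rintro rfl; exact hv' (gf_zero_right _)
  obtain ⟨c, hc⟩ := Submodule.mem_span_singleton.1 (h v hv)
  refine hx ⟨c, Matrix.ext_iff_mulVec.2 fun z => ?_⟩
  have := mem_of_iso hG hne hn (W := LinearMap.ker (Matrix.toLin' x - c • LinearMap.id))
    (fun w hw => ?_) z
  · simpa [sub_eq_zero, Matrix.smul_mulVec] using this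
  simp only [LinearMap.mem_ker, LinearMap.sub_apply, Matrix.toLin'_apply, LinearMap.smul_apply,
    LinearMap.id_apply, sub_eq_zero]
  by_cases hw' : w ∈ F ∙ v
  · obtain ⟨a, rfl⟩ := Submodule.mem_span_singleton.1 hw'
    rw [Matrix.mulVec_smul, ← hc, smul_comm]
  obtain ⟨a, ha, h1⟩ := exists_iso_comb hG hne hv hw
  obtain ⟨d, hd⟩ := Submodule.mem_span_singleton.1 (h w hw)
  obtain ⟨e, he⟩ := Submodule.mem_span_singleton.1 (h _ h1)
  rw [Matrix.mulVec_add, Matrix.mulVec_smul, ← hc, ← hd] at he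
  have h2 : (a * (d - e)) • w = (e - c) • v := by
    rw [mul_sub, sub_smul, sub_smul, sub_eq_sub_iff_add_eq_add, mul_smul, mul_smul, add_comm, ← he,
      smul_add, smul_comm e a]
  by_cases h3 : d = e
  · rw [h3, sub_self, mul_zero, zero_smul, eq_comm, smul_eq_zero, sub_eq_zero] at h2
    rw [← hd, h3, h2.resolve_right hv0]
  · exact absurd (Submodule.mem_span_singleton.2 ⟨(a * (d - e))⁻¹ * (e - c), by
      rw [mul_smul, ← h2, smul_smul, inv_mul_cancel₀ (mul_ne_zero ha (sub_ne_zero.2 h3)), one_smul]⟩) hw'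

theorem eigen_of_comm (hG : Herm σ 1 G) {v : ι → F} {c : F} (hc : c ≠ 0) {t x : Matrix ι ι F}
    (ht : ∀ z, t *ᵥ z = z + (c * gf σ G z v) • v) (h : t * x = x * t) : x *ᵥ v ∈ F ∙ v := by
  by_cases hv : v = 0
  · simp [hv]
  obtain ⟨u, hu⟩ := (hG.nondeg v hv).1
  have h1 := congrArg (· *ᵥ u) h
  simp only [← Matrix.mulVec_mulVec, ht, Matrix.mulVec_add, Matrix.mulVec_smul, add_right_inj] at h1
  exact Submodule.mem_span_singleton.2 ⟨(c * gf σ G u v)⁻¹ * (c * gf σ G (x *ᵥ u) v), by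
    rw [mul_smul, h1, smul_smul, inv_mul_cancel₀ (mul_ne_zero hc hu), one_smul]⟩

theorem finrank_ker_two (φ ψ : Dual F (ι → F)) :
    Fintype.card ι ≤ finrank F ↥(LinearMap.ker φ ⊓ LinearMap.ker ψ) + 2 := by
  have h1 := finrank_inf_ker_ge (⊤ : Submodule F (ι → F)) φ
  have h2 := finrank_inf_ker_ge (LinearMap.ker φ) ψ
  rw [top_inf_eq, finrank_top, finrank_fintype_fun_eq_card] at h1
  omega

theorem exists_ker_two (hn : 3 ≤ Fintype.card ι) (φ ψ : Dual F (ι → F)) :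
    ∃ z, z ≠ 0 ∧ φ z = 0 ∧ ψ z = 0 := by
  have := finrank_ker_two φ ψ
  obtain ⟨z, hz, hz0⟩ := Submodule.exists_mem_ne_zero_of_ne_bot
    (Submodule.one_le_finrank_iff.1 (show 1 ≤ finrank F ↥(LinearMap.ker φ ⊓ LinearMap.ker ψ) by omega))
  exact ⟨z, hz0, hz.1, hz.2⟩

variable [Fintype F]

theorem irred (hG : Herm σ 1 G) (hne : σ ≠ RingEquiv.refl F) (hn : 2 ≤ Fintype.card ι) :
    Irred (SUG σ G) := fun W hW => by
  by_contra! h
  obtain ⟨x, hx, hx0⟩ := (Submodule.ne_bot_iff W).1 h.1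
  have hv := hG.trVal_of_ne hne
  obtain ⟨y, hy, hy0⟩ := (Submodule.ne_bot_iff ((hG.polar hv).perp W)).1 fun h' => h.2 (by
    rw [← Polar.perp_perp (P := hG.polar hv) W, h', Polar.perp_bot])
  obtain ⟨v, h1, h2, h3⟩ := exists_iso_ne₂ hG hne hn hx0 hy0
  obtain ⟨δ, h0, hδ⟩ := exists_skew' hG hne
  obtain ⟨t, ht, -, -, ht', -⟩ := exists_tv hG h1 hδ
  have h4 := W.smul_mem (δ * gf σ G x v)⁻¹ (W.sub_mem (hW t ht x hx) hx)
  rw [ht', add_sub_cancel_left, smul_smul, inv_mul_cancel₀ (mul_ne_zero h0 h2), one_smul] at h4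
  exact h3 ((hG.mem_perp hv).1 hy v h4)

/-- (C1) -/
theorem not_le_subspaceStabilizer (hG : Herm σ 1 G) (hne : σ ≠ RingEquiv.refl F)
    (hn : 2 ≤ Fintype.card ι) {W : Submodule F (ι → F)} (h0 : W ≠ ⊥) (h1 : W ≠ ⊤) :
    ¬ SUG σ G ≤ subspaceStabilizer W := fun hle => by
  rcases irred hG hne hn W (fun g hg v hv => ((mem_subspaceStabilizer_iff W g).1 (hle hg) v).1 hv) with
    h | h <;> contradiction

theorem exists_fix (hσ : ∀ a, σ (σ a) = a) (hne : σ ≠ RingEquiv.refl F) (T : Finset F)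
    (h : T.card ^ 2 < Fintype.card F) : ∃ s, σ s = s ∧ s ∉ T := by
  by_contra! h'
  rw [card_eq_card_fixSub_sq hσ hne] at h
  have h1 : Nat.card (fixSub σ) ≤ T.card := by
    rw [← Nat.card_eq_finsetCard]
    exact Nat.card_le_card_of_injective (fun x : fixSub σ => (⟨x, h' x x.2⟩ : T))
      fun x y hxy => Subtype.ext (congrArg (fun z : T => (z : F)) hxy)
  exact absurd (Nat.pow_le_pow_left h1 2) (not_le.2 h)

omit [Fintype F] in
theorem mem_iSup_ne {t : ℕ} {D : Fin t → Submodule F (ι → F)} {i k : Fin t} {z : ι → F}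
    (hz : z ∈ D k) (hk : k ≠ i) : z ∈ ⨆ k, ⨆ (_ : k ≠ i), D k :=
  Submodule.mem_iSup_of_mem k (Submodule.mem_iSup_of_mem hk hz)

omit [Fintype F] in
theorem mulVec_mem_decomp {t : ℕ} {D : Fin t → Submodule F (ι → F)} {g : GL ι F}
    (hg : g ∈ decompositionStabilizer D) :
    ∃ π : Equiv.Perm (Fin t), ∀ i, ∀ x ∈ D i, (g : Matrix ι ι F) *ᵥ x ∈ D (π i) := by
  obtain ⟨π, hπ⟩ := hg
  exact ⟨π, fun i x hx => hπ i ▸ Submodule.mem_map_of_mem (f := Matrix.toLin' (g : Matrix ι ι F)) hx⟩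

omit [Fintype F] in
theorem mem_of_add_smul_mem {W : Submodule F (ι → F)} {x v : ι → F} {c : F} (hc : c ≠ 0)
    (hx : x ∈ W) (h : x + c • v ∈ W) : v ∈ W := by
  have := W.smul_mem c⁻¹ (W.sub_mem h hx)
  rwa [add_sub_cancel_left, smul_smul, inv_mul_cancel₀ hc, one_smul] at this

/-- (C2) -/
theorem not_le_decompositionStabilizer (hG : Herm σ 1 G) (hne : σ ≠ RingEquiv.refl F) {t m : ℕ}
    {D : Fin t → Submodule F (ι → F)} (hD : IsMDecomposition m D)
    (h : 2 ≤ m ∨ 4 < Fintype.card F) : ¬ SUG σ G ≤ decompositionStabilizer D := fun hle => by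
  have ht := hD.two_le
  have hm := H8.IsMDecomposition.mul_eq hD
  have hm' := hD.pos
  have hn : 2 ≤ Fintype.card ι := by nlinarith
  obtain ⟨δ, h0, hδ⟩ := exists_skew' hG hne
  have key : ∀ v, gf σ G v v = 0 → ∀ i, ∀ x ∈ D i, gf σ G x v ≠ 0 → v ∈ D i := by
    intro v hv i x hx hxv
    have hd := Submodule.disjoint_def.1 (hD.indep i)
    obtain ⟨g, hg, -, -, hg', -⟩ := exists_tv hG hv hδ
    obtain ⟨π, hπ⟩ := mulVec_mem_decomp (hle hg)
    by_cases hi : π i = i
    · exact mem_of_add_smul_mem (mul_ne_zero h0 hxv) hx (by rw [← hg']; exact hi ▸ hπ i x hx)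
    rcases h with h | h
    · have h1 := finrank_inf_ker_ge (D i) (fl σ G v)
      rw [hD.finrank_eq] at h1
      obtain ⟨z, hz, hz0⟩ := Submodule.exists_mem_ne_zero_of_ne_bot
        (Submodule.one_le_finrank_iff.1 (show 1 ≤ finrank F ↥(D i ⊓ LinearMap.ker (fl σ G v)) by omega))
      have h2 := hπ i z hz.1
      rw [hg', show gf σ G z v = 0 from hz.2, mul_zero, zero_smul, add_zero] at h2
      exact absurd (hd z hz.1 (mem_iSup_ne h2 hi)) hz0
    · classical
      obtain ⟨s, hs, hs'⟩ := exists_fix hG.invol hne {0, 1}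
        (lt_of_le_of_lt (Nat.pow_le_pow_left Finset.card_le_two 2) h)
      simp only [Finset.mem_insert, Finset.mem_singleton, not_or] at hs'
      obtain ⟨g', hg₂, -, -, hg₂', -⟩ := exists_tv hG hv (c := s * δ) (by rw [map_mul, hs, hδ, mul_neg])
      obtain ⟨π', hπ'⟩ := mulVec_mem_decomp (hle hg₂)
      by_cases hi' : π' i = i
      · exact mem_of_add_smul_mem (mul_ne_zero (mul_ne_zero hs'.1 h0) hxv) hx
          (by rw [← hg₂']; exact hi' ▸ hπ' i x hx)
      have h1 := Submodule.sub_mem _ (mem_iSup_ne (hπ' i x hx) hi')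
        (Submodule.smul_mem _ s (mem_iSup_ne (hπ i x hx) hi))
      rw [hg', hg₂', show x + (s * δ * gf σ G x v) • v - s • (x + (δ * gf σ G x v) • v) = (1 - s) • x by
        module] at h1
      have h2 := hd _ ((D i).smul_mem _ hx) h1
      rw [smul_eq_zero, sub_eq_zero] at h2
      rcases h2 with h2 | rfl
      · exact absurd h2.symm hs'.2
      · exact absurd (gf_zero_left v) hxv
  let i : Fin t := ⟨0, by omega⟩
  let j : Fin t := ⟨1, by omega⟩
  have hij : j ≠ i := by simp [i, j, Fin.ext_iff]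
  obtain ⟨x, hx, hx0⟩ := SL.exists_ne_zero_of_decomp hD i
  obtain ⟨y, hy, hy0⟩ := SL.exists_ne_zero_of_decomp hD j
  obtain ⟨v, h1, h2, h3⟩ := exists_iso_ne₂ hG hne hn hx0 hy0
  have := Submodule.disjoint_def.1 (hD.indep i) v (key v h1 i x hx h2)
    (mem_iSup_ne (key v h1 j y hy h3) hij)
  exact h2 (this ▸ gf_zero_right x)

/-- a non-degenerate subspace contains vectors of every norm -/
theorem exists_norm_mem (hG : Herm σ 1 G) (hne : σ ≠ RingEquiv.refl F) {W : Submodule F (ι → F)}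
    (hW : IsNondegenerateOn (gf σ G) W) (h0 : W ≠ ⊥) {s : F} (hs : σ s = s) :
    ∃ x ∈ W, gf σ G x x = s := by
  obtain ⟨w, hw, hw0⟩ := Submodule.exists_mem_ne_zero_of_ne_bot h0
  obtain ⟨x, hx, hx'⟩ := (hW w hw hw0).1
  have : ∃ y ∈ W, gf σ G y y ≠ 0 := by
    by_contra! h'
    exact hx' (Polar.B_eq_zero_of_forall_isotropic (P := hG.polar (hG.trVal_of_ne hne))
      (exists_ne_of_ne_refl hne) h' hx hw)
  obtain ⟨y, hy, hy'⟩ := this
  obtain ⟨a, ha⟩ := exists_norm hG.invol hne (t := s / gf σ G y y) (by rw [map_div₀, hs, gf_conj hG])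
  exact ⟨a • y, W.smul_mem a hy, by
    rw [gf_smul_left, gf_smul_right, ← mul_assoc, ha, div_mul_cancel₀ _ hy']⟩

omit [Fintype F] in
theorem ne_bot_of_decomp {t m : ℕ} {D : Fin t → Submodule F (ι → F)} (hD : IsMDecomposition m D)
    (i : Fin t) : D i ≠ ⊥ := (Submodule.ne_bot_iff _).2 (SL.exists_ne_zero_of_decomp hD i)

/-- (C2), orthogonal decompositions with at least four members -/
theorem not_le_frame (hG : Herm σ 1 G) (hne : σ ≠ RingEquiv.refl F) {t m : ℕ}
    {D : Fin t → Submodule F (ι → F)} (hD : IsNondegenerateMDecomposition (gf σ G) m D)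
    (ht : 4 ≤ t) : ¬ SUG σ G ≤ decompositionStabilizer D := fun hle => by
  obtain ⟨t, rfl⟩ := Nat.exists_eq_add_of_le' ht
  choose x hx hx' using fun (i : Fin (t + 4)) (s : Bool) => exists_norm_mem hG hne (hD.nondegenerate i)
    (ne_bot_of_decomp hD.decomp i) (s := if s then 1 else -1) (by cases s <;> simp)
  have ho : ∀ {i j : Fin (t + 4)} {u v}, u ∈ D i → v ∈ D j → i ≠ j → gf σ G u v = 0 :=
    fun {i j u v} hu hv hij => hD.orthogonal i j hij u hu v hv
  have ho' : ∀ i j s s', i ≠ j → gf σ G (x i s) (x j s') = 0 := fun i j s s' h => ho (hx i s) (hx j s') h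
  have e01 : (0 : Fin (t + 4)) ≠ 1 := by simp
  have e02 : (0 : Fin (t + 4)) ≠ 2 := by simp [Fin.ext_iff, Nat.mod_eq_of_lt]
  have e03 : (0 : Fin (t + 4)) ≠ 3 := by simp [Fin.ext_iff, Fin.val_ofNat, Nat.mod_eq_of_lt]
  have e12 : (1 : Fin (t + 4)) ≠ 2 := by simp [Fin.ext_iff, Nat.mod_eq_of_lt]
  have e13 : (1 : Fin (t + 4)) ≠ 3 := by simp [Fin.ext_iff, Fin.val_ofNat, Nat.mod_eq_of_lt]
  have e23 : (2 : Fin (t + 4)) ≠ 3 := by simp [Fin.ext_iff, Fin.val_ofNat, Nat.mod_eq_of_lt]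
  set v := x 0 true + x 1 false + x 2 true + x 3 false with hv
  obtain ⟨δ, h0, hδ⟩ := exists_skew' hG hne
  have f0 : gf σ G (x 0 true) v = 1 := by simp [hv, gf_add_right, hx', ho', e01, e02, e03]
  have f1 : gf σ G v (x 1 false) = -1 := by simp [hv, gf_add_left, hx', ho', e01, e12.symm, e13.symm]
  have f2 : gf σ G v (x 2 true) = 1 := by simp [hv, gf_add_left, hx', ho', e02, e12, e23.symm]
  obtain ⟨g, hg, -, -, hg', -⟩ := exists_tv hG (v := v) (by
    simp [hv, gf_add_left, gf_add_right, hx', ho', e01, e02, e03, e12, e13, e23, e01.symm, e02.symm,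
      e03.symm, e12.symm, e13.symm, e23.symm]) hδ
  obtain ⟨π, hπ⟩ := mulVec_mem_decomp (hle hg)
  have h1 := hπ 0 _ (hx 0 true)
  rw [hg', f0, mul_one] at h1
  by_cases h : π 0 = 1
  · have := ho h1 (hx 2 true) (h ▸ e12)
    rw [gf_add_left, gf_smul_left, ho' _ _ _ _ e02, f2] at this
    exact h0 (by simpa using this)
  · have := ho h1 (hx 1 false) h
    rw [gf_add_left, gf_smul_left, ho' _ _ _ _ e01, f1] at this
    exact h0 (by simpa using this)

/-- (C3) -/
theorem not_le_subalgebraNormalizer (hG : Herm σ 1 G) (hne : σ ≠ RingEquiv.refl F)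
    (hn : 3 ≤ Fintype.card ι) {r : ℕ} (hr : 2 ≤ r) {K : Subalgebra F (Matrix ι ι F)}
    (hK : IsFieldSubalgebra r K) : ¬ SUG σ G ≤ subalgebraNormalizer K := fun hle => by
  haveI : Nonempty ι := Fintype.card_pos_iff.1 (by omega)
  have h1 : finrank F K = 1 := finrank_eq_one_iff_scalar.2 fun k hk => by
    by_contra hs
    obtain ⟨v, hv, hv'⟩ := exists_iso_not_eigen hG hne (by omega) hs
    obtain ⟨δ, h0, hδ⟩ := exists_skew' hG hne
    obtain ⟨t, ht, -, -, ht', -⟩ := exists_tv hG hv hδ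
    have h2 : cj t k ∈ K := (hle ht k).1 hk
    obtain ⟨z, hz0, hz1, hz2⟩ := exists_ker_two hn (fl σ G v) (fl σ G v ∘ₗ Matrix.toLin' k)
    simp only [fl_apply, LinearMap.comp_apply, Matrix.toLin'_apply] at hz1 hz2
    have h3 : (cj t k - k) *ᵥ z = 0 := by
      have : (t : Matrix ι ι F) *ᵥ z = z := by rw [ht', hz1]; simp
      rw [Matrix.sub_mulVec, sub_eq_zero]
      conv_lhs => rw [← this]
      rw [cj_mulVec, ht', hz2]; simp
    refine hv' (eigen_of_comm hG h0 ht' ((cj_eq_self_iff t k).1 ?_))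
    by_contra h4
    obtain ⟨y, -, hy⟩ := hK.inv _ (K.sub_mem h2 hk) (sub_ne_zero.2 h4)
    exact hz0 (by rw [← Matrix.one_mulVec z, ← mul_eq_one_comm.1 hy, ← Matrix.mulVec_mulVec, h3,
      Matrix.mulVec_zero])
  have := hK.finrank_eq
  omega

omit [Fintype F] in
theorem Over.trace_mem {F₀ : Subfield F} {x : Matrix ι ι F} (h : Over F₀ x) : x.trace ∈ F₀ :=
  sum_mem fun i _ => h i i

theorem over_of_unipotent [Nonempty ι] {F₀ : Subfield F} {P g : GL ι F} (hg : g ∈ subfieldSubgroup F₀ P)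
    {N : Matrix ι ι F} (h1 : (g : Matrix ι ι F) = 1 + N) (h2 : N * N = 0) : Over F₀ (cj P⁻¹ N) := by
  obtain ⟨c, y, hc, hy⟩ := (mem_subfieldSubgroup_iff F₀ P g).1 hg
  obtain ⟨p, hp⟩ := CharP.exists F
  haveI : Fact p.Prime := ⟨CharP.char_is_prime F p⟩
  have h3 : (g : Matrix ι ι F) ^ p = 1 := by
    rw [h1, add_pow_char_of_commute p (Commute.one_left N), one_pow,
      pow_eq_zero_of_le (Fact.out : p.Prime).two_le (by rw [sq, h2]), add_zero]
  have h4 := congrArg (cj P⁻¹) h3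
  rw [map_pow, map_one, hy, smul_pow, ← RingHom.mapMatrix_apply, ← map_pow] at h4
  obtain ⟨i⟩ := ‹Nonempty ι›
  have h5 := congrFun (congrFun h4 i) i
  simp only [Matrix.smul_apply, RingHom.mapMatrix_apply, Matrix.map_apply, Matrix.one_apply_eq,
    smul_eq_mul] at h5
  have h6 : c ^ p ∈ F₀ := by
    rw [eq_inv_of_mul_eq_one_left h5]
    exact F₀.inv_mem (Subtype.prop _)
  have h7 : c ∈ F₀ := by
    rw [mem_subfield_iff] at h6 ⊢
    apply frobenius_inj F p
    rwa [frobenius_def, frobenius_def, ← pow_mul, mul_comm, pow_mul]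
  intro i j
  rw [show N = (g : Matrix ι ι F) - 1 by rw [h1, add_sub_cancel_left], map_sub, map_one, hy,
    Matrix.sub_apply]
  refine F₀.sub_mem (F₀.mul_mem h7 (Subtype.prop _)) ?_
  rw [Matrix.one_apply]
  split_ifs
  exacts [F₀.one_mem, F₀.zero_mem]

/-- (C5) -/
theorem not_le_subfieldSubgroup (hG : Herm σ 1 G) (hne : σ ≠ RingEquiv.refl F)
    (hn : 3 ≤ Fintype.card ι) {F₀ : Subfield F} (h0 : F₀ ≠ ⊤) (P : GL ι F) :
    ¬ SUG σ G ≤ subfieldSubgroup F₀ P := fun hle => by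
  haveI : Nonempty ι := Fintype.card_pos_iff.1 (by omega)
  obtain ⟨δ, hδ0, hδ⟩ := exists_skew' hG hne
  have key : ∀ v, gf σ G v v = 0 → Over F₀ (cj P⁻¹ (δ • rk1 σ G v v)) := fun v hv => by
    obtain ⟨t, ht, h1, -⟩ := exists_tv hG hv hδ
    exact over_of_unipotent (hle ht) h1 (by
      rw [Matrix.smul_mul, Matrix.mul_smul, mul_rk1, rk1_mulVec, hv, rk1_smul]; simp)
  have key2 : ∀ u v w, gf σ G u u = 0 → gf σ G v v = 0 → gf σ G w w = 0 →
      δ ^ 3 * (gf σ G w v * gf σ G v u * gf σ G u w) ∈ F₀ := fun u v w hu hv hw => by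
    have := Over.trace_mem ((key u hu).mul ((key v hv).mul (key w hw)))
    rw [← map_mul, ← map_mul, trace_cj] at this
    convert this using 1
    simp only [Matrix.mul_smul, mul_rk1, rk1_mulVec, Matrix.trace_smul, Matrix.smul_mulVec,
      Matrix.mulVec_smul, gf_smul_left, trace_rk1, smul_eq_mul]
    ring
  obtain ⟨b, hb, -⟩ := exists_orthonormal hG hne
  obtain ⟨a, a', h1, h2, h3⟩ := exists_two_norms hG.invol hne
  obtain ⟨i, j, k, hij, hik, hjk⟩ := Fintype.two_lt_card_iff.1 hn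
  have hiso : ∀ a : F, a * σ a = -1 → gf σ G (b i + a • b j) (b i + a • b j) = 0 := fun a ha => by
    simp only [gf_add_left, gf_add_right, gf_smul_left, gf_smul_right, hb, hij, hij.symm, if_true,
      if_false]
    linear_combination ha
  set u := b i + a • b j with hu
  set v := b i + a' • b j with hv
  have huv : gf σ G u v ≠ 0 := fun h => by
    simp only [hu, hv, gf_add_left, gf_add_right, gf_smul_left, gf_smul_right, hb, hij, hij.symm,
      if_true, if_false] at h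
    have h4 : σ a' ≠ 0 := by rintro h4; simp [h4] at h3
    exact h1 (mul_right_cancel₀ h4 (by linear_combination h - h3))
  have hvu : gf σ G v u ≠ 0 := fun h => huv (hG.gf_eq_zero_comm h)
  have huu : gf σ G u u = 0 := hiso a h2
  have hvv : gf σ G v v = 0 := hiso a' h3
  have huk : gf σ G u (b k) = 0 := by simp [hu, gf_add_left, gf_smul_left, hb, hik, hjk]
  have hvk : gf σ G v (b k) = 0 := by simp [hv, gf_add_left, gf_smul_left, hb, hik, hjk]
  refine h0 (eq_top_iff.2 fun y _ => ?_)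
  obtain ⟨x, rfl⟩ : ∃ x, y = δ ^ 3 * (x * gf σ G u v * gf σ G v u * gf σ G u v) :=
    ⟨y / (δ ^ 3 * (gf σ G u v * gf σ G v u * gf σ G u v)), by field_simp⟩
  obtain ⟨z, hz⟩ := exists_norm hG.invol hne (t := -(x * gf σ G u v + σ (x * gf σ G u v)))
    (by rw [map_neg, map_add, hG.invol, add_comm])
  have := key2 u v (x • u + v + z • b k) huu hvv (by
    simp only [gf_add_left, gf_add_right, gf_smul_left, gf_smul_right, huu, hvv, huk,
      hvk, hG.gf_eq_zero_comm huk, hG.gf_eq_zero_comm hvk, hb, if_true]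
    rw [map_mul, gf_conj hG] at hz
    linear_combination hz)
  simpa only [gf_add_left, gf_add_right, gf_smul_left, gf_smul_right, huu, hvv, huk,
      hvk, hG.gf_eq_zero_comm huk, hG.gf_eq_zero_comm hvk, mul_zero, add_zero, zero_add] using this

/-- (C6) -/
theorem not_le_subgroupNormalizer (hG : Herm σ 1 G) (hne : σ ≠ RingEquiv.refl F)
    (hn : 3 ≤ Fintype.card ι) (h : 4 ≤ Fintype.card ι ∨ 9 < Fintype.card F) {r : ℕ}
    {R : Subgroup (GL ι F)} (hR : RData r R) : ¬ SUG σ G ≤ subgroupNormalizer R := fun hle => by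
  haveI : Nonempty ι := Fintype.card_pos_iff.1 (by omega)
  obtain ⟨x, hx, hs⟩ := SetLike.not_le_iff_exists.1 (not_le_scalars_of_irred hR.abs.irred (by omega))
  obtain ⟨v, hv, hv'⟩ := exists_iso_not_eigen hG hne (by omega) (x := (x : Matrix ι ι F))
    fun ⟨c, hc⟩ => hs (mem_scalars_of_eq_smul hc)
  obtain ⟨δ, hδ0, hδ⟩ := exists_skew' hG hne
  let φ : Dual F (ι → F) := fl σ G v ∘ₗ Matrix.toLin' ((x⁻¹ : GL ι F) : Matrix ι ι F)
  have hφ : ∀ z, φ z = gf σ G (((x⁻¹ : GL ι F) : Matrix ι ι F) *ᵥ z) v := fun z => rfl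
  have key : ∀ c : F, c ≠ 0 → σ c = -c → ∃ y ∈ R, y ∉ scalars ι F ∧
      (y : Matrix ι ι F).trace = Fintype.card ι - c ^ 2 * (φ v * gf σ G ((x : Matrix ι ι F) *ᵥ v) v) ∧
      ∀ z, (y : Matrix ι ι F) *ᵥ z = z - (c * φ z) • ((x : Matrix ι ι F) *ᵥ v) +
        (c * gf σ G z v - c * φ z * (c * gf σ G ((x : Matrix ι ι F) *ᵥ v) v)) • v := by
    intro c hc0 hc
    obtain ⟨t, ht, h1, h2, h3, h4⟩ := exists_tv hG hv hc
    have h5 : ∀ z, ((t * x * t⁻¹ * x⁻¹ : GL ι F) : Matrix ι ι F) *ᵥ z =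
        z - (c * φ z) • ((x : Matrix ι ι F) *ᵥ v) +
        (c * gf σ G z v - c * φ z * (c * gf σ G ((x : Matrix ι ι F) *ᵥ v) v)) • v := fun z => by
      rw [Units.val_mul, Units.val_mul, Units.val_mul, ← Matrix.mulVec_mulVec, ← Matrix.mulVec_mulVec,
        ← Matrix.mulVec_mulVec, h4, Matrix.mulVec_sub, mulVec_inv_mulVec, Matrix.mulVec_smul, h3,
        gf_sub_left, gf_smul_left, hφ]
      module
    refine ⟨_, R.mul_mem (gnorms_of_le_normalizer hle t ht x hx) (R.inv_mem hx), fun hs' => ?_, ?_, h5⟩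
    · obtain ⟨d, hd⟩ := (mem_scalars_iff _).1 hs'
      obtain ⟨z, hz0, hz1, hz2⟩ := exists_ker_two hn (fl σ G v) φ
      have h6 := h5 z
      rw [hd, Matrix.smul_mulVec, Matrix.one_mulVec, hz2, show gf σ G z v = 0 from hz1] at h6
      simp only [mul_zero, zero_smul, sub_zero, zero_mul, add_zero] at h6
      have h7 : (d : F) = 1 := smul_left_injective F hz0 (h6.trans (one_smul F z).symm)
      rw [h7, one_smul, Units.val_eq_one, mul_inv_eq_one, mul_inv_eq_iff_eq_mul] at hd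
      exact hv' (eigen_of_comm hG hc0 h3 (congrArg Units.val hd))
    · have h6 : ((t * x * t⁻¹ * x⁻¹ : GL ι F) : Matrix ι ι F) =
          (1 + c • rk1 σ G v v) * (1 - c • cj x (rk1 σ G v v)) := by
        rw [← h1, ← map_smul, ← map_one (cj x), ← map_sub, ← h2, cj_coe, ← Units.val_mul]
        simp only [mul_assoc]
      have h7 : (rk1 σ G v v * cj x (rk1 σ G v v)).trace = φ v * gf σ G ((x : Matrix ι ι F) *ᵥ v) v := by
        rw [cj_apply, mul_rk1, ← mul_assoc, Matrix.trace_mul_comm, mul_rk1, mul_rk1, trace_rk1,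
          rk1_mulVec, Matrix.mulVec_smul, gf_smul_left, hφ, mul_comm]
      simp only [h6, mul_sub, add_mul, one_mul, mul_one, Matrix.smul_mul, Matrix.mul_smul,
        Matrix.trace_sub, Matrix.trace_add, Matrix.trace_smul, trace_cj, trace_rk1, hv, h7,
        Matrix.trace_one, smul_eq_mul]
      ring
  rcases h with h | h
  · obtain ⟨y, hy, hys, -, hy'⟩ := key δ hδ0 hδ
    obtain ⟨z, -, ζ, hζ, hz⟩ := hR.exists_twist hy hys
    have h1 := finrank_ker_two (fl σ G v) φ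
    set C := LinearMap.ker (fl σ G v) ⊓ LinearMap.ker φ
    have h2 : ∀ u ∈ C.map (Matrix.toLin' (z : Matrix ι ι F)), (y : Matrix ι ι F) *ᵥ u = ζ • u := by
      rintro _ ⟨w, hw, rfl⟩
      rw [Matrix.toLin'_apply, Matrix.mulVec_mulVec, hz, Matrix.smul_mulVec, ← Matrix.mulVec_mulVec,
        hy', show φ w = 0 from hw.2, show gf σ G w v = 0 from hw.1]
      simp
    have h3 : C.map (Matrix.toLin' (z : Matrix ι ι F)) = (F ∙ v) ⊔ F ∙ ((x : Matrix ι ι F) *ᵥ v) := by
      refine Submodule.eq_of_le_of_finrank_le (fun u hu => ?_) ?_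
      · have h4 := h2 u hu
        rw [hy'] at h4
        have h5 : u = (ζ - 1)⁻¹ • ((δ * gf σ G u v - δ * φ u * (δ * gf σ G ((x : Matrix ι ι F) *ᵥ v) v)) • v -
            (δ * φ u) • ((x : Matrix ι ι F) *ᵥ v)) := by
          rw [eq_inv_smul_iff₀ (sub_ne_zero.2 hζ), sub_smul, ← h4]
          module
        rw [h5]
        exact Submodule.smul_mem _ _ (Submodule.sub_mem _
          (Submodule.mem_sup_left (Submodule.smul_mem _ _ (Submodule.mem_span_singleton_self _)))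
          (Submodule.mem_sup_right (Submodule.smul_mem _ _ (Submodule.mem_span_singleton_self _))))
      · have := finrank_span_pair_le (F := F) v ((x : Matrix ι ι F) *ᵥ v)
        rw [finrank_map_gl]
        omega
    have h4 := h2 v (h3 ▸ Submodule.mem_sup_left (Submodule.mem_span_singleton_self _))
    rw [hy', hv] at h4
    by_cases h5 : φ v = 0
    · simp only [h5, mul_zero, zero_smul, sub_zero, zero_mul, add_zero] at h4
      have hv0 : v ≠ 0 := by rintro rfl; simp at hv'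
      exact hζ (smul_left_injective F hv0 (h4.symm.trans (one_smul F v).symm))
    · refine hv' (Submodule.mem_span_singleton.2 ⟨(δ * φ v)⁻¹ *
        (1 - δ * φ v * (δ * gf σ G ((x : Matrix ι ι F) *ᵥ v) v) - ζ), ?_⟩)
      rw [mul_smul, inv_smul_eq_iff₀ (mul_ne_zero hδ0 h5), sub_smul, ← h4]
      module
  · classical
    obtain ⟨s, hs, hs'⟩ := exists_fix hG.invol hne {0, 1, -1}
      (lt_of_le_of_lt (Nat.pow_le_pow_left Finset.card_le_three 2) h)
    simp only [Finset.mem_insert, Finset.mem_singleton, not_or] at hs'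
    obtain ⟨y, hy, hys, h1, -⟩ := key δ hδ0 hδ
    obtain ⟨y', hy', hys', h2, -⟩ := key (s * δ) (mul_ne_zero hs'.1 hδ0) (by rw [map_mul, hs, hδ, mul_neg])
    rw [hR.trace_eq_zero hy hys] at h1
    rw [hR.trace_eq_zero hy' hys'] at h2
    have h3 : (s - 1) * (s + 1) * (Fintype.card ι : F) = 0 := by
      linear_combination h2 - s ^ 2 * h1
    simp only [mul_eq_zero, sub_eq_zero, add_eq_zero_iff_eq_neg] at h3
    exact hR.card_ne_zero ((h3.resolve_left fun h => h.elim hs'.2.1 hs'.2.2))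

end Cfsg.Agent.H5.SU
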