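import Cfsg.Agent.H5.SUTools
import Cfsg.Agent.H8.Roots

/-!
Adjoint-closed fields of odd prime degree: normal forms.
-/

set_option autoImplicit false
set_option linter.unusedSectionVars false

namespace Cfsg.Agent.H5.SU

open Module Cfsg.Geo Cfsg.Agent.H7 Cfsg.Agent.Asch
open scoped MatrixGroups Matrix Kronecker

section field

variable {F K : Type*} [Field F] [Field K] [Algebra F K] [Fintype F] [Fintype K]

theorem indep_pow {r : ℕ} (hr : r.Prime) (hd : finrank F K = r) {x : K}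
    (hx : x ∉ (algebraMap F K).range) : LinearIndependent F fun i : Fin r => x ^ (i : ℕ) := by
  have h1 : (minpoly F x).natDegree ∣ r := hd ▸ minpoly.degree_dvd (IsIntegral.of_finite F x)
  have h2 := ((Nat.dvd_prime hr).1 h1).resolve_left fun h => hx (minpoly.natDegree_eq_one_iff.1 h)
  exact h2 ▸ linearIndependent_pow x

theorem natCard_fixSub {τ : K ≃+* K} (hτ : ∀ a, τ (τ a) = a) (hne : τ ≠ RingEquiv.refl K) {s : ℕ}
    (h : Fintype.card K = s ^ 2) : Nat.card (fixSub τ) = s :=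
  Nat.pow_left_injective two_ne_zero ((card_eq_card_fixSub_sq hτ hne).symm.trans h)

theorem exists_vals_aux {q m : ℕ} (hF : Fintype.card F = q ^ 2) {σ : F ≃+* F} (hσ : ∀ a, σ (σ a) = a)
    (hne : σ ≠ RingEquiv.refl F) (hd : finrank F K = 2 * m + 1) {τ : K ≃+* K} (hτ : ∀ a, τ (τ a) = a)
    (hτ' : τ ≠ RingEquiv.refl K) (L : K →ₗ[F] F) (hL : ∀ k, L (τ k) = σ (L k)) (h1 : L 1 ≠ 0) {x : K}
    (hx : x * τ x = 1) (hi : LinearIndependent F fun i : Fin (2 * m + 1) => x ^ (i : ℕ))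
    {t₀ : F} (ht : σ t₀ = t₀) (t : Fin m → F) :
    ∃ k : K, L (k * τ k) = t₀ ∧ ∀ i : Fin m, L (x ^ (i + 1 : ℕ) * (k * τ k)) = t i := by
  have hK : Fintype.card K = (q ^ (2 * m + 1)) ^ 2 := by
    rw [Module.card_eq_pow_finrank (K := F), hd, hF, ← pow_mul, ← pow_mul, mul_comm]
  let Φ : fixSub τ → fixSub σ × (Fin m → F) := fun a =>
    (⟨L a, by rw [mem_fixSub, ← hL, mem_fixSub.1 a.2]⟩, fun i => L (x ^ (i + 1 : ℕ) * a))
  have hinj : Function.Injective Φ := fun a b hab => by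
    by_contra hne'
    have hc : (a : K) - b ≠ 0 := sub_ne_zero.2 fun h => hne' (Subtype.ext h)
    have hc' : τ ((a : K) - b) = a - b := (sub_mem a.2 b.2 : (a : K) - b ∈ fixSub τ)
    have k1 : ∀ i ≤ m, L (x ^ i * (a - b)) = 0 := fun i hi => by
      rw [mul_sub, map_sub, sub_eq_zero]
      rcases i with _ | i
      · rw [pow_zero, one_mul, one_mul]
        exact congrArg (fun p => (p.1 : F)) hab
      · exact congrFun (congrArg Prod.snd hab) ⟨i, hi⟩
    have k2 : ∀ i ≤ m, L (τ x ^ i * (a - b)) = 0 := fun i hi => by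
      rw [← hc', ← map_pow, ← map_mul, hL, k1 i hi, map_zero]
    have k3 : ∀ k, L (k * (τ x ^ m * (a - b))) = 0 := fun k => by
      have : k ∈ Submodule.span F (Set.range fun i : Fin (2 * m + 1) => x ^ (i : ℕ)) := by
        rw [hi.span_eq_top_of_card_eq_finrank (by simp [hd])]; trivial
      obtain ⟨c, rfl⟩ := (Submodule.mem_span_range_iff_exists_fun F).1 this
      simp only [Finset.sum_mul, map_sum, smul_mul_assoc, map_smul]
      refine Finset.sum_eq_zero fun j _ => ?_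
      rcases le_total (j : ℕ) m with h | h
      · obtain ⟨l, hl⟩ := Nat.exists_eq_add_of_le h
        rw [show x ^ (j : ℕ) * (τ x ^ m * (a - b)) = τ x ^ l * (a - b) by
          rw [congrArg (τ x ^ ·) hl, pow_add, ← mul_assoc, ← mul_assoc, ← mul_pow, hx, one_pow, one_mul],
          k2 l (by omega), smul_zero]
      · obtain ⟨l, hl⟩ := Nat.exists_eq_add_of_le h
        rw [show x ^ (j : ℕ) * (τ x ^ m * (a - b)) = x ^ l * (a - b) by
          rw [hl, pow_add, ← mul_assoc, mul_right_comm (x ^ m), ← mul_pow, hx, one_pow, one_mul],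
          k1 l (by omega), smul_zero]
    have hx0 : τ x ≠ 0 := right_ne_zero_of_mul_eq_one hx
    exact h1 (by rw [← inv_mul_cancel₀ (mul_ne_zero (pow_ne_zero m hx0) hc), k3])
  have hsurj := (hinj.bijective_of_nat_card_le (by
    rw [Nat.card_prod, Nat.card_fun, natCard_fixSub hσ hne hF, natCard_fixSub hτ hτ' hK,
      Nat.card_eq_fintype_card, hF, Nat.card_eq_fintype_card, Fintype.card_fin]
    exact le_of_eq (by ring))).2
  obtain ⟨a, ha⟩ := hsurj (⟨t₀, ht⟩, t)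
  obtain ⟨k, hk⟩ := exists_norm hτ hτ' (t := a) a.2
  exact ⟨k, hk ▸ congrArg (fun p => (p.1 : F)) ha, fun i => hk ▸ congrFun (congrArg Prod.snd ha) i⟩

end field

variable {ι : Type} [Fintype ι] [DecidableEq ι] {F : Type*} [Field F] {σ : F ≃+* F} {G : Matrix ι ι F}

theorem mul_eq_zero_of_field {r : ℕ} {K : Subalgebra F (Matrix ι ι F)} (hK : IsFieldSubalgebra r K)
    {a b : Matrix ι ι F} (ha : a ∈ K) (h : a * b = 0) : a = 0 ∨ b = 0 := by
  by_cases h0 : a = 0
  · exact Or.inl h0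
  · obtain ⟨y, -, hy⟩ := hK.inv a ha h0
    exact Or.inr (by rw [← one_mul b, ← mul_eq_one_comm.1 hy, mul_assoc, h, mul_zero])

theorem mulVec_eq_zero_of_field {r : ℕ} {K : Subalgebra F (Matrix ι ι F)} (hK : IsFieldSubalgebra r K)
    {a : Matrix ι ι F} (ha : a ∈ K) {v : ι → F} (h : a *ᵥ v = 0) : a = 0 ∨ v = 0 := by
  by_cases h0 : a = 0
  · exact Or.inl h0
  · obtain ⟨y, -, hy⟩ := hK.inv a ha h0
    exact Or.inr (by rw [← Matrix.one_mulVec v, ← mul_eq_one_comm.1 hy, ← Matrix.mulVec_mulVec, h,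
      Matrix.mulVec_zero])

theorem starC_of (hG : IsUnit G) {K : Subalgebra F (Matrix ι ι F)}
    (h : IsAdjointClosedFor (gf σ G) K) : StarC σ G K := fun k hk => by
  obtain ⟨k', h1, h2⟩ := h k hk
  rwa [adj_unique hG h2]

theorem singer_data [Fintype F] [Nonempty ι] {q m : ℕ} (hF : Fintype.card F = q ^ 2) (hG : Herm σ 1 G)
    (hne : σ ≠ RingEquiv.refl F) (hr : (2 * m + 1).Prime) {K : Subalgebra F (Matrix ι ι F)}
    (hK : IsFieldSubalgebra (2 * m + 1) K) (ha : IsAdjointClosedFor (gf σ G) K) {l : ℕ}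
    (hl : l ∣ q ^ (2 * m + 1) + 1) (hl' : ¬ l ∣ q ^ 2 - 1) :
    ∃ x ∈ K, orderOf x = l ∧ (∀ u v, gf σ G (x *ᵥ u) (x *ᵥ v) = gf σ G u v) ∧
      (∀ c : Fin (2 * m + 1) → F, ∑ i, c i • x ^ (i : ℕ) = 0 → ∀ i, c i = 0) ∧
      (∀ y ∈ K, ∃ c : Fin (2 * m + 1) → F, y = ∑ i, c i • x ^ (i : ℕ)) ∧
      (∀ g ∈ subalgebraNormalizer K, ∃ j < 2 * m + 1,
        (g : Matrix ι ι F) * x = x ^ (q ^ 2) ^ j * g) ∧
      ∀ u, gf σ G u u ≠ 0 → ∀ t₀, σ t₀ = t₀ → ∀ t : Fin m → F, ∃ k ∈ K,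
        gf σ G (k *ᵥ u) (k *ᵥ u) = t₀ ∧
          ∀ i : Fin m, gf σ G (x ^ (i + 1 : ℕ) *ᵥ (k *ᵥ u)) (k *ᵥ u) = t i := by
  have hst := starC_of hG.unit ha
  letI : Field K := (isField_of_inv hK.comm hK.inv).toField
  haveI := Fintype.ofFinite K
  have hcard : Fintype.card K = (q ^ (2 * m + 1)) ^ 2 := by
    rw [← Nat.card_eq_fintype_card, natCard_fieldSubalgebra hK, hF, ← pow_mul, ← pow_mul, mul_comm]
  set τ := adjEquiv hG hK.comm hst with hτdef
  have hτc : ∀ k : K, (τ k : Matrix ι ι F) = adj σ G k := fun k => rfl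
  have hτ : ∀ a, τ (τ a) = a := fun x => Subtype.ext (hG.adj_adj x)
  have hτ' : τ ≠ RingEquiv.refl K := fun h => by
    obtain ⟨a, ha⟩ := exists_ne_of_ne_refl hne
    have h2 := hτc (algebraMap F K a)
    rw [h] at h2
    change algebraMap F (Matrix ι ι F) a = adj σ G (algebraMap F _ a) at h2
    rw [Algebra.algebraMap_eq_smul_one, adj_smul_one hG.unit, hG.symm_eq] at h2
    exact ha (smul_one_injective h2).symm
  obtain ⟨x, hx0, hx⟩ := H8.exists_orderOf_eq (F := K) (d := l) (by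
    rw [hcard, ← one_pow 2, Nat.sq_sub_sq]
    exact hl.mul_right _)
  have hx1 : x * τ x = 1 := by
    rw [invol_eq_pow hτ hτ' hcard, ← pow_succ', ← orderOf_dvd_iff_pow_eq_one, hx]
    exact hl
  have hi := indep_pow (F := F) hr hK.finrank_eq (x := x) (by
    rintro ⟨c, rfl⟩
    apply hl'
    rw [← hx, orderOf_dvd_iff_pow_eq_one, ← map_pow, ← hF,
      FiniteField.pow_card_sub_one_eq_one c (by rintro rfl; simp at hx0), map_one])
  refine ⟨x, x.2, ?_, fun u v => ?_, fun c hc => ?_, fun y hy => ?_, fun g hg => ?_, fun u hu t₀ ht t => ?_⟩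
  · rw [← hx]
    exact orderOf_injective K.val.toRingHom.toMonoidHom Subtype.val_injective x
  · rw [gf_adj hG.unit, Matrix.mulVec_mulVec, ← hτc]
    have : (τ x : Matrix ι ι F) * x = 1 := congrArg Subtype.val ((mul_comm _ _).trans hx1)
    rw [this, Matrix.one_mulVec]
  · refine Fintype.linearIndependent_iff.1 hi c (Subtype.ext ?_)
    simpa using hc
  · have : (⟨y, hy⟩ : K) ∈ Submodule.span F (Set.range fun i : Fin (2 * m + 1) => x ^ (i : ℕ)) := by
      rw [hi.span_eq_top_of_card_eq_finrank (by simp [hK.finrank_eq])]; trivial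
    obtain ⟨c, hc⟩ := (Submodule.mem_span_range_iff_exists_fun F).1 this
    exact ⟨c, by simpa using (congrArg Subtype.val hc).symm⟩
  · let φ : K →ₐ[F] K := ((cj g).toAlgHom.comp K.val).codRestrict K fun k => (hg k).1 k.2
    obtain ⟨j, hj⟩ := (FiniteField.bijective_frobeniusAlgEquivOfAlgebraic_pow F K).2
      (AlgEquiv.ofBijective φ (Finite.injective_iff_bijective.1 φ.toRingHom.injective))
    refine ⟨j, hK.finrank_eq ▸ j.2, ?_⟩
    have := congrArg Subtype.val (DFunLike.congr_fun hj x)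
    simp only [AlgEquiv.coe_pow, FiniteField.coe_frobeniusAlgEquivOfAlgebraic_iterate, hF] at this
    rw [← cj_mul_self]
    congr 1
    exact this.symm
  · let L : K →ₗ[F] F := (fl σ G u).comp (((Matrix.mulVecBilin F F).flip u).comp K.val.toLinearMap)
    have hL : ∀ k : K, L k = gf σ G ((k : Matrix ι ι F) *ᵥ u) u := fun k => rfl
    obtain ⟨k, h1, h2⟩ := exists_vals_aux hF hG.invol hne hK.finrank_eq hτ hτ' L (fun k => by
      rw [hL, hL, hτc, ← hG.gf_adj', gf_conj hG]) (by simpa [hL] using hu) hx1 hi ht t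
    have key : ∀ y : K, L (y * (k * τ k)) =
        gf σ G ((y : Matrix ι ι F) *ᵥ ((k : Matrix ι ι F) *ᵥ u)) ((k : Matrix ι ι F) *ᵥ u) := fun y => by
      rw [hG.gf_adj', ← hτc, hL, Matrix.mulVec_mulVec, Matrix.mulVec_mulVec, ← mul_assoc y, mul_comm]
      simp [mul_assoc]
    refine ⟨k, k.2, ?_, fun i => ?_⟩
    · simpa [h1] using (key 1).symm
    · simpa [h2] using (key (x ^ (i + 1 : ℕ))).symm

theorem eq_tr_of_cols {κ : Type} [Fintype κ] [DecidableEq κ] {e : ι ≃ κ} {P : GL ι F} {b : κ → ι → F}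
    (hP : ∀ i, trv e P (Pi.single i 1) = b i) {x : Matrix ι ι F} {Z : Matrix κ κ F}
    (h : ∀ i, x *ᵥ b i = ∑ j, Z j i • b j) : x = tr e P Z := by
  obtain ⟨X, rfl⟩ := (tr e P).surjective x
  congr 1
  ext j i
  have := h i
  simp only [← hP, tr_mulVec] at this
  simp only [← H8.trvE_apply, ← map_smul, ← map_sum] at this
  have := congrFun ((H8.trvE e P).injective this) j
  simpa [Pi.single_apply] using this

theorem gf_pow {x : Matrix ι ι F} (h : ∀ u v, gf σ G (x *ᵥ u) (x *ᵥ v) = gf σ G u v) (k : ℕ)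
    (u v : ι → F) : gf σ G (x ^ k *ᵥ u) (x ^ k *ᵥ v) = gf σ G u v := by
  induction k with
  | zero => simp
  | succ k ih => rw [pow_succ', ← Matrix.mulVec_mulVec, ← Matrix.mulVec_mulVec, h, ih]

theorem exists_unit [Fintype F] [Nonempty ι] (hG : Herm σ 1 G) (hne : σ ≠ RingEquiv.refl F) :
    ∃ u, gf σ G u u = 1 := by
  obtain ⟨b, hb, -⟩ := exists_orthonormal hG hne
  exact ⟨b (Classical.arbitrary ι), by rw [hb, if_pos rfl]⟩

end Cfsg.Agent.H5.SU
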