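import Cfsg.Agent.H5.GF
import Cfsg.Agent.H5.SUSinger
import Cfsg.Agent.H5.SUFour

/-!
Exceptional geometric subgroups of `SU₆(2)`.
-/

set_option autoImplicit false
set_option linter.unusedSectionVars false
set_option maxRecDepth 100000

namespace Cfsg.Agent.H5.SU

open Module Cfsg.Geo Cfsg.Agent.H7 Cfsg.Agent.Asch
open scoped MatrixGroups Matrix Kronecker

variable {ι : Type} [Fintype ι] [DecidableEq ι] {F : Type*} [Field F] {σ : F ≃+* F} {G : Matrix ι ι F}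

theorem herm_one' (hσ : ∀ a, σ (σ a) = a) : Herm σ 1 (1 : Matrix ι ι F) :=
  ⟨hσ, isUnit_one, by rw [map_one_equiv, Matrix.transpose_one, one_smul], Or.inl rfl⟩

theorem Mon.ne_zero {t : ℕ} {g : GL (Fin t) F} {π : Equiv.Perm (Fin t)} {d : Fin t → F}
    (h : Mon (g : Matrix (Fin t) (Fin t) F) π d) (i : Fin t) : d i ≠ 0 :=
  SL.det_ne_zero_of_eq h.det i

theorem mono_model [Fintype F] {K : Type*} [Field K] {τ : K ≃+* K} {φ : K ≃+* F}
    (h : ∀ x, φ (τ x) = σ (φ x)) (hG : Herm σ 1 G) (hne : σ ≠ RingEquiv.refl F) {t : ℕ}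
    {D : Fin t → Submodule F (ι → F)} (hD : IsNondegenerateMDecomposition (gf σ G) 1 D)
    {H : Subgroup (GL ι F)} (hH : IsMaximalIn (SUG σ G) H) (hle : H ≤ decompositionStabilizer D) :
    ∃ H' : Subgroup (GL (Fin t) K), IsMaximalIn (SUG τ 1) H' ∧
      ∀ g ∈ H', ∃ π d, Mon (g : Matrix (Fin t) (Fin t) K) π d := by
  have hn := H8.IsMDecomposition.mul_eq hD.decomp
  let e : ι ≃ Fin t := Fintype.equivFinOfCardEq (by omega)
  obtain ⟨P, hP, hm⟩ := exists_mono_frame hG hne hD e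
  obtain ⟨H', h1, h2⟩ := max_model hH h e P (Γ := 1) (by rw [hP, map_one'])
  refine ⟨H', h1, fun g hg => ?_⟩
  obtain ⟨π, d, hd⟩ := hm _ (hle (h2 g hg))
  refine ⟨π, fun i => φ.symm (d i), fun v i => φ.injective ?_⟩
  have := hd (φ ∘ v) i
  rw [coe_glMap] at this
  simpa [Matrix.mulVec, dotProduct] using this

/-- the weight of a coordinate -/
def wt {K : Type*} [Zero K] [DecidableEq K] (x : K) : ℕ := if x = 0 then 0 else 1

theorem Mon.sum_wt [DecidableEq F] {t : ℕ} {g : GL (Fin t) F} {π : Equiv.Perm (Fin t)} {d : Fin t → F}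
    (h : Mon (g : Matrix (Fin t) (Fin t) F) π d) (v : Fin t → F) :
    ∑ i, wt (((g : Matrix (Fin t) (Fin t) F) *ᵥ v) i) = ∑ i, wt (v i) := by
  rw [← Equiv.sum_comp π]
  refine Finset.sum_congr rfl fun i _ => ?_
  rw [show ((g : Matrix (Fin t) (Fin t) F) *ᵥ v) (π i) = d i * v i from h v i]
  simp [wt, h.ne_zero i]

theorem Mon.prod {t : ℕ} {g : Matrix (Fin t) (Fin t) F} {π : Equiv.Perm (Fin t)} {d : Fin t → F}
    (h : Mon g π d) (v : Fin t → F) : ∏ i, (g *ᵥ v) i = (∏ i, d i) * ∏ i, v i := by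
  rw [← Equiv.prod_comp π, ← Finset.prod_mul_distrib]
  exact Finset.prod_congr rfl fun i _ => h v i

theorem six_check : ∀ a b c d e f : K4,
    (wt a + wt b + wt c + wt d + wt e + wt f = 2 ∨
      (wt a + wt b + wt c + wt d + wt e + wt f = 6 ∧ a * b * c * d * e * f = 1)) →
    ∀ s, s = a + b + c + d + e + f →
    (wt (a + s) + wt (b + s) + wt (c + s) + wt (d + s) + wt (e + s) + wt (f + s) = 2 ∨
      (wt (a + s) + wt (b + s) + wt (c + s) + wt (d + s) + wt (e + s) + wt (f + s) = 6 ∧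
        (a + s) * (b + s) * (c + s) * (d + s) * (e + s) * (f + s) = 1)) := by
  decide +kernel

/-- the monomial subgroup of `SU₆(2)` is not maximal -/
theorem frames_six_two [Fintype F] (h4 : Fintype.card F = 2 ^ 2) (hG : Herm σ 1 G)
    (hne : σ ≠ RingEquiv.refl F) {D : Fin 6 → Submodule F (ι → F)}
    (hD : IsNondegenerateMDecomposition (gf σ G) 1 D) {H : Subgroup (GL ι F)}
    (hH : IsMaximalIn (SUG σ G) H) (hle : H ≤ decompositionStabilizer D) : False := by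
  obtain ⟨φ, hφ⟩ := model4 h4 hG.invol hne
  obtain ⟨H', h1, h2⟩ := mono_model hφ hG hne hD hH hle
  have hG' : Herm c4 1 (1 : Matrix (Fin 6) (Fin 6) K4) := herm_one' (by decide +kernel)
  obtain ⟨g₀, k1, -, -, k2, -⟩ := exists_tv hG' (v := 1) (by decide +kernel) (c := 1) (by decide +kernel)
  obtain ⟨g₁, l1, -, -, l2, -⟩ := exists_tv hG' (v := ![1, 1, 1, 1, 0, 0]) (by decide +kernel) (c := 1)
    (by decide +kernel)
  have := no_max h1 (fun v => ∑ i, wt (v i) = 2 ∨ (∑ i, wt (v i) = 6 ∧ ∏ i, v i = 1))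
    (fun g hg v hv => by
      obtain ⟨π, d, hd⟩ := h2 g hg
      have h3 := hd.det
      rw [(mem_SUG.1 (h1.1.le hg)).2] at h3
      have h4 : ((Equiv.Perm.sign π : ℤ) : K4) = 1 := by
        rcases Int.units_eq_one_or (Equiv.Perm.sign π) with h | h <;> rw [h] <;> decide +kernel
      rw [h4, one_mul] at h3
      rwa [hd.sum_wt, hd.prod, ← h3, one_mul])
    k1 (fun h => by
      obtain ⟨π, d, hd⟩ := h2 g₀ h
      have := hd.sum_wt (Pi.single 0 1)
      rw [k2] at this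
      revert this
      decide +kernel)
    (fun v hv => by
      rw [k2]
      simp only [Fin.sum_univ_six, Fin.prod_univ_six, gf_one, Pi.add_apply, Pi.smul_apply, Pi.one_apply,
        map_one, mul_one, one_mul, smul_eq_mul] at hv ⊢
      exact six_check _ _ _ _ _ _ hv _ rfl)
    l1 (v := ![1, .of 2, 0, 0, 0, 0]) (by decide +kernel)
  rw [l2] at this
  revert this
  decide +kernel

theorem cubic_check : ∀ w a b c : K4, w ≠ 1 → w * w * w = 1 →
    c4 a * a + c4 b * b + c4 c * c = 1 → c4 a * b + c4 b * c + c4 c * (w * a) = 0 →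
    (!![a, b, c; b, c, w * a; c, w * a, w * b] : Matrix (Fin 3) (Fin 3) K4).det ^ 2 =
      (!![1, 0, 0; 0, 0, w; 0, w, 0] : Matrix (Fin 3) (Fin 3) K4).det ^ 2 → b = 0 ∧ c = 0 := by
  simp only [Matrix.det_fin_three, Matrix.of_apply, Matrix.cons_val', Matrix.cons_val_zero,
    Matrix.cons_val_one, Matrix.cons_val]
  decide +kernel

/-- the normaliser of a cubic field in `SU₆(2)` -/
theorem cubic_six_two [Fintype F] (h4 : Fintype.card F = 2 ^ 2) (hG : Herm σ 1 G)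
    (hne : σ ≠ RingEquiv.refl F) (hn : Fintype.card ι = 6) {K : Subalgebra F (Matrix ι ι F)}
    (hK : IsFieldSubalgebra 3 K) (ha : IsAdjointClosedFor (gf σ G) K) {H : Subgroup (GL ι F)}
    (hH : H ≤ SUG σ G) (hle : H ≤ subalgebraNormalizer K) : FormC5 σ G H := by
  haveI : Nonempty ι := Fintype.card_pos_iff.1 (by omega)
  obtain ⟨x, hxK, hx9, hxu, -, hxs, hxn, hxv⟩ := singer_data (m := 1) h4 hG hne Nat.prime_three hK ha
    (l := 9) (by norm_num) (by norm_num)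
  have h2 : (2 : F) = 0 := two_eq_zero_of_four h4
  obtain ⟨w, hw1, hw3, hxw⟩ : ∃ w : F, w ≠ 1 ∧ w * w * w = 1 ∧ x ^ 3 = w • 1 := by
    obtain ⟨w, hw, -⟩ := H8.exists_omega_of_card_four (F := F) h4
    have hw1 : w ≠ 1 := by rintro rfl; exact one_ne_zero (by linear_combination hw - h2)
    have e1 : (x ^ 3 - 1) * ((x ^ 3 - w • 1) * (x ^ 3 - (w * w) • 1)) = 0 := by
      have : (x ^ 3) ^ 3 = 1 := by rw [← pow_mul, ← orderOf_dvd_iff_pow_eq_one, hx9]
      generalize x ^ 3 = y at this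
      simp only [mul_sub, sub_mul, mul_one, one_mul, Matrix.mul_smul, Matrix.smul_mul, smul_smul]
      rw [← mul_assoc, ← pow_three', this]
      match_scalars <;> grind
    have hK3 := K.pow_mem hxK 3
    rcases mul_eq_zero_of_field hK (K.sub_mem hK3 K.one_mem) e1 with h | h
    · rw [sub_eq_zero, ← orderOf_dvd_iff_pow_eq_one, hx9] at h
      exact absurd h (by norm_num)
    rcases mul_eq_zero_of_field hK (K.sub_mem hK3 (K.smul_mem K.one_mem _)) h with h | h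
    · exact ⟨w, hw1, by grind, sub_eq_zero.1 h⟩
    · exact ⟨w * w, by grind, by grind, sub_eq_zero.1 h⟩
  have hw0 : w ≠ 0 := by rintro rfl; simp at hw3
  have hσw : σ w = w * w := by rw [H9.ringEquiv_eq_sq h4 hne, sq]
  have hpow := gf_pow hxu
  have hon : ∀ u, gf σ G u u = 1 → gf σ G (x *ᵥ u) u = 0 → ON σ G fun i : Fin 3 => x ^ (i : ℕ) *ᵥ u := by
    intro u h0 h1
    have h1' : gf σ G u (x *ᵥ u) = 0 := hG.gf_eq_zero_comm h1
    have h2 : gf σ G (x ^ 2 *ᵥ u) u = 0 := by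
      rw [← hxu, Matrix.mulVec_mulVec, ← pow_succ', hxw, Matrix.smul_mulVec, Matrix.one_mulVec,
        gf_smul_left, h1', mul_zero]
    have h3 : gf σ G (x ^ 2 *ᵥ u) (x *ᵥ u) = 0 := by rw [sq, ← Matrix.mulVec_mulVec, hxu, h1]
    intro i j
    fin_cases i <;> fin_cases j <;>
      simp [h0, h1, h1', h2, h3, hG.gf_eq_zero_comm h2, hG.gf_eq_zero_comm h3, hxu, hpow]
  obtain ⟨u₀, hu₀⟩ := exists_unit hG hne
  obtain ⟨k, hk, hk1, hk2⟩ := hxv u₀ (by rw [hu₀]; exact one_ne_zero) 1 (map_one σ) 0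
  set u := k *ᵥ u₀
  have hu := hon u hk1 (by simpa using hk2 0)
  have hv := hG.trVal_of_ne hne
  have hd := hG.finrank_perp hv (Submodule.span F (Set.range fun i : Fin 3 => x ^ (i : ℕ) *ᵥ u))
  rw [finrank_span_eq_card hu.indep, Fintype.card_fin, hn] at hd
  obtain ⟨u₁, hu₁, hu₁'⟩ := exists_norm_mem hG hne ((hG.nondeg_iff hv).2 (by
    rw [H7.Polar.perp_perp, inf_comm, hG.span_inf_perp hv (fun i => by rw [hu.self]; exact one_ne_zero)
      fun _ _ => hu.ne])) (Submodule.one_le_finrank_iff.1 (by omega)) (s := 1) (map_one σ)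
  obtain ⟨k', hk', hk1', hk2'⟩ := hxv u₁ (by rw [hu₁']; exact one_ne_zero) 1 (map_one σ) 0
  have hu' := hon _ hk1' (by simpa using hk2' 0)
  have ho : ∀ i j : Fin 3, gf σ G (x ^ (i : ℕ) *ᵥ (k' *ᵥ u₁)) (x ^ (j : ℕ) *ᵥ u) = 0 := fun i j => by
    rw [Matrix.mulVec_mulVec, gf_adj hG.unit, Matrix.mulVec_mulVec]
    obtain ⟨c, hc⟩ := hxs _ (K.mul_mem (starC_of hG.unit ha _ (K.mul_mem (K.pow_mem hxK i) hk'))
      (K.pow_mem hxK j))
    rw [hc, Matrix.sum_mulVec, gf_sum_right]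
    refine Finset.sum_eq_zero fun l _ => ?_
    rw [Matrix.smul_mulVec, gf_smul_right,
      show gf σ G u₁ (x ^ (l : ℕ) *ᵥ u) = 0 from hu₁ _ (Submodule.subset_span ⟨l, rfl⟩), mul_zero]
  generalize k' *ᵥ u₁ = u' at hu' ho
  have hb : ON σ G fun p : Fin 2 × Fin 3 => x ^ (p.2 : ℕ) *ᵥ ![u, u'] p.1 := by
    rintro ⟨s, i⟩ ⟨t, j⟩
    fin_cases s <;> fin_cases t
    · simpa using hu i j
    · simpa using hG.gf_eq_zero_comm (ho j i)
    · simpa using ho i j
    · simpa using hu' i j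
  let e : ι ≃ Fin 2 × Fin 3 := Fintype.equivOfCardEq (by simp [hn])
  obtain ⟨P, hP⟩ := exists_frame_of_linearIndependent e hb.indep
  have hΓ : pbG σ e P G = 1 := by
    ext i j
    rw [pbG_apply, hP, hP, hb, Matrix.one_apply]
  obtain ⟨Z, hZ⟩ : ∃ Z : Matrix (Fin 2 × Fin 3) (Fin 2 × Fin 3) F,
    Z = (1 : Matrix (Fin 2) (Fin 2) F) ⊗ₖ !![0, 0, w; 1, 0, 0; 0, 1, 0] := ⟨_, rfl⟩
  have hx : x = tr e P Z := eq_tr_of_cols hP fun ⟨s, i⟩ => by
    rw [Matrix.mulVec_mulVec, ← pow_succ']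
    fin_cases i <;>
      simp [hZ, Fintype.sum_prod_type, Fin.sum_univ_three, Matrix.one_apply, hxw, Matrix.smul_mulVec]
  obtain ⟨A, hA⟩ : ∃ A : Matrix (Fin 2 × Fin 3) (Fin 2 × Fin 3) F,
    A = !![0, 1; 1, 0] ⊗ₖ !![1, 0, 0; 0, 0, w; 0, w, 0] := ⟨_, rfl⟩
  have hA1 : A * A.map σ = 1 := by
    ext ⟨s, i⟩ ⟨t, j⟩
    fin_cases s <;> fin_cases t <;> fin_cases i <;> fin_cases j <;>
      simp [hA, Matrix.mul_apply, Fintype.sum_prod_type, Fin.sum_univ_three, hσw, ← mul_assoc, hw3]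
  have hA2 : Aᵀ = A := by
    ext ⟨s, i⟩ ⟨t, j⟩
    fin_cases s <;> fin_cases t <;> fin_cases i <;> fin_cases j <;> simp [hA]
  have hA3 : Zᵀ * A = A * Z := by
    ext ⟨s, i⟩ ⟨t, j⟩
    fin_cases s <;> fin_cases t <;> fin_cases i <;> fin_cases j <;>
      simp [hA, hZ, Matrix.mul_apply, Fintype.sum_prod_type, Fin.sum_univ_three]
  refine formC5_of_bilinear hG hne (hH.trans fixesGram_SUG.le_sim) e P one_ne_zero (A := A)
    (M := A.map σ) (by rw [hA1, hΓ, one_smul])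
    (by rw [map_map_invol hG.invol, mul_eq_one_comm.1 hA1]) (by rw [map_one, hA2]) fun g hg => ?_
  obtain ⟨h1, h3⟩ := mem_SUG'.1 ((trGL_mem_SUG e P).1 (hH hg))
  rw [hΓ, mul_one] at h1
  obtain ⟨c, hc⟩ : ∃ c : F, (g : Matrix (Fin 2 × Fin 3) (Fin 2 × Fin 3) F) * Z =
      c • (Z * (g : Matrix (Fin 2 × Fin 3) (Fin 2 × Fin 3) F)) := by
    obtain ⟨j, -, hj⟩ := hxn _ (hle hg)
    obtain ⟨l, hl⟩ : ∃ l, (2 ^ 2) ^ j = 3 * l + 1 :=
      ⟨(2 ^ 2) ^ j / 3, by have : (2 ^ 2) ^ j % 3 = 1 := by simp [Nat.pow_mod]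
                           omega⟩
    rw [hl, pow_succ, pow_mul, hxw, smul_pow, one_pow, hx, coe_trGL, smul_mul_assoc, one_mul,
      smul_mul_assoc, ← map_mul, ← map_mul, ← map_smul] at hj
    exact ⟨_, (tr e P).injective hj⟩
  rw [mem_similarityGroup_gf, map_refl]
  generalize (g : Matrix (Fin 2 × Fin 3) (Fin 2 × Fin 3) F) = y at h1 h3 hc
  have hB1 : (yᵀ * A * y)ᵀ = yᵀ * A * y := by
    rw [Matrix.transpose_mul, Matrix.transpose_mul, Matrix.transpose_transpose, hA2, mul_assoc]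
  have hB2 : Zᵀ * (yᵀ * A * y) = yᵀ * A * y * Z := by
    rw [← mul_assoc, ← mul_assoc, ← Matrix.transpose_mul, hc, mul_assoc _ y, hc, Matrix.transpose_smul,
      Matrix.transpose_mul, smul_mul_assoc, smul_mul_assoc, Matrix.mul_smul, mul_assoc yᵀ, hA3]
    simp only [mul_assoc]
  have hB3 : ∀ p, (yᵀ * A * y) p p = 0 := fun p => by
    simp [hA, Matrix.mul_apply, Fintype.sum_prod_type, Fin.sum_univ_three]
    grind
  have hB4 : (yᵀ * A * y).map σ * (yᵀ * A * y) = 1 := by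
    have h5 : y * (y.map σ)ᵀ = 1 := by
      rw [mul_eq_one_comm, ← Matrix.transpose_transpose y, ← Matrix.transpose_mul,
        Matrix.transpose_transpose, h1, Matrix.transpose_one]
    rw [map_mul_equiv, map_mul_equiv, Matrix.transpose_map, mul_assoc, ← mul_assoc (y.map σ),
      ← mul_assoc (y.map σ), mul_eq_one_comm.1 h1, one_mul, mul_assoc, ← mul_assoc (A.map σ),
      mul_eq_one_comm.1 hA1, one_mul, mul_eq_one_comm.1 h5]
  have hB5 : (yᵀ * A * y).det = A.det := by simp [h3]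
  generalize yᵀ * A * y = B at hB1 hB2 hB3 hB4 hB5
  have E : ∀ s t : Fin 2, B (s, 1) (t, 0) = B (s, 0) (t, 1) ∧ B (s, 1) (t, 1) = B (s, 0) (t, 2) ∧
      B (s, 1) (t, 2) = w * B (s, 0) (t, 0) ∧ B (s, 2) (t, 0) = B (s, 1) (t, 1) ∧
      B (s, 2) (t, 1) = B (s, 1) (t, 2) ∧ B (s, 2) (t, 2) = w * B (s, 1) (t, 0) := fun s t => by
    have k : ∀ i j, (Zᵀ * B) (s, i) (t, j) = (B * Z) (s, i) (t, j) := fun i j => by rw [hB2]
    have k00 := k 0 0; have k01 := k 0 1; have k02 := k 0 2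
    have k10 := k 1 0; have k11 := k 1 1; have k12 := k 1 2
    simp [hZ, Matrix.mul_apply, Fintype.sum_prod_type, Fin.sum_univ_three, Matrix.one_apply] at k00 k01 k02 k10 k11 k12
    exact ⟨k00, k01, by rw [k02, mul_comm], k10, k11, by rw [k12, mul_comm]⟩
  have S : ∀ p q, B p q = B q p := fun p q => congrFun (congrFun hB1 q) p
  obtain ⟨a, ha⟩ : ∃ a, B (0, 0) (1, 0) = a := ⟨_, rfl⟩
  obtain ⟨b, hb⟩ : ∃ a, B (0, 0) (1, 1) = a := ⟨_, rfl⟩
  obtain ⟨c, hc⟩ : ∃ a, B (0, 0) (1, 2) = a := ⟨_, rfl⟩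
  have hB : B = !![0, 1; 1, 0] ⊗ₖ !![a, b, c; b, c, w * a; c, w * a, w * b] := by
    have Z0 : ∀ s, B (s, 0) (s, 1) = 0 := fun s =>
      (mul_eq_zero.1 (by rw [← (E s s).1, ← (E s s).2.2.2.2.2, hB3])).resolve_left hw0
    have D : ∀ s i j, B (s, i) (s, j) = 0 := fun s i j => by
      have := E s s; have := Z0 s; have := hB3 (s, 0); have := hB3 (s, 1); have := hB3 (s, 2)
      fin_cases i <;> fin_cases j <;> simp <;> grind
    have O : ∀ i j, B (0, i) (1, j) = !![a, b, c; b, c, w * a; c, w * a, w * b] i j := fun i j => by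
      have := E 0 1
      fin_cases i <;> fin_cases j <;> simp <;> grind
    ext ⟨s, i⟩ ⟨t, j⟩
    fin_cases s <;> fin_cases t
    · simpa using D 0 i j
    · simpa using O i j
    · refine (S _ _).trans ((O j i).trans ?_)
      fin_cases i <;> fin_cases j <;> simp
    · simpa using D 1 i j
  obtain ⟨φ, hφ⟩ := model4 h4 hG.invol hne
  obtain ⟨w, rfl⟩ := φ.surjective w
  obtain ⟨a, rfl⟩ := φ.surjective a
  obtain ⟨b, rfl⟩ := φ.surjective b
  obtain ⟨c, rfl⟩ := φ.surjective c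
  have e1 := congrFun (congrFun hB4 (0, 0)) (0, 0)
  have e2 := congrFun (congrFun hB4 (0, 0)) (0, 1)
  simp [hB, Matrix.mul_apply, Fintype.sum_prod_type, Fin.sum_univ_three] at e1 e2
  rw [hB, hA, Matrix.det_kronecker, Matrix.det_kronecker] at hB5
  obtain ⟨rfl, rfl⟩ := cubic_check w a b c (fun h => hw1 (by rw [h, map_one]))
    (φ.injective (by simpa using hw3)) (φ.injective (by simpa [hφ] using e1))
    (φ.injective (by simpa [hφ] using e2)) (φ.injective (by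
      have := mul_left_cancel₀ (by simp [Matrix.det_fin_two]) hB5
      simpa [Matrix.det_fin_three] using this))
  have ha0 : φ a ≠ 0 := by rintro h; simp [h] at e1
  refine ⟨Units.mk0 _ ha0, ?_⟩
  rw [hB, hA, ← Matrix.kronecker_smul]
  congr 1
  ext i j
  fin_cases i <;> fin_cases j <;> simp [mul_comm]

end Cfsg.Agent.H5.SU
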