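import Cfsg.Agent.H5.SUProper
import Cfsg.Agent.H8.OTensor
import Cfsg.Agent.H9.SmallPerfect

/-!
Orthonormal bases of non-degenerate subspaces; two-dimensional pieces over the field with four
elements.
-/

set_option autoImplicit false
set_option linter.unusedSectionVars false

namespace Cfsg.Agent.H5.SU

open Module Cfsg.Geo Cfsg.Agent.H7 Cfsg.Agent.Asch
open scoped MatrixGroups Matrix Kronecker

variable {ι : Type} [Fintype ι] [DecidableEq ι] {F : Type*} [Field F] {σ : F ≃+* F} {G : Matrix ι ι F}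

theorem gf_sum_left {α : Type*} (s : Finset α) (x : α → ι → F) (v : ι → F) :
    gf σ G (∑ a ∈ s, x a) v = ∑ a ∈ s, gf σ G (x a) v := (sesq_gf σ G).sum_left s x v

theorem gf_sum_right {α : Type*} (s : Finset α) (x : α → ι → F) (v : ι → F) :
    gf σ G v (∑ a ∈ s, x a) = ∑ a ∈ s, gf σ G v (x a) := (sesq_gf σ G).sum_right s x v

/-- an orthonormal family -/
def ON (σ : F ≃+* F) (G : Matrix ι ι F) {κ : Type*} [DecidableEq κ] (b : κ → ι → F) : Prop :=
  ∀ i j, gf σ G (b i) (b j) = if i = j then 1 else 0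

section
variable {κ : Type*} [DecidableEq κ] {b : κ → ι → F}

theorem ON.self (h : ON σ G b) (i : κ) : gf σ G (b i) (b i) = 1 := by rw [h, if_pos rfl]

theorem ON.ne (h : ON σ G b) {i j : κ} (hij : i ≠ j) : gf σ G (b i) (b j) = 0 := by rw [h, if_neg hij]

theorem ON.indep (h : ON σ G b) : LinearIndependent F b :=
  linearIndependent_of_orth (σ := σ) (G := G) (fun i => by rw [h.self]; exact one_ne_zero) fun _ _ => h.ne

theorem ON.ne_zero (h : ON σ G b) (i : κ) : b i ≠ 0 := h.indep.ne_zero i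

theorem ON.sum_left [Fintype κ] (h : ON σ G b) (x : κ → F) (j : κ) :
    gf σ G (∑ i, x i • b i) (b j) = x j := by
  simp [gf_sum_left, gf_smul_left, h _ j]

theorem ON.sum_sum [Fintype κ] (h : ON σ G b) (x y : κ → F) :
    gf σ G (∑ i, x i • b i) (∑ i, y i • b i) = ∑ i, x i * σ (y i) := by
  simp only [gf_sum_right, gf_smul_right, h.sum_left, mul_comm]

theorem ON.exists_sum [Fintype κ] (h : ON σ G b) {W : Submodule F (ι → F)} (hb : ∀ i, b i ∈ W)
    (hd : finrank F W = Fintype.card κ) {v : ι → F} (hv : v ∈ W) : ∃ x : κ → F, v = ∑ i, x i • b i := by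
  have : Submodule.span F (Set.range b) = W :=
    Submodule.eq_of_le_of_finrank_eq (Submodule.span_le.2 (Set.range_subset_iff.2 hb))
      (by rw [finrank_span_eq_card h.indep, hd])
  obtain ⟨c, hc⟩ := (Submodule.mem_span_range_iff_exists_fun F).1 (this ▸ hv)
  exact ⟨c, hc.symm⟩

end

theorem nondeg_span (hG : Herm σ 1 G) {v : ι → F} (hv : gf σ G v v ≠ 0) :
    IsNondegenerateOn (gf σ G) (F ∙ v) := fun w hw hw0 => by
  obtain ⟨c, rfl⟩ := Submodule.mem_span_singleton.1 hw
  have hc : c ≠ 0 := by rintro rfl; simp at hw0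
  have := hG.invol
  exact ⟨⟨v, Submodule.mem_span_singleton_self _, by simp [gf_smul_right, hc, hv]⟩,
    ⟨v, Submodule.mem_span_singleton_self _, by simp [gf_smul_left, hc, hv]⟩⟩

theorem orth_span {v w : ι → F} (h : gf σ G v w = 0) : AreOrthogonalFor (gf σ G) (F ∙ v) (F ∙ w) :=
  fun x hx y hy => by
    obtain ⟨c, rfl⟩ := Submodule.mem_span_singleton.1 hx
    obtain ⟨d, rfl⟩ := Submodule.mem_span_singleton.1 hy
    simp [gf_smul_left, gf_smul_right, h]

theorem isNondeg_of {κ : Type*} {D : κ → Submodule F (ι → F)}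
    (h : ∀ i, IsNondegenerateOn (gf σ G) (D i))
    (ho : ∀ i j, i ≠ j → AreOrthogonalFor (gf σ G) (D i) (D j)) {k N : ℕ}
    (hd : ∀ i, finrank F (D i) = k) (hk : 0 < k) (e : Fin N ≃ κ) (hN : 2 ≤ N)
    (hn : N * k = Fintype.card ι) : IsNondegenerateMDecomposition (gf σ G) k (D ∘ e) where
  decomp := H8.isMDecomposition_of_indep (fun i => by
    rw [Submodule.disjoint_def]
    intro x hx hx'
    by_contra h0
    obtain ⟨y, hy, hy'⟩ := (h i x hx h0).2
    have : (⨆ j, ⨆ (_ : j ≠ i), D j) ≤ LinearMap.ker (fl σ G y) :=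
      iSup₂_le fun j hj z hz => ho j i hj z hz y hy
    exact hy' (this hx')) hd hk e hN hn
  nondegenerate _ := h _
  orthogonal _ _ hij := ho _ _ (e.injective.ne hij)

theorem ON.frame {κ : Type*} [DecidableEq κ] {b : κ → ι → F} (hG : Herm σ 1 G) (h : ON σ G b)
    {N : ℕ} (e : Fin N ≃ κ) (hN : 2 ≤ N) (hn : N = Fintype.card ι) :
    IsNondegenerateMDecomposition (gf σ G) 1 ((fun a => F ∙ b a) ∘ e) :=
  isNondeg_of (fun a => nondeg_span hG (by rw [h.self]; exact one_ne_zero))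
    (fun _ _ hij => orth_span (h.ne hij)) (fun a => finrank_span_singleton (h.ne_zero a)) one_pos e hN
    (by rw [mul_one, hn])

variable [Fintype F]

theorem exists_on_basis (hG : Herm σ 1 G) (hne : σ ≠ RingEquiv.refl F) (m : ℕ) :
    ∀ W : Submodule F (ι → F), IsNondegenerateOn (gf σ G) W → finrank F W = m →
      ∃ b : Fin m → ι → F, (∀ i, b i ∈ W) ∧ ON σ G b := by
  induction m with
  | zero => exact fun W _ _ => ⟨Fin.elim0, fun i => i.elim0, fun i => i.elim0⟩
  | succ m ih =>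
    intro W hW hd
    obtain ⟨x, hx, hx1⟩ := exists_norm_mem hG hne hW (Submodule.one_le_finrank_iff.1 (by omega))
      (s := 1) (map_one σ)
    have h1 := finrank_inf_ker_ge W (fl σ G x)
    have h2 : finrank F ↥(W ⊓ LinearMap.ker (fl σ G x)) < finrank F W :=
      Submodule.finrank_lt_finrank_of_lt (lt_of_le_of_ne inf_le_left fun h => by
        have : x ∈ W ⊓ LinearMap.ker (fl σ G x) := h.symm ▸ hx
        exact one_ne_zero (hx1.symm.trans this.2))
    obtain ⟨b, hb, hb'⟩ := ih (W ⊓ LinearMap.ker (fl σ G x)) (fun w hw hw0 => by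
      obtain ⟨y, hy, hy'⟩ := (hW w hw.1 hw0).1
      have h3 : gf σ G w x = 0 := hw.2
      have h4 : gf σ G (y - gf σ G y x • x) w ≠ 0 := by
        rwa [gf_sub_left, gf_smul_left, hG.gf_eq_zero_comm h3, mul_zero, sub_zero]
      have h5 : y - gf σ G y x • x ∈ W ⊓ LinearMap.ker (fl σ G x) :=
        ⟨W.sub_mem hy (W.smul_mem _ hx), by
          rw [SetLike.mem_coe, LinearMap.mem_ker, fl_apply, gf_sub_left, gf_smul_left, hx1, mul_one,
            sub_self]⟩
      exact ⟨⟨_, h5, h4⟩, ⟨_, h5, fun h => h4 (hG.gf_eq_zero_comm h)⟩⟩) (by omega)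
    have h3 : ∀ i, gf σ G (b i) x = 0 := fun i => (hb i).2
    refine ⟨Fin.cons x b, fun i => ?_, fun i j => ?_⟩
    · induction i using Fin.cases with
      | zero => exact hx
      | succ i => exact (hb i).1
    · induction i using Fin.cases with
      | zero =>
        induction j using Fin.cases with
        | zero => simpa using hx1
        | succ j => simpa [(Fin.succ_ne_zero j).symm] using hG.gf_eq_zero_comm (h3 j)
      | succ i =>
        induction j using Fin.cases with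
        | zero => simpa using h3 i
        | succ j => simpa using hb' i j

/-- an orthonormal basis adapted to an orthogonal decomposition -/
theorem exists_on_decomp (hG : Herm σ 1 G) (hne : σ ≠ RingEquiv.refl F) {t m : ℕ}
    {D : Fin t → Submodule F (ι → F)} (hD : IsNondegenerateMDecomposition (gf σ G) m D) :
    ∃ b : Fin t × Fin m → ι → F, (∀ i a, b (i, a) ∈ D i) ∧ ON σ G b := by
  choose b hb hb' using fun i => exists_on_basis hG hne m (D i) (hD.nondegenerate i)
    (hD.decomp.finrank_eq i)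
  refine ⟨fun p => b p.1 p.2, hb, ?_⟩
  rintro ⟨i, a⟩ ⟨j, a'⟩
  by_cases hij : i = j
  · subst hij
    simpa using hb' i a a'
  · simpa [hij] using hD.orthogonal i j hij _ (hb i a) _ (hb j a')

theorem mul_conj_of_four (h4 : Fintype.card F = 4) (hne : σ ≠ RingEquiv.refl F) {x : F}
    (hx : x ≠ 0) : x * σ x = 1 := by
  have := FiniteField.pow_card_sub_one_eq_one x hx
  rw [h4] at this
  rw [H9.ringEquiv_eq_sq h4 hne, ← this]; ring

theorem two_eq_zero_of_four (h4 : Fintype.card F = 4) : (2 : F) = 0 :=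
  H7.two_eq_zero_of_not_odd_card (by rw [h4]; decide)

theorem mem_span_of_four (h4 : Fintype.card F = 4) (hne : σ ≠ RingEquiv.refl F)
    {b : Fin 2 → ι → F} (hb : ON σ G b) {x : Fin 2 → F}
    (hx : gf σ G (∑ i, x i • b i) (∑ i, x i • b i) ≠ 0) : ∃ a, ∑ i, x i • b i ∈ F ∙ b a := by
  rw [hb.sum_sum, Fin.sum_univ_two] at hx
  rw [Fin.sum_univ_two]
  by_cases h0 : x 0 = 0
  · exact ⟨1, by rw [h0, zero_smul, zero_add]; exact Submodule.smul_mem _ _ (Submodule.mem_span_singleton_self _)⟩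
  by_cases h1 : x 1 = 0
  · exact ⟨0, by rw [h1, zero_smul, add_zero]; exact Submodule.smul_mem _ _ (Submodule.mem_span_singleton_self _)⟩
  rw [mul_conj_of_four h4 hne h0, mul_conj_of_four h4 hne h1, one_add_one_eq_two] at hx
  exact absurd (two_eq_zero_of_four h4) hx

omit [Fintype F] in
theorem gf_ne_zero_of_sim {g : GL ι F} (hg : g ∈ similarityGroup (gf σ G)) {u v : ι → F}
    (h : gf σ G u v ≠ 0) : gf σ G ((g : Matrix ι ι F) *ᵥ u) ((g : Matrix ι ι F) *ᵥ v) ≠ 0 := by
  obtain ⟨c, hc⟩ := hg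
  rw [hc]
  exact mul_ne_zero c.ne_zero h

/-- non-degenerate planes over the field with four elements -/
theorem frame_of_planes (h4 : Fintype.card F = 4) (hG : Herm σ 1 G) (hne : σ ≠ RingEquiv.refl F)
    {t : ℕ} {D : Fin t → Submodule F (ι → F)} (hD : IsNondegenerateMDecomposition (gf σ G) 2 D)
    {H : Subgroup (GL ι F)} (hs : H ≤ similarityGroup (gf σ G)) (hle : H ≤ decompositionStabilizer D)
    {N : ℕ} (hN : N = Fintype.card ι) :
    ∃ D' : Fin N → Submodule F (ι → F), IsNondegenerateMDecomposition (gf σ G) 1 D' ∧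
      H ≤ decompositionStabilizer D' := by
  obtain ⟨b, hb, hb'⟩ := exists_on_decomp hG hne hD
  have hm := H8.IsMDecomposition.mul_eq hD.decomp
  have ht := hD.decomp.two_le
  let e : Fin N ≃ Fin t × Fin 2 := Fintype.equivOfCardEq (by simp [hN, hm])
  have hD' := hb'.frame hG e (by omega) hN
  refine ⟨_, hD', fun g hg => H8.mem_decompositionStabilizer_comp hD'.decomp ?_⟩
  rintro ⟨i, a⟩
  obtain ⟨π, hπ⟩ := mulVec_mem_decomp (hle hg)
  have hb2 : ON σ G fun a => b (π i, a) := fun a a' => by simpa using hb' (π i, a) (π i, a')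
  obtain ⟨x, hx⟩ := hb2.exists_sum (hb (π i)) (by simpa using hD.decomp.finrank_eq _) (hπ i _ (hb i a))
  obtain ⟨a', ha'⟩ := mem_span_of_four h4 hne hb2 (x := x) (by
    rw [← hx]
    exact gf_ne_zero_of_sim (hs hg) (by rw [hb'.self]; exact one_ne_zero))
  exact ⟨(π i, a'), H8.mulVec_mem_span (hx ▸ ha')⟩

omit [Fintype F] in
theorem gf_pv {κ β : Type} [Fintype κ] [DecidableEq κ] [Fintype β] [DecidableEq β]
    (G₁ : Matrix κ κ F) (G₂ : Matrix β β F) (x x' : κ → F) (y y' : β → F) :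
    gf σ (G₁ ⊗ₖ G₂) (H8.pv x y) (H8.pv x' y') = gf σ G₁ x x' * gf σ G₂ y y' := by
  have : σ ∘ H8.pv x' y' = H8.pv (σ ∘ x') (σ ∘ y') := by ext; simp [H8.pv]
  rw [gf, this, H8.kronecker_mulVec_pv, gf, gf]
  simp only [dotProduct, Fintype.sum_prod_type, H8.pv, Finset.sum_mul_sum]
  exact Finset.sum_congr rfl fun _ _ => Finset.sum_congr rfl fun _ _ => by ring

/-- tensor products with a two-dimensional factor over the field with four elements -/
theorem pair_of_tensor (h4 : Fintype.card F = 4) (hne : σ ≠ RingEquiv.refl F) {b : ℕ}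
    {H : Subgroup (GL ι F)} {e : ι ≃ Fin 2 × Fin b} {P : GL ι F} {G₁ : Matrix (Fin 2) (Fin 2) F}
    {G₂ : Matrix (Fin b) (Fin b) F} (h : TData σ 1 G H e P 1 1 G₁ G₂)
    (hs : H ≤ similarityGroup (gf σ G)) :
    ∃ D : Fin 2 → Submodule F (ι → F), IsNondegenerateMDecomposition (gf σ G) b D ∧
      H ≤ decompositionStabilizer D := by
  obtain ⟨c, hc, hc'⟩ := exists_orthonormal h.h₁ hne
  have hc : ON σ G₁ c := hc
  have key : ∀ x x' y y', gf σ G (trv e P (H8.pv x y)) (trv e P (H8.pv x' y')) =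
      gf σ G₁ x x' * gf σ G₂ y y' := fun x x' y y' => by rw [gf_trv, h.gram, gf_pv]
  have hD := isNondeg_of (σ := σ) (G := G) (D := fun a => H8.slice e P (c a)) (fun a => by
      rintro _ ⟨y, rfl⟩ h0
      have hy : y ≠ 0 := by rintro rfl; exact h0 (map_zero _)
      obtain ⟨⟨u, hu⟩, ⟨v, hv⟩⟩ := h.h₂.nondeg y hy
      exact ⟨⟨_, ⟨u, rfl⟩, (key _ _ _ _).trans_ne (by rwa [hc.self, one_mul])⟩,
        ⟨_, ⟨v, rfl⟩, (key _ _ _ _).trans_ne (by rwa [hc.self, one_mul])⟩⟩)
    (fun a a' haa => by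
      rintro _ ⟨y, rfl⟩ _ ⟨y', rfl⟩
      exact (key _ _ _ _).trans (by rw [hc.ne haa, zero_mul]))
    (fun a => H8.finrank_slice (hc.ne_zero a)) (by have := h.hb; omega) (Equiv.refl (Fin 2)) le_rfl
    h.card_eq.symm
  refine ⟨_, hD, fun g hg => H8.mem_decompositionStabilizer_comp hD.decomp fun a => ?_⟩
  obtain ⟨x, y, -, rfl⟩ := h.exists_eq hg
  have hx : x ∈ similarityGroup (gf σ G₁) :=
    h.swap.prj_sim hs (mem_prj.2 ⟨y, by rw [trGL_kronGL_swap]; exact hg⟩)
  obtain ⟨z, hz⟩ := hc' ((x : Matrix (Fin 2) (Fin 2) F) *ᵥ c a)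
  obtain ⟨a', ha'⟩ := mem_span_of_four h4 hne hc (x := z) (by
    rw [← hz]
    exact gf_ne_zero_of_sim hx (by rw [hc.self]; exact one_ne_zero))
  exact ⟨a', fun v hv => H8.mulVec_mem_slice (hz ▸ ha') hv⟩

end Cfsg.Agent.H5.SU
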