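import Cfsg.Agent.H5.SUFive

/-!
Exceptional geometric subgroups of `SU₃(3)` and `SU₃(5)`: frames and orthogonal groups.
-/

set_option autoImplicit false
set_option linter.unusedSectionVars false
set_option maxRecDepth 100000

namespace Cfsg.Agent.H5.SU

open Module Cfsg.Geo Cfsg.Agent.H7 Cfsg.Agent.Asch
open scoped MatrixGroups Matrix Kronecker

variable {ι : Type} [Fintype ι] [DecidableEq ι] {F : Type*} [Field F] {σ : F ≃+* F} {G : Matrix ι ι F}

theorem mv3 (x : Matrix (Fin 3) (Fin 3) F) (v : Fin 3 → F) (i : Fin 3) :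
    (x *ᵥ v) i = x i 0 * v 0 + x i 1 * v 1 + x i 2 * v 2 := by
  simp [Matrix.mulVec, dotProduct, Fin.sum_univ_three]

/-- membership in the special unitary group of degree three in a decidable form -/
def SU3 (σ : F ≃+* F) (Γ x : Matrix (Fin 3) (Fin 3) F) : Prop :=
  xᵀ * Γ * x.map σ = Γ ∧ x 0 0 * x 1 1 * x 2 2 - x 0 0 * x 1 2 * x 2 1 - x 0 1 * x 1 0 * x 2 2 +
    x 0 1 * x 1 2 * x 2 0 + x 0 2 * x 1 0 * x 2 1 - x 0 2 * x 1 1 * x 2 0 = 1

instance [DecidableEq F] (Γ x : Matrix (Fin 3) (Fin 3) F) : Decidable (SU3 σ Γ x) := instDecidableAnd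

theorem SU3.exists {Γ x : Matrix (Fin 3) (Fin 3) F} (h : SU3 σ Γ x) :
    ∃ g ∈ SUG σ Γ, (g : Matrix (Fin 3) (Fin 3) F) = x :=
  exists_mem_SUG h.1 (by rw [Matrix.det_fin_three, h.2])

theorem no_max3 [Finite F] {Γ : Matrix (Fin 3) (Fin 3) F} {H : Subgroup (GL (Fin 3) F)}
    (hH : IsMaximalIn (SUG σ Γ) H) (S : F → F → F → Prop)
    (h1 : ∀ g ∈ H, ∀ v : Fin 3 → F, S (v 0) (v 1) (v 2) → S (((g : Matrix (Fin 3) (Fin 3) F) *ᵥ v) 0)
      (((g : Matrix (Fin 3) (Fin 3) F) *ᵥ v) 1) (((g : Matrix (Fin 3) (Fin 3) F) *ᵥ v) 2))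
    (x y : Matrix (Fin 3) (Fin 3) F) (h2 : SU3 σ Γ x)
    (h3 : ∀ g ∈ H, (g : Matrix (Fin 3) (Fin 3) F) ≠ x)
    (h4 : ∀ a b c, S a b c → S (x 0 0 * a + x 0 1 * b + x 0 2 * c) (x 1 0 * a + x 1 1 * b + x 1 2 * c)
      (x 2 0 * a + x 2 1 * b + x 2 2 * c)) (h5 : SU3 σ Γ y) (a b c : F) (h6 : S a b c) :
    S (y 0 0 * a + y 0 1 * b + y 0 2 * c) (y 1 0 * a + y 1 1 * b + y 1 2 * c)
      (y 2 0 * a + y 2 1 * b + y 2 2 * c) := by
  obtain ⟨g₀, k1, rfl⟩ := h2.exists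
  obtain ⟨g₁, l1, rfl⟩ := h5.exists
  have := no_max hH (fun v => S (v 0) (v 1) (v 2)) h1 k1 (fun h => h3 _ h rfl)
    (fun v hv => by simpa only [mv3] using h4 _ _ _ hv) l1 (v := ![a, b, c]) h6
  simp only [mv3] at this
  exact this

/-- the invariant set for frames -/
def SFr (a b c : K25) : Prop := a * c25 a + b * c25 b + c * c25 c = 1 ∧
  (a * c25 a) ^ 2 + (b * c25 b) ^ 2 + (c * c25 c) ^ 2 ≠ 0 ∧
    ((a * b * c) ^ 2 = 0 ∨ (a * b * c) ^ 2 = .of 2 ∨ (a * b * c) ^ 2 = .of 4)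

instance (a b c : K25) : Decidable (SFr a b c) := instDecidableAnd

theorem Mon.sum_norm {t : ℕ} {g : Matrix (Fin t) (Fin t) F} {π : Equiv.Perm (Fin t)} {d : Fin t → F}
    (h : Mon g π d) (hg : gᵀ * 1 * g.map σ = 1) (v : Fin t → F) (k : ℕ) :
    ∑ i, ((g *ᵥ v) i * σ ((g *ᵥ v) i)) ^ k = ∑ i, (v i * σ (v i)) ^ k := by
  rw [← Equiv.sum_comp π]
  refine Finset.sum_congr rfl fun i _ => ?_
  rw [show (g *ᵥ v) (π i) = d i * v i from h v i, map_mul, mul_mul_mul_comm, h.norm hg, one_mul]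

/-- the monomial subgroup of `SU₃(5)` is not maximal -/
theorem frames_three_five [Fintype F] (h25 : Fintype.card F = 5 ^ 2) (hG : Herm σ 1 G)
    (hne : σ ≠ RingEquiv.refl F) {D : Fin 3 → Submodule F (ι → F)}
    (hD : IsNondegenerateMDecomposition (gf σ G) 1 D) {H : Subgroup (GL ι F)}
    (hH : IsMaximalIn (SUG σ G) H) (hle : H ≤ decompositionStabilizer D) : False := by
  obtain ⟨φ, hφ⟩ := model25 h25 hG.invol hne
  obtain ⟨H', h1, h2⟩ := mono_model hφ hG hne hD hH hle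
  refine absurd (no_max3 h1 SFr (fun g hg v hv => ?_)
    !![.of 3, .of 4, .of 4; .of 4, .of 3, .of 4; .of 4, .of 4, .of 3]
    !![.of 2, .of 3, .of 12; .of 3, .of 2, .of 12; .of 15, .of 15, 0] (by decide +kernel)
    (fun g hg h => ?_) (by decide +kernel) (by decide +kernel) 1 0 0 (by decide +kernel))
    (by decide +kernel)
  · obtain ⟨π, d, hd⟩ := h2 g hg
    obtain ⟨h3, h4⟩ := mem_SUG'.1 (h1.1.le hg)
    have e1 := hd.sum_norm h3 v 1
    have e2 := hd.sum_norm h3 v 2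
    have e3 := congrArg (· ^ 2) (hd.prod v)
    have e4 := congrArg (· ^ 2) hd.det
    simp only [h4, mul_pow, sign_sq, one_pow, one_mul] at e4
    simp only [mul_pow, ← e4, one_mul] at e3
    simp only [Fin.sum_univ_three, Fin.prod_univ_three, pow_one] at e1 e2 e3
    unfold SFr
    rwa [e1, e2, e3]
  · obtain ⟨π, d, hd⟩ := h2 g hg
    have := hd.sum_wt (Pi.single 0 1)
    rw [h] at this
    revert this
    decide +kernel

theorem SUG_smul {c : F} (hc : c ≠ 0) : SUG σ (c • G) = SUG σ G := by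
  ext g
  simp only [mem_SUG, gf_smul, mul_right_inj' hc]

theorem real_model [Fintype F] {K : Type*} [Field K] {τ : K ≃+* K} {φ : K ≃+* F}
    (h : ∀ x, φ (τ x) = σ (φ x)) (hG : Herm σ 1 G) (hne : σ ≠ RingEquiv.refl F) (h2 : (2 : F) ≠ 0)
    (hn : Fintype.card ι = 3) {F₀ : Subfield F} (hF : Fintype.card F = Nat.card F₀ ^ 2) {P : GL ι F}
    (hP : IsFormRationalStructure (gf σ G) F₀ 1 P) {H : Subgroup (GL ι F)}
    (hH : IsMaximalIn (SUG σ G) H) (hle : H ≤ subfieldSubgroup F₀ P) :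
    ∃ H' : Subgroup (GL ι K), IsMaximalIn (SUG τ 1) H' ∧
      ∀ g ∈ H', ∃ μ : K, μ ^ 3 = 1 ∧ (g : Matrix ι ι K).map τ = μ • (g : Matrix ι ι K) := by
  obtain rfl := eq_fixSub hG.invol hne hF
  have hm : ∀ y : Matrix ι ι (fixSub σ), (y.map (fixSub σ).subtype).map σ = y.map (fixSub σ).subtype :=
    fun y => by ext i j; exact (y i j).2
  have h3 := hG.pbG (Equiv.refl ι) P
  obtain ⟨Γ, hΓ⟩ : ∃ Γ : Matrix ι ι (fixSub σ), Γ.map (fixSub σ).subtype = pbG σ (Equiv.refl ι) P G :=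
    ⟨Matrix.of fun i j => ⟨pbG σ (Equiv.refl ι) P G i j, by
      have := hP (Pi.single i 1) (Pi.single j 1)
        (fun k => by rw [Pi.single_apply]; split_ifs <;> simp)
        (fun k => by rw [Pi.single_apply]; split_ifs <;> simp)
      rw [one_mul] at this
      rw [pbG_apply]
      exact this⟩, rfl⟩
  have h4 := h3.star
  rw [← hΓ, hm, one_smul, ← Matrix.transpose_map] at h4
  obtain ⟨Q, c, hc, hQ⟩ := (herm_of_symm (G := Γ) (by
    rw [Matrix.isUnit_iff_isUnit_det, isUnit_iff_ne_zero]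
    intro h0
    have := h3.det_ne_zero
    rw [← hΓ, ← RingHom.mapMatrix_apply, ← RingHom.map_det, h0, map_zero] at this
    exact this rfl) (Matrix.map_injective Subtype.val_injective h4)).exists_pbG_smul_one
      (fun h0 => h2 (congrArg Subtype.val h0)) (by rw [hn]; decide) (Equiv.refl ι)
  have hc' : (c : F)⁻¹ ≠ 0 := inv_ne_zero fun h0 => hc (Subtype.ext h0)
  let Q' : GL ι F := Matrix.GeneralLinearGroup.map (fixSub σ).subtype Q
  have hQ' : ∀ R : GL ι (fixSub σ), ((Matrix.GeneralLinearGroup.map (fixSub σ).subtype R : GL ι F) :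
    Matrix ι ι F) = (R : Matrix ι ι (fixSub σ)).map (fixSub σ).subtype := fun _ => rfl
  rw [← SUG_smul hc'] at hH
  obtain ⟨H', h5, h6⟩ := max_model hH h (Equiv.refl ι) (fr (Equiv.refl ι) P Q') (Γ := 1) (by
    rw [pbG_refl, map_refl] at hQ
    rw [pbG_smul, pbG_fr, ← hΓ, hQ', hm, ← Matrix.transpose_map, ← Matrix.map_mul,
      ← Matrix.map_mul, hQ, map_one', Matrix.map_smul' _ _ _ (map_mul _), Matrix.map_one _ (map_zero _)
      (map_one _), smul_smul]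
    exact (congrArg (· • _) (inv_mul_cancel₀ fun h0 => hc (Subtype.ext h0))).trans (one_smul _ _))
  refine ⟨H', h5, fun g hg => ?_⟩
  obtain ⟨d, y, hd, hy⟩ := (mem_subfieldSubgroup_iff _ P _).1 (hle (h6 g hg))
  rw [trGL_fr, coe_trGL, tr_refl, cj_inv_cj, ← cj_coe] at hy
  have h7 : ((glMap φ g : GL ι F) : Matrix ι ι F) =
      d • ((Q⁻¹ * y * Q : GL ι (fixSub σ)) : Matrix ι ι (fixSub σ)).map (fixSub σ).subtype := by
    rw [← cj_inv_cj Q' (glMap φ g : GL ι F), hy, map_smul, ← hQ', ← hQ', cj_coe, inv_inv, map_mul, map_mul,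
      map_inv]
  have h8 : ((glMap φ g : GL ι F) : Matrix ι ι F).map σ = (σ d / d) • ((glMap φ g : GL ι F) : Matrix ι ι F) := by
    rw [h7, map_smul_equiv, hm, smul_smul, div_mul_cancel₀ _ hd]
  have h9 : (g : Matrix ι ι K).map τ = φ.symm (σ d / d) • (g : Matrix ι ι K) := by
    ext i j
    exact φ.injective (by simpa [h, coe_glMap] using congrFun (congrFun h8 i) j)
  refine ⟨_, ?_, h9⟩
  have := congrArg Matrix.det h9
  rw [Matrix.det_smul, hn, (mem_SUG.1 (h5.1.le hg)).2, mul_one] at this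
  rw [← this]
  exact ((τ : K →+* K).map_det _).symm.trans (by rw [(mem_SUG.1 (h5.1.le hg)).2, map_one])

theorem real_inv (hσ : ∀ a, σ (σ a) = a) {g : GL (Fin 3) F} (hg : g ∈ SUG σ 1) {μ : F} (h3 : μ ^ 3 = 1)
    (h : (g : Matrix (Fin 3) (Fin 3) F).map σ = μ • (g : Matrix (Fin 3) (Fin 3) F)) (v w : Fin 3 → F)
    (hw : w = (g : Matrix (Fin 3) (Fin 3) F) *ᵥ v) :
    w 0 * σ (w 0) + w 1 * σ (w 1) + w 2 * σ (w 2) = v 0 * σ (v 0) + v 1 * σ (v 1) + v 2 * σ (v 2) ∧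
    (w 0 * w 0 + w 1 * w 1 + w 2 * w 2) ^ 3 = (v 0 * v 0 + v 1 * v 1 + v 2 * v 2) ^ 3 ∧
    ∀ c, σ (v 0) = c * v 0 ∧ σ (v 1) = c * v 1 ∧ σ (v 2) = c * v 2 →
      σ (w 0) = μ * c * w 0 ∧ σ (w 1) = μ * c * w 1 ∧ σ (w 2) = μ * c * w 2 := by
  have h1 : σ ∘ w = μ • ((g : Matrix (Fin 3) (Fin 3) F) *ᵥ (σ ∘ v)) := by
    rw [hw, comp_mulVec, h, Matrix.smul_mulVec]
  have h2 := (mem_SUG.1 hg).1
  refine ⟨by simpa only [← hw, gf_one, Fin.sum_univ_three] using h2 v v, ?_, fun c hc => ?_⟩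
  · have : gf σ 1 w (σ ∘ w) = σ μ * gf σ 1 v (σ ∘ v) := by rw [h1, gf_smul_right, hw, h2]
    simp only [gf_one, Fin.sum_univ_three, Function.comp, hσ] at this
    rw [this, mul_pow, ← map_pow, h3, map_one, one_mul]
  · have : σ ∘ v = c • v := by
      ext i
      fin_cases i
      exacts [hc.1, hc.2.1, hc.2.2]
    rw [this, Matrix.mulVec_smul, smul_smul, ← hw] at h1
    exact ⟨congrFun h1 0, congrFun h1 1, congrFun h1 2⟩

/-- the invariant set for the orthogonal group over the field with three elements -/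
def SO3 (a b c : K9) : Prop := a * c9 a + b * c9 b + c * c9 c = 1 ∧
  ((a * a + b * b + c * c) ^ 3 = 1 ∨ (a * a + b * b + c * c) ^ 3 = .of 2)

instance (a b c : K9) : Decidable (SO3 a b c) := instDecidableAnd

/-- the invariant set for the orthogonal group over the field with five elements -/
def SO5 (a b c : K25) : Prop := a * c25 a + b * c25 b + c * c25 c = 1 ∧
  ((a * a + b * b + c * c) ^ 3 = 0 ∨ (a * a + b * b + c * c) ^ 3 = .of 2 ∨
    (a * a + b * b + c * c) ^ 3 = .of 4 ∨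
    ((a * a + b * b + c * c) ^ 3 = 1 ∧ ∃ d, c25 a = d * a ∧ c25 b = d * b ∧ c25 c = d * c))

instance (a b c : K25) : Decidable (SO5 a b c) := instDecidableAnd

theorem orth_three_three [Fintype F] (h9 : Fintype.card F = 3 ^ 2) {G : Matrix (Fin 3) (Fin 3) F}
    (hG : Herm σ 1 G) (hne : σ ≠ RingEquiv.refl F) {F₀ : Subfield F}
    (hF : Fintype.card F = Nat.card F₀ ^ 2) {P : GL (Fin 3) F}
    (hP : IsFormRationalStructure (gf σ G) F₀ 1 P) {H : Subgroup (GL (Fin 3) F)}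
    (hH : IsMaximalIn (SUG σ G) H) (hle : H ≤ subfieldSubgroup F₀ P) : False := by
  obtain ⟨φ, hφ⟩ := model9 h9 hG.invol hne
  obtain ⟨H', h1, h2⟩ := real_model hφ hG hne (odd_card_iff.1 (by rw [h9]; decide)) (Fintype.card_fin 3)
    hF hP hH hle
  refine absurd (no_max3 h1 SO3 (fun g hg v hv => ?_) !![.of 2, 0, 0; 0, 0, .of 7; 0, .of 5, 0]
    !![1, .of 2, .of 4; .of 2, 1, .of 4; .of 6, .of 6, 0] (by decide +kernel)
    (fun g hg h => ?_) (by decide +kernel) (by decide +kernel) 1 0 0 (by decide +kernel))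
    (by decide +kernel)
  · obtain ⟨μ, h3, h4⟩ := h2 g hg
    obtain ⟨e1, e2, -⟩ := real_inv (by decide +kernel) (h1.1.le hg) h3 h4 v _ rfl
    unfold SO3
    rwa [e1, e2]
  · obtain ⟨μ, -, h4⟩ := h2 g hg
    rw [h] at h4
    revert μ
    decide +kernel

theorem orth_three_five [Fintype F] (h25 : Fintype.card F = 5 ^ 2) {G : Matrix (Fin 3) (Fin 3) F}
    (hG : Herm σ 1 G) (hne : σ ≠ RingEquiv.refl F) {F₀ : Subfield F}
    (hF : Fintype.card F = Nat.card F₀ ^ 2) {P : GL (Fin 3) F}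
    (hP : IsFormRationalStructure (gf σ G) F₀ 1 P) {H : Subgroup (GL (Fin 3) F)}
    (hH : IsMaximalIn (SUG σ G) H) (hle : H ≤ subfieldSubgroup F₀ P) : False := by
  obtain ⟨φ, hφ⟩ := model25 h25 hG.invol hne
  obtain ⟨H', h1, h2⟩ := real_model hφ hG hne (odd_card_iff.1 (by rw [h25]; decide)) (Fintype.card_fin 3)
    hF hP hH hle
  refine absurd (no_max3 h1 SO5 (fun g hg v hv => ?_) !![.of 4, 0, 0; 0, 0, .of 16; 0, .of 13, 0]
    !![.of 2, .of 3, .of 12; .of 3, .of 2, .of 12; .of 15, .of 15, 0] (by decide +kernel)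
    (fun g hg h => ?_) (by decide +kernel) (by decide +kernel) 1 0 0 (by decide +kernel))
    (by decide +kernel)
  · obtain ⟨μ, h3, h4⟩ := h2 g hg
    obtain ⟨e1, e2, e3⟩ := real_inv (by decide +kernel) (h1.1.le hg) h3 h4 v _ rfl
    unfold SO5
    rw [e1, e2]
    exact ⟨hv.1, hv.2.imp_right (Or.imp_right (Or.imp_right fun ⟨k1, d, k2⟩ => ⟨k1, _, e3 d k2⟩))⟩
  · obtain ⟨μ, -, h4⟩ := h2 g hg
    rw [h] at h4
    revert μ
    decide +kernel

end Cfsg.Agent.H5.SU
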