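import Cfsg.Agent.H5.SUThree1

/-!
The normalisers of Singer cycles in `SU₃(3)` and `SU₃(5)` are not maximal.
-/

set_option autoImplicit false
set_option linter.unusedSectionVars false
set_option maxRecDepth 100000

namespace Cfsg.Agent.H5.SU

open Module Cfsg.Geo Cfsg.Agent.H7 Cfsg.Agent.Asch
open scoped MatrixGroups Matrix Kronecker

variable {ι : Type} [Fintype ι] [DecidableEq ι] {F : Type*} [Field F] {σ : F ≃+* F} {G : Matrix ι ι F}

theorem seven_roots {L : Type*} [Field L] {s x : L} (hs : s * s + s + 2 = 0) (hx : x ^ 7 = 1)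
    (h1 : x ≠ 1) : x ^ 3 = 1 + (1 + s) * x + s * x ^ 2 ∨
      x ^ 3 = 1 + (1 + (-1 - s)) * x + (-1 - s) * x ^ 2 := by
  have : (x - 1) * ((x ^ 3 - (1 + (1 + s) * x + s * x ^ 2)) *
    (x ^ 3 - (1 + (1 + (-1 - s)) * x + (-1 - s) * x ^ 2))) = 0 := by grind
  simpa only [mul_eq_zero, sub_eq_zero, h1, false_or] using this

/-- an element of order seven -/
def X3 (s : F) : Matrix (Fin 3) (Fin 3) F := !![0, 0, 1; 1, 0, 1 + s; 0, 1, s]

/-- the invariant form -/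
def G3 (s : F) : Matrix (Fin 3) (Fin 3) F := !![1, 0, -s; 0, 1, 0; 1 + s, 0, 1]

theorem singer_three [Fintype F] {q : ℕ} (hF : Fintype.card F = q ^ 2) (hq : q = 3 ∨ q = 5)
    {K : Type*} [Field K] {τ : K ≃+* K} (hτ : ∀ a, τ (τ a) = a) {φ : K ≃+* F}
    (hφ : ∀ x, φ (τ x) = σ (φ x)) {s : K} (hs : s * s + s + 2 = 0) (hs' : τ s = -1 - s)
    (hG : Herm σ 1 G) (hne : σ ≠ RingEquiv.refl F) (hn : Fintype.card ι = 3)
    {L : Subalgebra F (Matrix ι ι F)} (hL : IsFieldSubalgebra 3 L) (ha : IsAdjointClosedFor (gf σ G) L)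
    {H : Subgroup (GL ι F)} (hH : IsMaximalIn (SUG σ G) H) (hle : H ≤ subalgebraNormalizer L) :
    ∃ H' : Subgroup (GL (Fin 3) K), IsMaximalIn (SUG τ (G3 s)) H' ∧ ∀ g ∈ H', ∃ j,
      (j = 1 ∨ j = 2 ∨ j = 4) ∧ (g : Matrix (Fin 3) (Fin 3) K) * X3 s = X3 s ^ j * g := by
  haveI : Nonempty ι := Fintype.card_pos_iff.1 (by omega)
  obtain ⟨x, hxK, hx7, hxu, hxi, -, hxn, hxv⟩ := singer_data (m := 1) hF hG hne Nat.prime_three hL ha
    (l := 7) (by rcases hq with rfl | rfl <;> norm_num) (by rcases hq with rfl | rfl <;> norm_num)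
  have hx1 : x ^ 7 = 1 := by rw [← hx7, pow_orderOf_eq_one]
  obtain ⟨φ, hφ, hx3⟩ : ∃ φ : K ≃+* F, (∀ a, φ (τ a) = σ (φ a)) ∧
      x ^ 3 = 1 + (1 + φ s) • x + φ s • x ^ 2 := by
    letI : Field L := (isField_of_inv hL.comm hL.inv).toField
    have e1 : ∀ a : F, ∀ y : L, algebraMap F L a * y = a • y := fun a y => (Algebra.smul_def a y).symm
    rcases seven_roots (L := L) (s := algebraMap F L (φ s)) (x := ⟨x, hxK⟩)
      (by simpa [map_ofNat] using congrArg (fun a => algebraMap F L (φ a)) hs) (Subtype.ext hx1)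
      (fun h => by rw [show x = 1 from congrArg Subtype.val h, orderOf_one] at hx7; omega) with h | h
    · rw [← map_one (algebraMap F L), ← map_add, e1, e1, map_one] at h
      exact ⟨φ, hφ, congrArg Subtype.val h⟩
    · rw [← map_one (algebraMap F L), ← map_neg, ← map_sub, ← map_add, e1, e1, map_one] at h
      exact ⟨τ.trans φ, swap_model hτ hG.invol hφ, by simpa [hs'] using congrArg Subtype.val h⟩
  have hs1 : σ (φ s) = -1 - φ s := by rw [← hφ, hs']; simp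
  obtain ⟨u₀, hu₀⟩ := exists_unit hG hne
  obtain ⟨k, -, hk0, hk⟩ := hxv u₀ (by rw [hu₀]; exact one_ne_zero) 1 (map_one σ) 0
  generalize k *ᵥ u₀ = v at hk0 hk
  let e : ι ≃ Fin 3 := Fintype.equivFinOfCardEq hn
  obtain ⟨P, hP⟩ := singer_frame hL hxK hxi e (v := v) (by
    rintro rfl; exact zero_ne_one ((gf_zero_left _).symm.trans hk0))
  have hg := gf_pow_pow hG hxu v
  have t1 : gf σ G (x *ᵥ v) v = 0 := by simpa using hk 0
  have t2 : gf σ G (x ^ 2 *ᵥ v) v = 1 + φ s := by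
    have : gf σ G (x ^ 3 *ᵥ v) (x ^ 1 *ᵥ v) = gf σ G (x ^ 0 *ᵥ v) (x ^ 1 *ᵥ v) +
        (1 + φ s) * gf σ G (x ^ 1 *ᵥ v) (x ^ 1 *ᵥ v) + φ s * gf σ G (x ^ 2 *ᵥ v) (x ^ 1 *ᵥ v) := by
      rw [hx3]
      simp only [Matrix.add_mulVec, Matrix.smul_mulVec, gf_add_left, gf_smul_left, pow_zero, pow_one]
    simp only [hg] at this
    simpa [hk0, t1] using this
  have hΓ : pbG σ e P G = (G3 s).map φ := by
    ext i j
    rw [pbG_apply, hP, hP, hg]
    fin_cases i <;> fin_cases j <;> simp [G3, hk0, t1, t2, hs1]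
    ring
  have hx : x = tr e P ((X3 s).map φ) := eq_tr_of_cols hP fun i => by
    rw [Matrix.mulVec_mulVec, ← pow_succ']
    fin_cases i <;>
      simp [X3, Fin.sum_univ_three, hx3, Matrix.add_mulVec, Matrix.smul_mulVec]
  refine singer_model hφ hH e P hΓ (T := fun j => j = 1 ∨ j = 2 ∨ j = 4) fun g hg => ?_
  obtain ⟨j, h1, h2⟩ := hxn g (hle hg)
  rw [pow_eq_pow_mod _ hx1] at h2
  refine ⟨_, ?_, hx ▸ h2⟩
  rcases hq with rfl | rfl <;> interval_cases j <;> norm_num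

section
variable (σ) (s a b c : F)

/-- first invariant -/
def T0 : F := a * (σ a - s * σ c) + b * σ b + c * ((1 + s) * σ a + σ c)
/-- second invariant -/
def T1 : F := a * σ b + b * ((1 + s) * σ a + σ c) + c * ((1 + s) * σ b - σ a)
/-- third invariant -/
def T2 : F := a * ((1 + s) * σ a + σ c) + b * ((1 + s) * σ b - σ a) + c * ((1 + s) * σ c - σ a - σ b)
/-- fourth invariant -/
def T4 : F := a * ((1 + s) * σ c - σ a - σ b) - b * (s * σ a + σ b + σ c) - c * (s * σ b + σ c)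
/-- the determinant invariant -/
def DL : F := a * ((a + (1 + s) * c) * (a + (1 + s) * c + s * (b + s * c)) -
    (b + s * c) * (c + (1 + s) * (b + s * c))) -
  b * (c * (a + (1 + s) * c + s * (b + s * c)) - (b + s * c) * (b + s * c)) +
  c * (c * (c + (1 + s) * (b + s * c)) - (a + (1 + s) * c) * (b + s * c))

end

theorem X3_2 {s : F} (hs : s * s + s + 2 = 0) : X3 s ^ 2 = !![0, 1, s; 0, 1 + s, -1; 1, s, -1] := by
  ext i j
  fin_cases i <;> fin_cases j <;> simp [X3, sq, Matrix.mul_apply, Fin.sum_univ_three] <;> grind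

theorem X3_4 {s : F} (hs : s * s + s + 2 = 0) :
    X3 s ^ 4 = !![s, -1, -1 - s; -1, -1, -s; -1, -1 - s, 1] := by
  rw [show 4 = 2 + 2 from rfl, pow_add, X3_2 hs]
  ext i j
  fin_cases i <;> fin_cases j <;> simp [Matrix.mul_apply, Fin.sum_univ_three] <;> grind

theorem X3_7 {s : F} (hs : s * s + s + 2 = 0) : X3 s ^ 7 = 1 := by
  rw [show 7 = 4 + 2 + 1 from rfl, pow_succ, pow_add, X3_2 hs, X3_4 hs]
  ext i j
  fin_cases i <;> fin_cases j <;> simp [X3, Matrix.mul_apply, Fin.sum_univ_three] <;> grind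

theorem det_rows {g X Y : Matrix (Fin 3) (Fin 3) F} (h : X * g = g * Y) (v : Fin 3 → F) :
    (Matrix.of ![g *ᵥ v, X *ᵥ (g *ᵥ v), X ^ 2 *ᵥ (g *ᵥ v)]).det =
      g.det * (Matrix.of ![v, Y *ᵥ v, Y ^ 2 *ᵥ v]).det := by
  rw [Matrix.mulVec_mulVec, Matrix.mulVec_mulVec, ← mul_pow_of_conj h.symm, h, ← Matrix.mulVec_mulVec,
    ← Matrix.mulVec_mulVec, mul_comm, ← Matrix.det_transpose g, ← Matrix.det_mul]
  congr 1
  ext i j
  fin_cases i <;> simp [Matrix.mul_apply, mv3, Fin.sum_univ_three] <;> ring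

theorem singer_inv {s : F} (hs : s * s + s + 2 = 0) {g : GL (Fin 3) F}
    (hg : g ∈ SUG σ (G3 s)) {j : ℕ} (hj : j = 1 ∨ j = 2 ∨ j = 4)
    (h : (g : Matrix (Fin 3) (Fin 3) F) * X3 s = X3 s ^ j * g) (v w : Fin 3 → F)
    (hw : w = (g : Matrix (Fin 3) (Fin 3) F) *ᵥ v) :
    T0 σ s (w 0) (w 1) (w 2) = T0 σ s (v 0) (v 1) (v 2) ∧
    DL s (w 0) (w 1) (w 2) = DL s (v 0) (v 1) (v 2) ∧ ∀ A : F → Prop,
      A (T1 σ s (v 0) (v 1) (v 2)) ∧ A (T2 σ s (v 0) (v 1) (v 2)) ∧ A (T4 σ s (v 0) (v 1) (v 2)) →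
      A (T1 σ s (w 0) (w 1) (w 2)) ∧ A (T2 σ s (w 0) (w 1) (w 2)) ∧ A (T4 σ s (w 0) (w 1) (w 2)) := by
  have e0 : ∀ v : Fin 3 → F, T0 σ s (v 0) (v 1) (v 2) = gf σ (G3 s) v v := fun v => by
    simp [T0, G3, gf, dotProduct, mv3, Fin.sum_univ_three, sub_eq_add_neg]
  have e1 : ∀ v : Fin 3 → F, T1 σ s (v 0) (v 1) (v 2) = gf σ (G3 s) (X3 s ^ 1 *ᵥ v) v := fun v => by
    simp [T1, G3, X3, gf, dotProduct, mv3, Fin.sum_univ_three]; grind
  have e2 : ∀ v : Fin 3 → F, T2 σ s (v 0) (v 1) (v 2) = gf σ (G3 s) (X3 s ^ 2 *ᵥ v) v := fun v => by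
    simp [T2, G3, X3_2 hs, gf, dotProduct, mv3, Fin.sum_univ_three]; grind
  have e4 : ∀ v : Fin 3 → F, T4 σ s (v 0) (v 1) (v 2) = gf σ (G3 s) (X3 s ^ 4 *ᵥ v) v := fun v => by
    simp [T4, G3, X3_4 hs, gf, dotProduct, mv3, Fin.sum_univ_three]; grind
  have d : ∀ v : Fin 3 → F, ∀ j, j = 1 ∨ j = 2 ∨ j = 4 → DL s (v 0) (v 1) (v 2) =
      (Matrix.of ![v, X3 s ^ j *ᵥ v, (X3 s ^ j) ^ 2 *ᵥ v]).det := fun v j hj => by
    rcases hj with rfl | rfl | rfl
    · rw [pow_one, X3_2 hs]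
      simp [DL, X3, Matrix.det_fin_three, Matrix.vecHead, Matrix.vecTail]; grind
    · rw [← pow_mul, X3_2 hs, X3_4 hs]
      simp [DL, Matrix.det_fin_three, Matrix.vecHead, Matrix.vecTail]; grind
    · rw [← pow_mul, show 4 * 2 = 7 + 1 from rfl, pow_add, X3_7 hs, X3_4 hs]
      simp [DL, X3, Matrix.det_fin_three, Matrix.vecHead, Matrix.vecTail]; grind
  have k := fun l => tau_conj hg (X3_7 hs) h l v
  have k1 := k 1; have k2 := k 2; have k4 := k 4
  refine ⟨by rw [e0, e0, hw, (mem_SUG.1 hg).1], ?_, fun A hA => ?_⟩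
  · have h1 := mul_pow_of_conj h (j * j)
    rw [← pow_mul, pow_eq_pow_mod _ (X3_7 hs), pow_eq_pow_mod (j * (j * j)) (X3_7 hs),
      show j * (j * j) % 7 = 1 by rcases hj with rfl | rfl | rfl <;> rfl] at h1
    rw [d w 1 (Or.inl rfl), hw, det_rows h1.symm, (mem_SUG.1 hg).2, one_mul, ← d]
    rcases hj with rfl | rfl | rfl <;> decide
  · rw [e1, e2, e4] at hA ⊢
    rw [← hw] at k1 k2 k4
    rcases hj with rfl | rfl | rfl <;> norm_num only at k1 k2 k4 <;> rw [k1, k2, k4] <;> tauto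

/-- admissible values -/
abbrev A3 (t : K9) : Prop := t = 1 ∨ t = .of 6 ∨ t = .of 8

/-- admissible values -/
abbrev A5 (t : K25) : Prop := t = .of 2 ∨ t = .of 15 ∨ t = .of 18

/-- the invariant set over the field with nine elements -/
def SS3 (a b c : K9) : Prop := T0 c9 (.of 3) a b c = 1 ∧
  A3 (T1 c9 (.of 3) a b c) ∧ A3 (T2 c9 (.of 3) a b c) ∧ A3 (T4 c9 (.of 3) a b c)

instance (a b c : K9) : Decidable (SS3 a b c) := by unfold SS3; infer_instance

/-- the invariant set over the field with twenty-five elements -/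
def SS5 (a b c : K25) : Prop := T0 c25 (.of 5) a b c = 1 ∧
  (A5 (T1 c25 (.of 5) a b c) ∧ A5 (T2 c25 (.of 5) a b c) ∧ A5 (T4 c25 (.of 5) a b c)) ∧
    DL (.of 5) a b c ^ 2 = .of 7

instance (a b c : K25) : Decidable (SS5 a b c) := by unfold SS5; infer_instance

theorem singer_three_three [Fintype F] (hF : Fintype.card F = 3 ^ 2) (hG : Herm σ 1 G)
    (hne : σ ≠ RingEquiv.refl F) (hn : Fintype.card ι = 3) {L : Subalgebra F (Matrix ι ι F)}
    (hL : IsFieldSubalgebra 3 L) (ha : IsAdjointClosedFor (gf σ G) L) {H : Subgroup (GL ι F)}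
    (hH : IsMaximalIn (SUG σ G) H) (hle : H ≤ subalgebraNormalizer L) : False := by
  obtain ⟨φ, hφ⟩ := model9 hF hG.invol hne
  have hs : (GF.of 3 * .of 3 + .of 3 + 2 : K9) = 0 := by decide +kernel
  obtain ⟨H', h1, h2⟩ := singer_three hF (Or.inl rfl) (by decide +kernel) hφ hs (by decide +kernel) hG hne
    hn hL ha hH hle
  refine absurd (no_max3 h1 SS3 (fun g hg v hv => ?_) !![.of 2, 0, 0; .of 4, 0, .of 7; .of 6, .of 5, 0]
    !![.of 2, 0, 0; 0, .of 2, 0; .of 3, 0, 1] (by decide +kernel)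
    (fun g hg h => ?_) (by decide +kernel) (by decide +kernel) 0 (.of 3) (.of 4) (by decide +kernel))
    (by decide +kernel)
  · obtain ⟨j, h3, h4⟩ := h2 g hg
    obtain ⟨e1, -, e3⟩ := singer_inv hs (h1.1.le hg) h3 h4 v _ rfl
    exact ⟨e1.trans hv.1, e3 A3 hv.2⟩
  · obtain ⟨j, h3, h4⟩ := h2 g hg
    rw [h] at h4
    rcases h3 with rfl | rfl | rfl <;> revert h4 <;> decide +kernel

theorem singer_three_five [Fintype F] (hF : Fintype.card F = 5 ^ 2) (hG : Herm σ 1 G)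
    (hne : σ ≠ RingEquiv.refl F) (hn : Fintype.card ι = 3) {L : Subalgebra F (Matrix ι ι F)}
    (hL : IsFieldSubalgebra 3 L) (ha : IsAdjointClosedFor (gf σ G) L) {H : Subgroup (GL ι F)}
    (hH : IsMaximalIn (SUG σ G) H) (hle : H ≤ subalgebraNormalizer L) : False := by
  obtain ⟨φ, hφ⟩ := model25 hF hG.invol hne
  have hs : (GF.of 5 * .of 5 + .of 5 + 2 : K25) = 0 := by decide +kernel
  obtain ⟨H', h1, h2⟩ := singer_three hF (Or.inr rfl) (by decide +kernel) hφ hs (by decide +kernel) hG hne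
    hn hL ha hH hle
  refine absurd (no_max3 h1 SS5 (fun g hg v hv => ?_)
    !![.of 4, 0, 0; .of 23, .of 2, .of 20; .of 5, .of 6, .of 3]
    !![.of 4, 0, 0; 0, .of 4, 0; .of 15, 0, 1] (by decide +kernel)
    (fun g hg h => ?_) (by decide +kernel) (by decide +kernel) 0 (.of 2) (.of 24) (by decide +kernel))
    (by decide +kernel)
  · obtain ⟨j, h3, h4⟩ := h2 g hg
    obtain ⟨e1, e2, e3⟩ := singer_inv hs (h1.1.le hg) h3 h4 v _ rfl
    exact ⟨e1.trans hv.1, e3 A5 hv.2.1, e2 ▸ hv.2.2⟩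
  · obtain ⟨j, h3, h4⟩ := h2 g hg
    rw [h] at h4
    rcases h3 with rfl | rfl | rfl <;> revert h4 <;> decide +kernel

end Cfsg.Agent.H5.SU
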