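import Cfsg.Agent.H5.SUThree1

/-!
The normaliser of an extraspecial group of order 27 in `SU₃(5)` is not maximal.
-/

set_option autoImplicit false
set_option linter.unusedSectionVars false
set_option maxRecDepth 100000

namespace Cfsg.Agent.H5.SU

open Module Cfsg.Geo Cfsg.Agent.H7 Cfsg.Agent.Asch
open scoped MatrixGroups Matrix Kronecker

/-- the cube roots of unity -/
def w3 : Fin 3 → K25 := ![1, .of 13, .of 16]

/-- the elements of the extraspecial group -/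
def EE (a b c : Fin 3) : Matrix (Fin 3) (Fin 3) K25 :=
  Matrix.of fun i j => if i = j + b then w3 (a * i + c) else 0

/-- an involution and coset representatives -/
def MM : Fin 11 → Matrix (Fin 3) (Fin 3) K25 :=
  ![!![1, .of 2, .of 4; .of 2, 1, .of 4; .of 4, .of 4, .of 2], !![1, 0, 0; 0, 1, 0; 0, 0, 1],
    !![0, 0, 1; 1, 0, 0; 0, 1, 0], !![0, 1, 0; 0, 0, 1; 1, 0, 0],
    !![.of 5, .of 5, .of 5; .of 5, .of 19, .of 6; .of 5, .of 6, .of 19],
    !![.of 11, .of 11, .of 11; .of 11, .of 20, .of 24; .of 11, .of 24, .of 20],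
    !![.of 5, .of 5, .of 19; .of 6, .of 5, .of 6; .of 5, .of 6, .of 6],
    !![.of 11, .of 11, .of 20; .of 11, .of 20, .of 11; .of 24, .of 20, .of 20],
    !![.of 4, 0, 0; 0, 0, .of 4; 0, .of 4, 0],
    !![.of 5, .of 5, .of 6; .of 19, .of 6, .of 6; .of 5, .of 6, .of 5],
    !![.of 11, .of 11, .of 24; .of 11, .of 20, .of 20; .of 20, .of 11, .of 20]]

/-- admissible values -/
abbrev A6 (p t : K25) : Prop := (p = .of 8 ∧ (t = .of 15 ∨ t = .of 18 ∨ t = .of 22)) ∨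
  (p = .of 22 ∧ (t = .of 10 ∨ t = .of 12 ∨ t = .of 8)) ∨ ((p = 0 ∨ p = .of 2 ∨ p = .of 3) ∧ t = 0)

/-- the invariant set -/
def S6 (a b c : K25) : Prop := a * c25 a + b * c25 b + c * c25 c = 1 ∧
  A6 (a * b * c) (a * a * a + b * b * b + c * c * c)

instance (a b c : K25) : Decidable (S6 a b c) := instDecidableAnd

theorem S6_check : ∀ a b c, S6 a b c → ∀ k, S6 (MM k 0 0 * a + MM k 0 1 * b + MM k 0 2 * c)
    (MM k 1 0 * a + MM k 1 1 * b + MM k 1 2 * c) (MM k 2 0 * a + MM k 2 1 * b + MM k 2 2 * c) := by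
  decide +kernel

theorem MM_su : ∀ k, SU3 c25 1 (MM k) := by decide +kernel

theorem MM_norm : ∀ k, k ≠ 0 → ∀ a b c, ∃ a' b' c', EE a b c * MM k = MM k * EE a' b' c' := by
  decide +kernel

theorem MM_red : ∀ a b c, (a = 0 ∧ b = 0) ∨
    ∃ k, k ≠ 0 ∧ ∃ l, l ≠ 0 ∧ EE a b c * (MM k * MM l) = MM k * MM l * EE 1 0 0 := by
  decide +kernel

theorem EE_entry (a b c i j : Fin 3) : EE a b c i j = 0 ∨ EE a b c i j ^ 3 = 1 := by
  rw [EE, Matrix.of_apply]
  split_ifs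
  · exact Or.inr ((by decide +kernel : ∀ i, w3 i ^ 3 = 1) _)
  · exact Or.inl rfl

theorem c6_model {H : Subgroup (GL (Fin 3) K25)} (hH : IsMaximalIn (SUG c25 1) H)
    (h : ∀ g ∈ H, (∃ a b c, (g : Matrix (Fin 3) (Fin 3) K25) * EE 1 0 0 = EE a b c * g) ∧
      ∃ a b c, (g : Matrix (Fin 3) (Fin 3) K25) * EE 0 1 0 = EE a b c * g) : False := by
  refine absurd (no_max3 hH S6 (fun g hg v hv => ?_) (MM 0) !![.of 4, 0, 0; 0, .of 4, 0; 0, 0, 1] (MM_su 0)
    (fun g hg h' => ?_) (fun a b c h => S6_check a b c h 0) (by decide +kernel) 0 (.of 8) (.of 15)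
    (by decide +kernel)) (by decide +kernel)
  swap
  · have := (h g hg).1
    rw [h'] at this
    revert this
    decide +kernel
  obtain ⟨⟨a, b, c, h1⟩, a₁, b₁, c₁, h2⟩ := h g hg
  rcases MM_red a b c with ⟨rfl, rfl⟩ | ⟨k, hk, l, hl, h3⟩
  · rw [(by decide +kernel : ∀ c, EE 0 0 c = w3 c • 1), smul_mul_assoc, one_mul] at h1
    exact absurd ((Units.mul_right_inj g).1 (h1.trans (by rw [mul_smul_comm, mul_one])))
      ((by decide +kernel : ∀ c, EE 1 0 0 ≠ w3 c • 1) c)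
  obtain ⟨a₂, b₂, c₂, h4⟩ := MM_norm k hk a₁ b₁ c₁
  obtain ⟨a₃, b₃, c₃, h5⟩ := MM_norm l hl a₂ b₂ c₂
  obtain ⟨n, hn, hn'⟩ := (MM_su k).exists
  obtain ⟨n', hm, hm'⟩ := (MM_su l).exists
  obtain ⟨m, rfl⟩ : ∃ m, g = n * (n' * m) := ⟨n'⁻¹ * (n⁻¹ * g), by group⟩
  have h6 : m ∈ SUG c25 1 := (mul_mem_cancel_left hm).1 ((mul_mem_cancel_left hn).1 (hH.1.le hg))
  rw [← hn'] at h3 h4
  rw [← hm'] at h3 h5
  simp only [Units.val_mul] at h1 h2 ⊢
  rw [← mul_assoc, ← mul_assoc (EE a b c), ← mul_assoc (EE a b c), mul_assoc (EE a b c), h3, mul_assoc,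
    mul_assoc _ (EE 1 0 0), ← Units.val_mul, Units.mul_right_inj,
    (by decide +kernel : EE 1 0 0 = Matrix.diagonal w3)] at h1
  rw [← mul_assoc (EE a₁ b₁ c₁), h4, mul_assoc, mul_assoc _ (EE a₂ b₂ c₂), Units.mul_right_inj,
    ← mul_assoc (EE a₂ b₂ c₂), h5, mul_assoc, mul_assoc, Units.mul_right_inj] at h2
  obtain ⟨d, hd⟩ : ∃ d, (m : Matrix (Fin 3) (Fin 3) K25) = Matrix.diagonal d := ⟨fun i => m.1 i i, by
    ext i j
    have := congrFun (congrFun h1 i) j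
    rw [Matrix.mul_diagonal, Matrix.diagonal_mul, mul_comm (w3 i)] at this
    by_cases hij : i = j
    · rw [hij, Matrix.diagonal_apply_eq]
    · rw [Matrix.diagonal_apply_ne _ hij]
      by_contra h0
      exact hij ((by decide +kernel : ∀ i j, w3 j = w3 i → i = j) i j (mul_left_cancel₀ h0 this))⟩
  obtain ⟨h7, h8⟩ := mem_SUG'.1 h6
  rw [hd] at h2 h7 h8
  have e : ∀ i, d i * c25 (d i) = 1 := fun i => by simpa using congrFun (congrFun h7 i) i
  have e' : ∀ i j, EE 0 1 0 i j = 1 → d i ^ 3 = d j ^ 3 := fun i j hij => by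
    have := congrFun (congrFun h2 i) j
    rw [Matrix.mul_diagonal, Matrix.diagonal_mul, hij, mul_one] at this
    rcases EE_entry a₃ b₃ c₃ i j with h | h
    · have := e i
      simp_all
    · rw [this, mul_pow, h, one_mul]
  have e1 := e' 1 0 (by decide +kernel)
  have e2 := e' 2 1 (by decide +kernel)
  rw [Matrix.det_diagonal, Fin.prod_univ_three] at h8
  have e0 : d 0 ^ 3 = 1 := by
    have := (by decide +kernel : ∀ a : K25, a * c25 a = 1 → a ^ 6 = 1) _ (e 0)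
    grind
  have k1 : S6 (((m : Matrix (Fin 3) (Fin 3) K25) *ᵥ v) 0) (((m : Matrix (Fin 3) (Fin 3) K25) *ᵥ v) 1)
      (((m : Matrix (Fin 3) (Fin 3) K25) *ᵥ v) 2) := by
    simp only [hd, Matrix.mulVec_diagonal]
    refine ⟨?_, ?_⟩
    · simp only [map_mul]
      linear_combination hv.1 + v 0 * c25 (v 0) * e 0 + v 1 * c25 (v 1) * e 1 + v 2 * c25 (v 2) * e 2
    · convert hv.2 using 1 <;> grind
  have k2 := S6_check _ _ _ (S6_check _ _ _ k1 l) k
  rw [← Matrix.mulVec_mulVec, ← Matrix.mulVec_mulVec, hn', hm']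
  simpa only [mv3 (MM _)] using k2

theorem exists_EE {m : Matrix (Fin 3) (Fin 3) K25} {c d : K25} (h1 : m * EE 1 0 0 = c • (EE 1 0 0 * m))
    (h2 : m * EE 0 1 0 = d • (EE 0 1 0 * m)) (h3 : m ^ 3 = 1) : ∃ a b c, m = EE a b c := by
  rw [(by decide +kernel : EE 1 0 0 = Matrix.diagonal w3)] at h1
  rw [(by decide +kernel : EE 0 1 0 = !![0, 0, 1; 1, 0, 0; 0, 1, 0])] at h2
  have e : ∀ i, m i 0 = 0 ∨ c * w3 i = 1 := fun i => by
    have := congrFun (congrFun h1 i) 0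
    rw [Matrix.mul_diagonal, Matrix.smul_apply, Matrix.diagonal_mul, smul_eq_mul, show w3 0 = 1 from rfl] at this
    rw [← sub_eq_zero (a := c * w3 i), ← mul_eq_zero]
    linear_combination -this
  have k := fun i j => congrFun (congrFun h2 i) j
  have k00 := k 0 0; have k10 := k 1 0; have k20 := k 2 0; have k01 := k 0 1; have k11 := k 1 1
  have k21 := k 2 1; have k02 := k 0 2; have k12 := k 1 2; have k22 := k 2 2
  simp [Matrix.mul_apply, Fin.sum_univ_three, Matrix.vecMul, dotProduct] at k00 k10 k20 k01 k11 k21 k02 k12 k22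
  obtain ⟨u, hu⟩ : ∃ u, m 0 0 = u := ⟨_, rfl⟩
  obtain ⟨v, hv⟩ : ∃ u, m 1 0 = u := ⟨_, rfl⟩
  obtain ⟨w, hw⟩ : ∃ u, m 2 0 = u := ⟨_, rfl⟩
  obtain rfl : m = !![u, d * w, d * (d * v); v, d * u, d * (d * w); w, d * v, d * (d * u)] := by
    ext i j
    fin_cases i <;> fin_cases j <;> simp [← hu, ← hv, ← hw, k00, k10, k20, k01, k11, k21]
  have e0 : u = 0 ∨ c * w3 0 = 1 := e 0
  have e1 : v = 0 ∨ c * w3 1 = 1 := e 1
  have e2 : w = 0 ∨ c * w3 2 = 1 := e 2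
  replace k02 : u = d * (d * (d * u)) := k02
  replace k12 : v = d * (d * (d * v)) := k12
  replace k22 : w = d * (d * (d * w)) := k22
  have := (by decide +kernel : ∀ c : K25, ¬(c * w3 0 = 1 ∧ c * w3 1 = 1) ∧ ¬(c * w3 0 = 1 ∧ c * w3 2 = 1) ∧
    ¬(c * w3 1 = 1 ∧ c * w3 2 = 1)) c
  obtain ⟨rfl, rfl⟩ | ⟨rfl, rfl⟩ | ⟨rfl, rfl⟩ : (v = 0 ∧ w = 0) ∨ (u = 0 ∧ w = 0) ∨ (u = 0 ∧ v = 0) := by tauto
  · clear * - k02 h3
    revert u d
    decide +kernel
  · clear * - k12 h3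
    revert v d
    decide +kernel
  · clear * - k22 h3
    revert w d
    decide +kernel

end Cfsg.Agent.H5.SU
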