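import Cfsg.Agent.H5.SUThree2
import Cfsg.Agent.H5.SUThree3

/-!
The normaliser of an extraspecial group of order 27 in `SU₃(5)`: transport to coordinates.
-/

set_option autoImplicit false
set_option linter.unusedSectionVars false

namespace Cfsg.Agent.H5.SU

open Module Cfsg.Geo Cfsg.Agent.H7 Cfsg.Agent.Asch
open scoped MatrixGroups Matrix Kronecker

variable {ι : Type} [Fintype ι] [DecidableEq ι] {F : Type*} [Field F] {σ : F ≃+* F} {G : Matrix ι ι F}

theorem trace_of_twist {x : Matrix ι ι F} {y : GL ι F} {c : F} (hc : x * y = c • ((y : Matrix ι ι F) * x))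
    (hc1 : c ≠ 1) : x.trace = 0 := by
  have h1 : x = c • cj y x := by
    rw [cj_apply, ← Matrix.smul_mul, ← hc, mul_assoc, ← Units.val_mul, mul_inv_cancel, Units.val_one, mul_one]
  have h2 := congrArg Matrix.trace h1
  rw [Matrix.trace_smul, trace_cj, smul_eq_mul] at h2
  apply mul_left_cancel₀ (sub_ne_zero.2 hc1)
  linear_combination -h2

theorem exists_fixed_unit [Fintype F] (hG : Herm σ 1 G) (hne : σ ≠ RingEquiv.refl F) (h3 : (3 : F) ≠ 0)
    {x : Matrix ι ι F} (hx : x ^ 3 = 1) (hu : ∀ u v, gf σ G (x *ᵥ u) (x *ᵥ v) = gf σ G u v)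
    (he : 1 + x + x ^ 2 ≠ 0) : ∃ v, x *ᵥ v = v ∧ gf σ G v v = 1 := by
  have h1 : ∀ u, (1 + x + x ^ 2) *ᵥ u ∈ LinearMap.ker (Matrix.mulVecLin (x - 1)) := fun u => by
    rw [LinearMap.mem_ker, Matrix.mulVecLin_apply, Matrix.mulVec_mulVec,
      show (x - 1) * (1 + x + x ^ 2) = x ^ 3 - 1 by noncomm_ring, hx, sub_self, Matrix.zero_mulVec]
  have h2 : ∀ w, w ∈ LinearMap.ker (Matrix.mulVecLin (x - 1)) → x *ᵥ w = w := fun w hw => by
    rwa [LinearMap.mem_ker, Matrix.mulVecLin_apply, Matrix.sub_mulVec, Matrix.one_mulVec, sub_eq_zero] at hw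
  obtain ⟨v, hv, hv'⟩ := exists_norm_mem hG hne (W := LinearMap.ker (Matrix.mulVecLin (x - 1)))
    (fun w hw hw0 => by
      obtain ⟨u, hu'⟩ := (hG.nondeg w hw0).1
      have k1 : gf σ G (x *ᵥ u) w = gf σ G u w := by rw [← hu u, h2 w hw]
      have k2 : gf σ G (x ^ 2 *ᵥ u) w = gf σ G u w := by
        rw [← k1, ← hu (x *ᵥ u), h2 w hw, Matrix.mulVec_mulVec, sq]
      have : gf σ G ((1 + x + x ^ 2) *ᵥ u) w ≠ 0 := by
        rw [Matrix.add_mulVec, Matrix.add_mulVec, gf_add_left, gf_add_left, k1, k2, Matrix.one_mulVec]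
        exact fun h => mul_ne_zero h3 hu' (by linear_combination h)
      exact ⟨⟨_, h1 u, this⟩, _, h1 u, fun h => this (hG.gf_eq_zero_comm h)⟩)
    (fun h => he (Matrix.ext_iff_mulVec.2 fun u => by
      rw [Matrix.zero_mulVec, ← Submodule.mem_bot F, ← h]; exact h1 u)) (map_one σ)
  exact ⟨v, h2 v hv, hv'⟩

theorem c6_three_five [Fintype F] (hF : Fintype.card F = 5 ^ 2) (hG : Herm σ 1 G)
    (hne : σ ≠ RingEquiv.refl F) (hn : Fintype.card ι = 3) {R : Subgroup (GL ι F)} (hR : RData 3 R)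
    (h3 : ∀ r ∈ R, r ^ 3 = 1) (hU : FixesGram σ R G) {H : Subgroup (GL ι F)}
    (hH : IsMaximalIn (SUG σ G) H) (hle : H ≤ subgroupNormalizer R) : False := by
  obtain ⟨x, hx, y, hy, c, hc1, hc3, hc⟩ := hR.exists_root (by omega)
  obtain ⟨φ, hφ, rfl⟩ : ∃ φ : K25 ≃+* F, (∀ a, φ (c25 a) = σ (φ a)) ∧ φ (w3 1) = c := by
    obtain ⟨φ, hφ⟩ := model25 hF hG.invol hne
    obtain ⟨c, rfl⟩ := φ.surjective c
    rcases (by decide +kernel : ∀ c : K25, c ^ 3 = 1 → c = 1 ∨ c = w3 1 ∨ c = c25 (w3 1)) c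
      (φ.injective (by simpa using hc3)) with rfl | rfl | rfl
    · exact absurd (map_one φ) hc1
    · exact ⟨φ, hφ, rfl⟩
    · exact ⟨c25.trans φ, swap_model (by decide +kernel) hG.invol hφ, rfl⟩
  have hU' : ∀ r ∈ R, ∀ u v, gf σ G ((r : Matrix ι ι F) *ᵥ u) ((r : Matrix ι ι F) *ᵥ v) = gf σ G u v :=
    fun r hr u v => by rw [gf_mulVec, hU r hr]
  have h3' : ∀ r ∈ R, (r : Matrix ι ι F) ^ 3 = 1 := fun r hr => by
    rw [← Units.val_pow_eq_pow_val, h3 r hr, Units.val_one]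
  have h30 : (3 : F) ≠ 0 := by
    rw [← map_ofNat φ, map_ne_zero_iff φ φ.injective]; decide +kernel
  obtain ⟨v, hv, hv1⟩ := exists_fixed_unit hG hne h30 (h3' x hx) (hU' x hx) fun h => h30 (by
    have := congrArg Matrix.trace h
    rw [Matrix.trace_add, Matrix.trace_add, trace_of_twist hc hc1, trace_of_twist (pow_mul_of_twist hc 2)
      (by rw [← map_pow, Ne, map_eq_one_iff φ φ.injective]; decide +kernel), Matrix.trace_one, hn] at this
    simpa using this)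
  have hb : ∀ i : Fin 3, (x : Matrix ι ι F) *ᵥ ((y : Matrix ι ι F) ^ (i : ℕ) *ᵥ v) =
      φ (w3 i) • ((y : Matrix ι ι F) ^ (i : ℕ) *ᵥ v) := fun i => by
    have k : ∀ u a, (x : Matrix ι ι F) *ᵥ u = φ a • u → (x : Matrix ι ι F) *ᵥ ((y : Matrix ι ι F) *ᵥ u) =
        φ (w3 1 * a) • ((y : Matrix ι ι F) *ᵥ u) := fun u a h => by
      rw [Matrix.mulVec_mulVec, hc, Matrix.smul_mulVec, ← Matrix.mulVec_mulVec, h, Matrix.mulVec_smul,
        smul_smul, map_mul]
    have k0 : (x : Matrix ι ι F) *ᵥ v = φ 1 • v := by rw [hv, map_one, one_smul]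
    fin_cases i
    · simpa [w3] using hv
    · simpa using k _ _ k0
    · have := k _ _ (k _ _ k0)
      rw [(by decide +kernel : w3 1 * (w3 1 * 1) = w3 2)] at this
      simpa [sq] using this
  have hon : ON σ G fun i : Fin 3 => (y : Matrix ι ι F) ^ (i : ℕ) *ᵥ v := fun i j => by
    split_ifs with hij
    · rw [hij, gf_pow (hU' y hy), hv1]
    · have := hU' x hx ((y : Matrix ι ι F) ^ (i : ℕ) *ᵥ v) ((y : Matrix ι ι F) ^ (j : ℕ) *ᵥ v)
      rw [hb, hb, gf_smul_left, gf_smul_right, ← hφ, ← mul_assoc, ← map_mul] at this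
      by_contra h0
      exact hij ((by decide +kernel : ∀ i j, w3 i * c25 (w3 j) = 1 → i = j) i j
        ((map_eq_one_iff φ φ.injective).1 ((mul_eq_right₀ h0).1 this)))
  let e : ι ≃ Fin 3 := Fintype.equivFinOfCardEq hn
  obtain ⟨P, hP⟩ := exists_frame_of_linearIndependent e hon.indep
  have hΓ : pbG σ e P G = (1 : Matrix (Fin 3) (Fin 3) K25).map φ := by
    rw [map_one']
    ext i j
    rw [pbG_apply, hP, hP, hon, Matrix.one_apply]
  have hX : (x : Matrix ι ι F) = tr e P ((EE 1 0 0).map φ) := eq_tr_of_cols hP fun i => by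
    rw [hb, (by decide +kernel : EE 1 0 0 = Matrix.diagonal w3)]
    simp [Matrix.diagonal_apply, apply_ite φ]
  have hY : (y : Matrix ι ι F) = tr e P ((EE 0 1 0).map φ) := eq_tr_of_cols hP fun i => by
    rw [Matrix.mulVec_mulVec, ← pow_succ', (by decide +kernel : EE 0 1 0 = !![0, 0, 1; 1, 0, 0; 0, 1, 0])]
    fin_cases i <;> simp [Fin.sum_univ_three, h3' y hy]
  obtain ⟨H', h1, h2⟩ := max_model hH hφ e P hΓ
  have key : ∀ g ∈ H', ∀ r ∈ R, ∀ X : Matrix (Fin 3) (Fin 3) K25, (r : Matrix ι ι F) = tr e P (X.map φ) →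
      ∃ a b c, (g : Matrix (Fin 3) (Fin 3) K25) * X = EE a b c * g := fun g hg r hr X hX' => by
    have k1 := (Subgroup.mem_normalizer_iff.1 (hle (h2 g hg)) r).1 hr
    obtain ⟨c, k2⟩ := hR.comm _ k1 x hx
    obtain ⟨d, k3⟩ := hR.comm _ k1 y hy
    have k4 := h3' _ k1
    rw [← cj_coe, hX', cj_trGL] at k2 k3 k4
    have k5 : cj (glMap φ g) (X.map φ) = (cj g X).map φ := by
      rw [cj_apply, cj_apply, map_mul', map_mul', ← map_inv, coe_glMap, coe_glMap]
    obtain ⟨c, rfl⟩ := φ.surjective c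
    obtain ⟨d, rfl⟩ := φ.surjective d
    have k6 : ∀ c (Z : Matrix (Fin 3) (Fin 3) K25), φ c • Z.map φ = (c • Z).map φ := fun c Z => by
      ext i j; simp
    rw [hX, k5, ← map_mul, ← map_mul, ← map_smul, ← map_mul', ← map_mul', k6] at k2
    rw [hY, k5, ← map_mul, ← map_mul, ← map_smul, ← map_mul', ← map_mul', k6] at k3
    rw [k5, ← map_pow, ← map_pow', ← map_one (tr e P), ← map_one' φ] at k4
    obtain ⟨a, b, c, h⟩ := exists_EE ((map_inj φ).1 ((tr e P).injective k2))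
      ((map_inj φ).1 ((tr e P).injective k3)) ((map_inj φ).1 ((tr e P).injective k4))
    exact ⟨a, b, c, by rw [← h, cj_mul_self]⟩
  exact c6_model h1 fun g hg => ⟨key g hg x hx _ hX, key g hg y hy _ hY⟩

end Cfsg.Agent.H5.SU
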