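import Cfsg.Agent.H5.SUMax

/-!
Tools for the small exceptional cases: transport along frames, invariant sets, descent.
-/

set_option autoImplicit false
set_option linter.unusedSectionVars false

namespace Cfsg.Agent.H5.SU

open Module Cfsg.Geo Cfsg.Agent.H7 Cfsg.Agent.Asch
open scoped MatrixGroups Matrix Kronecker

variable {ι : Type} [Fintype ι] [DecidableEq ι] {F : Type*} [Field F] {σ : F ≃+* F} {G : Matrix ι ι F}
variable {κ : Type} [Fintype κ] [DecidableEq κ]

theorem det_tr (e : ι ≃ κ) (P : GL ι F) (y : Matrix κ κ F) : (tr e P y).det = y.det := by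
  rw [tr_apply, cj_apply, Matrix.det_units_conj, Matrix.det_submatrix_equiv_self]

theorem trGL_mem_SUG (e : ι ≃ κ) (P : GL ι F) {g : GL κ F} :
    trGL e P g ∈ SUG σ G ↔ g ∈ SUG σ (pbG σ e P G) := by
  rw [mem_SUG', mem_SUG', ← (pbG_injective σ e P).eq_iff, coe_trGL, pbG_mul, det_tr]

theorem max_comap {A B : Type*} [Group A] [Group B] (φ : A ≃* B) {K H : Subgroup B} {K' : Subgroup A}
    (hK : ∀ g, φ g ∈ K ↔ g ∈ K') (hH : IsMaximalIn K H) : IsMaximalIn K' (H.comap φ.toMonoidHom) := by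
  obtain rfl : K' = K.comap φ.toMonoidHom := Subgroup.ext fun g => (hK g).symm
  refine ⟨(Subgroup.comap_lt_comap_of_surjective φ.surjective).2 hH.1, fun M h1 h2 => ?_⟩
  have h3 : (M.map φ.toMonoidHom).comap φ.toMonoidHom = M := Subgroup.comap_map_eq_self_of_injective φ.injective M
  rcases hH.2 (M.map φ.toMonoidHom)
    ((Subgroup.comap_le_comap_of_surjective φ.surjective).1 (h3.symm ▸ h1))
    (Subgroup.map_le_iff_le_comap.2 h2) with h | h
  · exact Or.inl (by rw [← h, h3])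
  · exact Or.inr (by rw [← h, h3])

theorem max_frame {H : Subgroup (GL ι F)} (hH : IsMaximalIn (SUG σ G) H) (e : ι ≃ κ) (P : GL ι F) :
    IsMaximalIn (SUG σ (pbG σ e P G)) (H.comap (trGL e P).toMonoidHom) :=
  max_comap (trGL e P) (fun _ => trGL_mem_SUG e P) hH

/-- a set of vectors preserved by a maximal subgroup and a further element is preserved by the
whole group -/
theorem no_max [Finite F] {K H : Subgroup (GL ι F)} (hH : IsMaximalIn K H) (S : (ι → F) → Prop)
    (h1 : ∀ g ∈ H, ∀ v, S v → S ((g : Matrix ι ι F) *ᵥ v)) {g₀ : GL ι F} (h2 : g₀ ∈ K) (h3 : g₀ ∉ H)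
    (h4 : ∀ v, S v → S ((g₀ : Matrix ι ι F) *ᵥ v)) {g₁ : GL ι F} (h5 : g₁ ∈ K) {v : ι → F}
    (h6 : S v) : S ((g₁ : Matrix ι ι F) *ᵥ v) := by
  let N : Submonoid (GL ι F) :=
    { carrier := {g | ∀ v, S v → S ((g : Matrix ι ι F) *ᵥ v)}
      mul_mem' := fun {a b} ha hb v hv => by
        rw [Units.val_mul, ← Matrix.mulVec_mulVec]; exact ha _ (hb v hv)
      one_mem' := fun v hv => by simpa using hv }
  let M : Subgroup (GL ι F) :=
    { N with
      inv_mem' := fun {g} hg => by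
        have : g⁻¹ = g ^ (orderOf g - 1) := by
          rw [inv_eq_iff_mul_eq_one, ← pow_succ', Nat.sub_add_cancel (orderOf_pos g), pow_orderOf_eq_one]
        rw [this]
        exact N.pow_mem hg _ }
  rcases hH.2 (M ⊓ K) (le_inf h1 hH.1.le) inf_le_right with h | h
  · exact absurd (h ▸ (⟨h4, h2⟩ : g₀ ∈ M ⊓ K)) h3
  · exact (h.symm ▸ h5 : g₁ ∈ M ⊓ K).1 v h6

theorem exists_mem_SUG {x : Matrix ι ι F} (h1 : xᵀ * G * x.map σ = G) (h2 : x.det = 1) :
    ∃ g ∈ SUG σ G, (g : Matrix ι ι F) = x :=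
  ⟨Matrix.GeneralLinearGroup.mkOfDetNeZero x (by rw [h2]; exact one_ne_zero), mem_SUG'.2 ⟨h1, h2⟩, rfl⟩

/-- Galois descent for vectors -/
theorem exists_descent (hσ : ∀ a, σ (σ a) = a) (hne : σ ≠ RingEquiv.refl F) {M : Matrix ι ι F}
    (hM : M * M.map σ = 1) : ∃ P : GL ι F, M * (P : Matrix ι ι F).map σ = P := by
  obtain ⟨θ, hθ⟩ := exists_ne_of_ne_refl hne
  simp only [RingHom.coe_coe] at hθ
  let T : Set (ι → F) := {v | M *ᵥ (σ ∘ v) = v}
  have h1 : ∀ v : ι → F, v + M *ᵥ (σ ∘ v) ∈ T := fun v => by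
    have e1 : σ ∘ (v + M *ᵥ (σ ∘ v)) = σ ∘ v + M.map σ *ᵥ v := by
      rw [show σ ∘ (v + M *ᵥ (σ ∘ v)) = σ ∘ v + σ ∘ (M *ᵥ (σ ∘ v)) by ext; simp, comp_mulVec]
      congr 2; ext; simp [hσ]
    change M *ᵥ _ = _
    rw [e1, Matrix.mulVec_add, Matrix.mulVec_mulVec, hM, Matrix.one_mulVec, add_comm]
  have h2 : Submodule.span F T = ⊤ := by
    rw [eq_top_iff]
    intro v _
    have e1 : σ ∘ (θ • v) = σ θ • σ ∘ v := by ext; simp
    have : v = (θ - σ θ)⁻¹ • ((θ • v + M *ᵥ (σ ∘ (θ • v))) - σ θ • (v + M *ᵥ (σ ∘ v))) := by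
      rw [e1, Matrix.mulVec_smul, smul_add, add_sub_add_right_eq_sub, ← sub_smul, smul_smul,
        inv_mul_cancel₀ (sub_ne_zero.2 hθ.symm), one_smul]
    rw [this]
    exact Submodule.smul_mem _ _ (Submodule.sub_mem _ (Submodule.subset_span (h1 _))
      (Submodule.smul_mem _ _ (Submodule.subset_span (h1 _))))
  obtain ⟨b, hb, hb2, hb3⟩ := exists_linearIndependent F T
  haveI : Fintype b := hb3.setFinite.fintype
  have h3 : Fintype.card ι = Fintype.card b := by
    rw [← finrank_span_eq_card hb3, Subtype.range_coe, hb2, h2, finrank_top, finrank_fintype_fun_eq_card]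
  let e : ι ≃ b := Fintype.equivOfCardEq h3
  obtain ⟨P, hP⟩ := exists_frame_of_linearIndependent (Equiv.refl ι) (hb3.comp e e.injective)
  refine ⟨P, Matrix.ext_iff_mulVec.2 fun v => ?_⟩
  rw [eq_sum_smul_single v]
  simp only [Matrix.mulVec_sum, Matrix.mulVec_smul]
  refine Finset.sum_congr rfl fun i _ => ?_
  have h4 : trv (Equiv.refl ι) P (Pi.single i 1) ∈ T := by rw [hP]; exact hb (e i).2
  replace h4 : M *ᵥ (σ ∘ ((P : Matrix ι ι F) *ᵥ Pi.single i 1)) = (P : Matrix ι ι F) *ᵥ Pi.single i 1 := h4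
  rw [← Matrix.mulVec_mulVec, ← comp_single σ i, ← comp_mulVec, comp_single, h4]

theorem formC5_of_frame [Fintype F] [Nonempty ι] (hσ : ∀ a, σ (σ a) = a) (hne : σ ≠ RingEquiv.refl F)
    {H : Subgroup (GL ι F)} (hs : H ≤ similarityGroup (gf σ G)) (e : ι ≃ κ) (P : GL ι F)
    {B : Matrix κ κ F} (hB : IsUnit B) (hB' : Over (fixSub σ) B) {c : F} (hc : c ≠ 0)
    (h : pbG σ e P G = c • B)
    (hA : ∀ g, trGL e P g ∈ H → g ∈ similarityGroup (gf (RingEquiv.refl F) B)) : FormC5 σ G H := by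
  haveI : Nonempty κ := e.symm.nonempty
  refine ⟨fixSub σ, 2, P, c⁻¹, Nat.prime_two, card_eq_card_fixSub_sq hσ hne, inv_ne_zero hc, ?_,
    fun g hg => ?_⟩
  · have : pbG σ (Equiv.refl ι) P G = (pbG σ e P G).submatrix e e := by
      ext i j; simp [pbG]
    rw [this, h, Matrix.submatrix_smul, Pi.smul_apply, Pi.smul_apply, smul_smul, inv_mul_cancel₀ hc,
      one_smul]
    exact Over.submatrix hB' e
  · have k1 := hs hg
    obtain ⟨g, rfl⟩ := (trGL e P).surjective g
    rw [trGL_mem_similarityGroup, h] at k1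
    obtain ⟨d, hd⟩ := map_eq_smul_of_two_forms (σ := σ) hB (by
      obtain ⟨d, hd⟩ := k1
      exact ⟨d, fun u v => mul_left_cancel₀ hc (by rw [← gf_smul, hd, gf_smul]; ring)⟩) (hA g hg)
    obtain ⟨a, ha, ha'⟩ := exists_over_of_map_eq_smul hσ hne hd
    refine mem_subfieldSubgroup_of_over ha ?_
    rw [coe_trGL, tr_apply, cj_inv_cj]
    exact Over.submatrix ha' e

/-- a compatible bilinear form gives a subfield structure -/
theorem formC5_of_bilinear [Fintype F] [Nonempty ι] (hG : Herm σ 1 G) (hne : σ ≠ RingEquiv.refl F)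
    {H : Subgroup (GL ι F)} (hs : H ≤ similarityGroup (gf σ G)) (e : ι ≃ κ) (P : GL ι F)
    {A M : Matrix κ κ F} {c : F} (hc : c ≠ 0) (hAM : A * M = c • pbG σ e P G) (hM : M * M.map σ = 1)
    (hA : σ c • Aᵀ = c • A)
    (hA' : ∀ g, trGL e P g ∈ H → g ∈ similarityGroup (gf (RingEquiv.refl F) A)) : FormC5 σ G H := by
  obtain ⟨Q, hQ⟩ := exists_descent hG.invol hne hM
  have h1 : pbG σ e (fr e P Q) G = c⁻¹ • pbG (RingEquiv.refl F) (Equiv.refl κ) Q A := by
    have : (Q : Matrix κ κ F)ᵀ * A * Q = (Q : Matrix κ κ F)ᵀ * (A * M) * (Q : Matrix κ κ F).map σ := by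
      rw [mul_assoc _ (A * M), mul_assoc A, hQ, mul_assoc]
    rw [pbG_fr, pbG_refl, map_refl, this, hAM, Matrix.mul_smul, Matrix.smul_mul, smul_smul,
      inv_mul_cancel₀ hc, one_smul]
  have h2 := hG.pbG e (fr e P Q)
  have h3 : pbG (RingEquiv.refl F) (Equiv.refl κ) Q A = c • pbG σ e (fr e P Q) G := by
    rw [h1, smul_smul, mul_inv_cancel₀ hc, one_smul]
  refine formC5_of_frame hG.invol hne hs e (fr e P Q) (h3 ▸ isUnit_smul_of_ne_zero hc h2.unit) ?_
    (inv_ne_zero hc) h1 fun g hg => ?_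
  · have h4 : σ c • (pbG (RingEquiv.refl F) (Equiv.refl κ) Q A)ᵀ =
        c • pbG (RingEquiv.refl F) (Equiv.refl κ) Q A := by
      rw [← pbG_transpose, ← pbG_smul, hA, pbG_smul]
    have h5 := h2.star
    rw [one_smul] at h5
    rw [h3] at h4 ⊢
    intro i j
    have e1 := congrFun (congrFun h4 i) j
    have e2 := congrFun (congrFun h5 j) i
    simp only [Matrix.smul_apply, Matrix.transpose_apply, Matrix.map_apply, smul_eq_mul] at e1 e2
    rw [mem_fixSub, Matrix.smul_apply, smul_eq_mul, map_mul, e2]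
    exact mul_left_cancel₀ hc (by linear_combination e1)
  · rw [trGL_fr] at hg
    rw [← trGL_mem_similarityGroup]
    exact hA' _ hg

/-- monomial matrices -/
abbrev Mon {t : ℕ} (g : Matrix (Fin t) (Fin t) F) (π : Equiv.Perm (Fin t)) (d : Fin t → F) : Prop :=
  SL.Mono (LinearEquiv.refl F (Fin t → F)) g π d

theorem Mon.entry {t : ℕ} {g : Matrix (Fin t) (Fin t) F} {π : Equiv.Perm (Fin t)} {d : Fin t → F}
    (h : Mon g π d) (i j : Fin t) : g (π i) j = if i = j then d i else 0 := by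
  have := h (Pi.single j 1) i
  simpa [Pi.single_apply] using this

theorem Mon.det {t : ℕ} {g : Matrix (Fin t) (Fin t) F} {π : Equiv.Perm (Fin t)} {d : Fin t → F}
    (h : Mon g π d) : g.det = ((Equiv.Perm.sign π : ℤ) : F) * ∏ i, d i := by
  have h2 : g.submatrix π id = Matrix.diagonal d := by
    ext i j
    rw [Matrix.submatrix_apply, id, h.entry, Matrix.diagonal_apply]
  have h3 := congrArg Matrix.det h2
  rw [Matrix.det_permute, Matrix.det_diagonal] at h3
  rw [← h3, ← mul_assoc, ← Int.cast_mul, ← Units.val_mul, Int.units_mul_self]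
  simp

theorem Mon.norm {t : ℕ} {g : Matrix (Fin t) (Fin t) F} {π : Equiv.Perm (Fin t)} {d : Fin t → F}
    (h : Mon g π d) (hg : gᵀ * 1 * g.map σ = 1) (i : Fin t) : d i * σ (d i) = 1 := by
  have := congrFun (congrFun hg i) i
  rw [mul_one, Matrix.mul_apply, ← Equiv.sum_comp π] at this
  simpa [h.entry, apply_ite σ] using this

theorem Mon.mono {t : ℕ} {g : Matrix (Fin t) (Fin t) F} {π : Equiv.Perm (Fin t)} {d : Fin t → F}
    (h : Mon g π d) (e : ι ≃ Fin t) (P : GL ι F) : SL.Mono (H8.trvE e P).symm (tr e P g) π d :=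
  fun v i => by
    obtain ⟨v, rfl⟩ := (H8.trvE e P).surjective v
    rw [H8.trvE_apply, tr_mulVec, ← H8.trvE_apply, ← H8.trvE_apply, LinearEquiv.symm_apply_apply,
      LinearEquiv.symm_apply_apply]
    exact h v i

theorem sign_sq {t : ℕ} (π : Equiv.Perm (Fin t)) : ((Equiv.Perm.sign π : ℤ) : F) ^ 2 = 1 := by
  rw [sq, ← Int.cast_mul, ← Units.val_mul, Int.units_mul_self]; simp

/-- an orthonormal frame adapted to an orthogonal decomposition into lines -/
theorem exists_mono_frame [Fintype F] (hG : Herm σ 1 G) (hne : σ ≠ RingEquiv.refl F) {t : ℕ}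
    {D : Fin t → Submodule F (ι → F)} (hD : IsNondegenerateMDecomposition (gf σ G) 1 D)
    (e : ι ≃ Fin t) : ∃ P : GL ι F, pbG σ e P G = 1 ∧ ∀ g : GL (Fin t) F,
      trGL e P g ∈ decompositionStabilizer D →
        ∃ π d, Mon (g : Matrix (Fin t) (Fin t) F) π d := by
  obtain ⟨b, hb, hb'⟩ := exists_on_decomp hG hne hD
  have h1 : ON σ G fun i => b (i, 0) := fun i j => by simpa using hb' (i, 0) (j, 0)
  obtain ⟨P, hP⟩ := exists_frame_of_linearIndependent e h1.indep
  refine ⟨P, ?_, fun g hg => ?_⟩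
  · ext i j
    rw [pbG_apply, hP, hP, h1, Matrix.one_apply]
  · obtain ⟨π, hπ⟩ := mulVec_mem_decomp hg
    have h2 : ∀ i, ∃ c : F, (g : Matrix (Fin t) (Fin t) F) *ᵥ Pi.single i 1 = c • Pi.single (π i) 1 := by
      intro i
      have h3 : ON σ G fun a => b (π i, a) := fun a a' => by simpa using hb' (π i, a) (π i, a')
      obtain ⟨x, hx⟩ := h3.exists_sum (hb (π i)) (by simpa using hD.decomp.finrank_eq _) (hπ i _ (hb i 0))
      refine ⟨x 0, trv_injective e P ?_⟩
      rw [← tr_mulVec, trv_smul, hP, hP, ← coe_trGL, hx]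
      simp
    choose d hd using h2
    refine ⟨π, d, fun v i => ?_⟩
    conv_lhs => rw [eq_sum_smul_single v]
    simp [Matrix.mulVec_sum, Matrix.mulVec_smul, -Matrix.mulVec_single, hd, Pi.single_apply, mul_comm]

end Cfsg.Agent.H5.SU
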