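import Cfsg.Agent.H7.SubInst
import Cfsg.Agent.H7.Nondeg2
import Cfsg.Agent.H1.Small

/-!
Subfield subgroups of orthogonal type in small dimension, odd characteristic: an overgroup
containing a non-rational Eichler transformation with rational centre contains `E`.
-/

set_option autoImplicit false
set_option linter.unusedSectionVars false

namespace Cfsg.Agent.H5.SubO

open Module Cfsg.Agent.H7 Cfsg.Agent.H7.Polar

variable {F : Type*} [Field F] {V : Type*} [AddCommGroup V] [Module F V]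
variable {F₀ : Subfield F}

/-- The rational points carry a quadratic form in odd characteristic, and `X` contains the rational
Eichler transformations. -/
structure Ctx (P : Polar F V) (R : RatStr F₀ V) (X : Subgroup (V ≃ₗ[F] V)) : Prop where
  ok : P.RatOK R
  two : (2 : F) ≠ 0
  ε : P.ε = 1
  σ0 : ∀ a ∈ F₀, P.σ a = a
  lam : ∀ c, P.Val 0 c → ∃ a, c = a - P.ε * P.σ a
  six : 6 ≤ finrank F V
  mem : ∀ e y c, R.τ e = e → R.τ y = y → c ∈ F₀ → P.Val e 0 → P.B y e = 0 → P.Val y c →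
    P.EI X e y c
  iso : X ≤ P.Iso

namespace Ctx

variable [Finite F] [FiniteDimensional F V] {P : Polar F V} {R : RatStr F₀ V}
  {X : Subgroup (V ≃ₗ[F] V)} (h : Ctx P R X)
include h

theorem wild : h.ok.restrict.Wild 3 := h.ok.wild_three (Or.inl h.ε)

theorem B_self {x : V} {c : F} (hc : c ∈ F₀) (hx : P.Val x c) : P.B x x = 2 * c := by
  rw [P.val_self hx, h.ε, h.σ0 c hc]; ring

theorem symm {x y : V} (hx : R.τ x = x) (hy : R.τ y = y) : P.B y x = P.B x y := by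
  rw [P.herm, h.ε, h.σ0 _ (h.ok.B_mem x y hx hy), one_mul]

theorem exists_aniso {M : Submodule F V} (hM : R.Inv M) (hd : finrank F V < 2 * finrank F M) :
    ∃ y ∈ M, R.τ y = y ∧ ∃ c ∈ F₀, c ≠ 0 ∧ P.Val y c := by
  by_contra! hcon
  have h1 : ∀ y ∈ M, R.τ y = y → P.B y y = 0 := fun y hy hy' => by
    obtain ⟨c, hc, hc'⟩ := h.ok.val_mem y hy'
    by_cases h0 : c = 0
    · rw [h.B_self hc hc', h0, mul_zero]
    · exact absurd hc' (hcon y hy hy' c hc h0)
  have h2 : M ≤ P.perp M := hM.le fun x hx hx' => mem_perp'.2 fun u hu =>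
    (hM.le (N := P.pp x) (fun y hy hy' => by
      have := h1 _ (M.add_mem hx hy) (by rw [map_add, hx', hy'])
      simp only [map_add, LinearMap.add_apply, h1 x hx hx', h1 y hy hy', h.symm hy' hx'] at this
      exact (mul_eq_zero.1 (show 2 * P.B y x = 0 by linear_combination this)).resolve_left
        h.two) hu)
  have := two_mul_finrank_le_of_le_perp h2
  omega

theorem sing_mem_zSub {w z e : V} {hws : P.Val w 0} (hw' : R.τ w = w) (hz : z ∈ P.zSub X hws)
    (he : R.τ e = e) (hes : P.Val e 0) (hew : P.B e w = 0) {a : F} (ha : a ∈ F₀) :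
    (a * P.B z e) • e ∈ P.zSub X hws := by
  obtain ⟨y, hy, hy', c, hc, hc0, hyc⟩ := h.exists_aniso
    ((h.ok.inv_pp hw').inf (h.ok.inv_pp he)) (by
      have := finrank_inf_pp_ge (P := P) ⊤ w
      have := finrank_inf_pp_ge (P := P) (P.pp w) e
      have := h.six
      rw [top_inf_eq, finrank_top] at *
      omega)
  have hyw : P.B y w = 0 := hy.1
  have hye : P.B y e = 0 := hy.2
  have key : ∀ t ∈ F₀, (-(2 * c) * (t * t) * P.B z e) • e ∈ P.zSub X hws := by
    intro t ht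
    have h1 : P.B (t • y) e = 0 := by simp [hye]
    have h2 : P.Val (t • y) (t * t * c) := val_congr (P.val_smul t hyc) (by rw [h.σ0 t ht])
    have h3 := h.mem e _ _ he (RatStr.τ_smul_of_mem ht hy') (F₀.mul_mem (F₀.mul_mem ht ht) hc)
      hes h1 h2
    have h4 : P.B w (t • y) = 0 := by simp [P.B_symm hyw]
    have h5 := eich_sub_mem_zSub (eich_sub_mem_zSub hz hes h1 h2 h3 (P.B_symm hew) h4) hes h1 h2 h3
      (P.B_symm hew) h4
    convert h5 using 1
    simp only [map_sub, map_smul, LinearMap.sub_apply, LinearMap.smul_apply, B_smul_right, hye,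
      P.B_symm hye, sing_B hes, h.B_self hc hyc, h.σ0 t ht, h.ε, smul_eq_mul]
    module
  have h2 : (2 : F) ∈ F₀ := by simp
  obtain ⟨s, t, hst⟩ := exists_sq_sub_sq (⟨a / -(2 * c), F₀.div_mem ha
    (F₀.neg_mem (F₀.mul_mem h2 hc))⟩ : F₀)
  have h3 : a / -(2 * c) = s * s - t * t := congrArg Subtype.val hst
  convert AddSubgroup.sub_mem _ (key s s.2) (key t t.2) using 1
  rw [← sub_smul, ← sub_mul, ← mul_sub, ← h3,
    mul_div_cancel₀ _ (neg_ne_zero.2 (mul_ne_zero h.two hc0))]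

theorem smul_mem_zSub {w e : V} {ξ : F} (hws : P.Val w 0) (hw' : R.τ w = w) (h0 : w ≠ 0)
    (he : R.τ e = e) (hew : P.B e w = 0) (hew' : e ∉ F ∙ w)
    (hξ : ∀ a ∈ F₀, (a * ξ) • e ∈ P.zSub X hws) {x : V} (hx : R.τ x = x)
    (hxw : P.B x w = 0) : ξ • x ∈ P.zSub X hws := by
  let N : Submodule F₀ R.V₀ :=
    { carrier := {x | P.B x w = 0 ∧ ∀ a : F₀, ξ • ((a • x : R.V₀) : V) ∈ P.zSub X hws}
      zero_mem' := ⟨by simp, fun a => by simp⟩
      add_mem' := by
        rintro x y ⟨h1, h2⟩ ⟨h3, h4⟩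
        refine ⟨by simp [h1, h3], fun a => ?_⟩
        rw [smul_add, Submodule.coe_add, smul_add]
        exact AddSubgroup.add_mem _ (h2 a) (h4 a)
      smul_mem' := by
        rintro b x ⟨h1, h2⟩
        exact ⟨by simp [Subfield.smul_def, h1], fun a => by rw [smul_smul]; exact h2 _⟩ }
  have hN : h.ok.restrict.EInv (h.ok.restrict.pp ⟨w, hw'⟩) N := by
    rintro e he y hy c h1 h2 h3 x ⟨h4, h5⟩
    have h6 := h.ok.restrict_B_eq_zero.1 h2
    have h7 : eichE (P := P) h1 h6 h3 w = (1 : F) • w := by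
      rw [one_smul]
      exact eich_fix _ (P.B_symm (h.ok.restrict_B_eq_zero.1 he))
        (P.B_symm (h.ok.restrict_B_eq_zero.1 hy))
    refine ⟨?_, fun a => ?_⟩
    · have := Iso.B (eichE_mem_Iso (P := P) h1 h6 h3) x w
      rw [h7, one_smul, h4] at this
      exact this
    · have := map_mem_zSub hws ((h.mem e y c e.2 y.2 c.2 h1 h6 h3).mem fun _ => rfl)
        (eichE_mem_Iso (P := P) h1 h6 h3) one_ne_zero h7 (h5 a)
      rwa [map_one, one_smul, map_smul, Submodule.coe_smul, Subfield.smul_def, map_smul] at this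
  have hd1 := finrank_pp (P := h.ok.restrict) (u := ⟨w, hw'⟩)
    (fun h => h0 (congrArg Subtype.val h))
  have hd2 := finrank_pp_inf_perp_le (P := h.ok.restrict) ⟨w, hw'⟩
  have hd3 := R.le_finrank_V₀
  have hd4 := h.six
  have hle := hN.le h.wild (z := ⟨e, he⟩) ⟨hew, fun a => ?_⟩ ?_ (by omega) (by omega)
  · simpa using (hle (show (⟨x, hx⟩ : R.V₀) ∈ h.ok.restrict.pp ⟨w, hw'⟩ from
      h.ok.restrict_B_eq_zero.2 hxw)).2 1
  · rw [Submodule.coe_smul, Subfield.smul_def, smul_smul, mul_comm]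
    exact hξ a a.2
  · rw [perp_pp, Submodule.mem_span_singleton]
    rintro ⟨a, ha⟩
    exact hew' (Submodule.mem_span_singleton.2 ⟨a, congrArg Subtype.val ha⟩)

omit h in
variable (P R X) in
/-- `ξ` times every rational vector occurs in the Eichler transformations of `X`. -/
def Good (ξ : F) : Prop :=
  ∀ (v : V) (hvs : P.Val v 0), R.τ v = v → ∀ x, R.τ x = x → P.B x v = 0 → ξ • x ∈ P.zSub X hvs

theorem good_of {w : V} {ξ : F} (hws : P.Val w 0) (hw' : R.τ w = w) (h0 : w ≠ 0)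
    (hξ : ∀ x, R.τ x = x → P.B x w = 0 → ξ • x ∈ P.zSub X hws) : Good P R X ξ := by
  intro v hvs hv x hx hxv
  by_cases hv0 : v = 0
  · subst hv0
    obtain ⟨c, hc⟩ := P.val_ex (ξ • x)
    exact ⟨by simp, c, hc, Has.id.congr fun y => by simp [eich]⟩
  have := R.le_finrank_V₀
  have := h.six
  obtain ⟨g₀, hg₀, hgw⟩ := H1.Small.E_trans h.wild (by omega) (by omega) (v := ⟨w, hw'⟩)
    (v' := ⟨v, hv⟩) (c := 0) hws hvs (fun h => h0 (congrArg Subtype.val h))
    (fun h => hv0 (congrArg Subtype.val h))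
  obtain ⟨g, h1, h2, h3⟩ := h.ok.exists_lift h.mem hg₀
  have h4 : g w = v := by rw [h3 ⟨w, hw'⟩, hgw]
  have h5 : g (g₀.symm ⟨x, hx⟩ : R.V₀) = x := by rw [h3, g₀.apply_symm_apply]
  have := map_mem_zSub hvs h1 h2 one_ne_zero (by rw [one_smul, h4])
    (hξ _ (g₀.symm ⟨x, hx⟩).2 (by rw [← Iso.B h2, h4, h5, hxv]))
  rwa [map_one, one_smul, map_smul, h5] at this

theorem good_B {w z e : V} {hws : P.Val w 0} (hw' : R.τ w = w) (h0 : w ≠ 0)
    (hz : z ∈ P.zSub X hws) (he : R.τ e = e) (hes : P.Val e 0) (hew : P.B e w = 0)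
    (hze : P.B z e ≠ 0) : Good P R X (P.B z e) :=
  h.good_of hws hw' h0 fun _ hx hxw => h.smul_mem_zSub hws hw' h0 he hew (fun h1 => by
    obtain ⟨a, rfl⟩ := Submodule.mem_span_singleton.1 h1
    exact hze (by simp [hz.1])) (fun _ ha => h.sing_mem_zSub hw' hz he hes hew ha) hx hxw

theorem good_rat {a : F} (ha : a ∈ F₀) : Good P R X a := fun _ hvs h1 _ h2 h3 =>
  h.ok.mem_zSub_of_rat h.mem hvs h1 (RatStr.τ_smul_of_mem ha h2) (by simp [h3])

omit h in
theorem Good.add {a b : F} (ha : Good P R X a) (hb : Good P R X b) : Good P R X (a + b) :=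
  fun v hvs h1 x h2 h3 => by
    rw [add_smul]
    exact AddSubgroup.add_mem _ (ha v hvs h1 x h2 h3) (hb v hvs h1 x h2 h3)

omit h in
theorem Good.mul_rat {a b : F} (ha : Good P R X a) (hb : b ∈ F₀) : Good P R X (a * b) :=
  fun v hvs h1 x h2 h3 => by
    rw [mul_smul]
    exact ha v hvs h1 _ (RatStr.τ_smul_of_mem hb h2) (by simp [h3])

theorem exists_sing_ne : ∃ w, R.τ w = w ∧ P.Val w 0 ∧ w ≠ 0 := by
  obtain ⟨w, -, hw1, hws, h0⟩ := h.ok.exists_sing h.wild RatStr.inv_top ⊥ (by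
    have := h.six
    rw [finrank_top, finrank_bot]; omega)
  exact ⟨w, hw1, hws, by simpa using h0⟩

theorem good_mul (hn : 7 ≤ finrank F V) {a b : F} (ha : Good P R X a) (hb : Good P R X b) :
    Good P R X (a * b) := by
  by_cases hab : a * b = 0
  · rw [hab]; exact h.good_rat F₀.zero_mem
  obtain ⟨w, hw', hws, h0⟩ := h.exists_sing_ne
  have hd1 := finrank_pp (P := P) h0
  obtain ⟨e, he, he1, he2, he3⟩ := h.ok.exists_sing h.wild (h.ok.inv_pp hw') (F ∙ w) (by
    have := finrank_span_singleton_le (F := F) w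
    omega)
  obtain ⟨u, hu, hu1, hu2⟩ := RatOK.exists_B_ne (h.ok.inv_pp hw') (z := e) (by rwa [perp_pp])
  have hinv := h.ok.inv_perp ((RatStr.inv_span' hw').sup (RatStr.inv_span' he1))
  obtain ⟨e', he', he'1, he'2, he'3⟩ := h.ok.exists_sing h.wild hinv ((F ∙ w) ⊔ F ∙ e) (by
    have := finrank_span_pair_le (F := F) w e
    have := P.finrank_perp ((F ∙ w) ⊔ F ∙ e)
    omega)
  obtain ⟨y, hy, hy1, hy2⟩ := RatOK.exists_B_ne hinv (z := e') (by rwa [perp_perp])
  simp only [perp_sup, perp_span_singleton, Submodule.mem_inf, mem_pp] at he' hy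
  obtain ⟨h4, c, hc, h5⟩ := hb e he2 he1 y hy1 hy.2
  have h6 := eich_sub_mem_zSub (ha w hws hw' u hu1 hu) he2 h4 hc h5 (P.B_symm he)
    (by simp [P.B_symm hy.1])
  have h7 := h.good_B hw' h0 h6 he'1 he'2 he'.1
  simp only [map_sub, map_smul, LinearMap.sub_apply, LinearMap.smul_apply, P.B_symm he'.2,
    smul_eq_mul, mul_zero, sub_zero] at h7
  have h8 := (h7 (by
    rw [mul_mul_mul_comm]; exact mul_ne_zero hab (mul_ne_zero hu2 hy2))).mul_rat
    (F₀.inv_mem (F₀.mul_mem (h.ok.B_mem u e hu1 he1) (h.ok.B_mem y e' hy1 he'1)))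
  rwa [mul_mul_mul_comm, mul_inv_cancel_right₀ (mul_ne_zero hu2 hy2)] at h8

theorem E_le_of_good (hall : ∀ a, Good P R X a) : P.E ≤ X := by
  have hn := h.six
  have h1 : ∀ (v : V) (hvs : P.Val v 0), R.τ v = v → ∀ x, P.B x v = 0 → x ∈ P.zSub X hvs := by
    intro v hvs hv x hx
    have : P.pp v ≤ P.eSub X hvs := (h.ok.inv_pp hv).le fun y hy hy' =>
      ⟨hy, fun a => (hall a v hvs hv y hy' hy).2⟩
    obtain ⟨c, hc, hc'⟩ := (this hx).2 1
    rw [one_smul] at hc hc'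
    exact ⟨hx, c, hc, hc'⟩
  have hfull : ∀ v, P.Val v 0 → R.τ v = v → P.FullA X v := by
    intro v hvs hv x c hx hc
    obtain ⟨-, c', hc', h2⟩ := h1 v hvs hv x hx
    obtain ⟨a, h4⟩ := h.lam _ (val_sub_val hc hc')
    exact (h2.add (EI_lam_min hvs (by omega) (h1 v hvs hv) a) hvs hx (by simp)).congr (by simp)
      (by simp only [map_zero]; linear_combination -h4)
  obtain ⟨w, hw', hws, h0⟩ := h.exists_sing_ne
  obtain ⟨e, -, he1, he2, he3⟩ := h.ok.exists_sing_B_ne h.wild RatStr.inv_top (z := w)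
    (by rw [perp_top, inf_bot_eq, finrank_bot, finrank_top]; omega) (by simpa [perp_top] using h0)
  exact E_le_of_fullA hws he2 (hfull w hws hw') (hfull e he2 he1) he3

theorem exists_good {w z : V} (hws : P.Val w 0) (hw' : R.τ w = w) (h0 : w ≠ 0)
    (hz : z ∈ P.zSub X hws) (hz' : R.τ z - z ∉ F ∙ w) : ∃ ξ, ξ ∉ F₀ ∧ Good P R X ξ := by
  have hd1 := finrank_pp (P := P) h0
  have hd2 := finrank_pp_inf_perp_le (P := P) w
  have hn := h.six
  obtain ⟨e, he, he1, he2, he3⟩ : ∃ e ∈ P.pp w, R.τ e = e ∧ P.Val e 0 ∧ P.B z e ∉ F₀ := by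
    by_contra! hcon
    let N : Submodule F₀ V :=
      { carrier := {e | P.B z e ∈ F₀}
        zero_mem' := by simp
        add_mem' := fun ha hb => by simpa using F₀.add_mem ha hb
        smul_mem' := fun a e he => by
          simpa [Subfield.smul_def] using F₀.mul_mem (h.ok.σ_mem a.2) he }
    exact hz' (h.ok.τ_sub_mem hw' fun y hy hyw =>
      h.ok.span_sing h.wild (h.ok.inv_pp hw') (by omega) (N := N) hcon hyw hy)
  exact ⟨_, he3, h.good_B hw' h0 hz he1 he2 he fun e0 => he3 (e0 ▸ F₀.zero_mem)⟩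

theorem E_le_of_two (h2 : ∀ ξ, ξ ∉ F₀ → ∀ k, ∃ a ∈ F₀, ∃ b ∈ F₀, k = a + ξ * b) {ξ : F}
    (hξ : ξ ∉ F₀) (hg : Good P R X ξ) : P.E ≤ X :=
  h.E_le_of_good fun k => by
    obtain ⟨a, ha, b, hb, rfl⟩ := h2 ξ hξ k
    exact (h.good_rat ha).add (hg.mul_rat hb)

theorem E_le_of_seven (hn : 7 ≤ finrank F V)
    (hsimple : ∀ S : Subring F, (∀ a ∈ F₀, a ∈ S) → (∃ ξ ∈ S, ξ ∉ F₀) → S = ⊤) {ξ : F}
    (hξ : ξ ∉ F₀) (hg : Good P R X ξ) : P.E ≤ X := by
  let S : Subring F :=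
    { carrier := {ξ | Good P R X ξ}
      zero_mem' := h.good_rat F₀.zero_mem
      one_mem' := h.good_rat F₀.one_mem
      add_mem' := Good.add
      neg_mem' := fun ha => by simpa using Good.mul_rat ha (F₀.neg_mem F₀.one_mem)
      mul_mem' := h.good_mul hn }
  have hS := hsimple S (fun a ha => h.good_rat ha) ⟨ξ, hg, hξ⟩
  exact h.E_le_of_good fun a => (show a ∈ S by simp [hS])

/-- an element mapping rational singular points to rational points normalises the structure -/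
theorem mem_N {g : V ≃ₗ[F] V} (hg : ∀ w, R.τ w = w → P.Val w 0 → R.τ (g w) ∈ F ∙ g w) :
    g ∈ R.N := by
  have hn := h.six
  have h1 : ∀ w, R.τ w = w → P.Val w 0 → ∃ c : F, R.τ (g w) = c • g w := fun w h1 h2 => by
    obtain ⟨c, hc⟩ := Submodule.mem_span_singleton.1 (hg w h1 h2)
    exact ⟨c, hc.symm⟩
  choose! c hc using h1
  have h2 : ∀ x z, R.τ x = x → P.Val x 0 → x ≠ 0 → R.τ z = z → P.Val z 0 → P.B x z = 0 →
      z ∉ F ∙ x → c x = c z := by
    intro x z hx hxs hx0 hz hzs hxz hzx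
    have h5 := hc (x + z) (by rw [map_add, hx, hz]) (by simpa using val_add_orth hxs hzs hxz)
    rw [map_add, map_add, hc x hx hxs, hc z hz hzs] at h5
    have h7 : (c z - c (x + z)) • z = (c (x + z) - c x) • x := g.injective (by
      rw [map_smul, map_smul]; linear_combination (norm := module) h5)
    have h8 : c z - c (x + z) = 0 := by
      by_contra h
      apply hzx
      rw [← Submodule.smul_mem_iff _ h, h7]
      exact Submodule.smul_mem _ _ (Submodule.mem_span_singleton_self x)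
    rw [h8, zero_smul, eq_comm, smul_eq_zero, or_iff_left hx0] at h7
    linear_combination -h7 - h8
  have h3 : ∀ x z, R.τ x = x → P.Val x 0 → x ≠ 0 → R.τ z = z → P.Val z 0 → z ≠ 0 → P.B x z = 0 →
      c x = c z := by
    intro x z hx hxs hx0 hz hzs hz0 hxz
    by_cases hzx : z ∈ F ∙ x
    · obtain ⟨y, h4, h5, h6, h7⟩ := h.ok.exists_sing h.wild (h.ok.inv_pp hx) (F ∙ x) (by
        have := finrank_pp (P := P) hx0
        have := finrank_span_singleton_le (F := F) x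
        omega)
      obtain ⟨a, rfl⟩ := Submodule.mem_span_singleton.1 hzx
      rw [h2 x y hx hxs hx0 h5 h6 (P.B_symm h4) h7, h2 _ y hz hzs hz0 h5 h6
        (by simp [P.B_symm h4]) fun h8 => h7 ((Submodule.span_singleton_le_iff_mem _ _).2 hzx h8)]
    · exact h2 x z hx hxs hx0 hz hzs hxz hzx
  obtain ⟨w, hw', hws, h0⟩ := h.exists_sing_ne
  refine RatStr.mem_N_of (c := c w) fun x hx => ?_
  let N : Submodule F₀ V :=
    { carrier := {x | R.τ (g x) = c w • g x}
      zero_mem' := by simp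
      add_mem' := fun {x y} hx hy => by
        simp only [Set.mem_setOf_eq, map_add, smul_add] at *; rw [hx, hy]
      smul_mem' := fun a x hx => by
        simp only [Set.mem_setOf_eq, Subfield.smul_def, map_smul, RatStr.τ_smul,
          R.θ_of_mem a.2] at *
        rw [hx, smul_comm] }
  refine h.ok.span_sing h.wild RatStr.inv_top
    (by rw [perp_top, inf_bot_eq, finrank_bot, finrank_top]; omega) (N := N)
    (fun e _ h4 h5 => ?_) trivial hx
  by_cases he0 : e = 0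
  · simp [he0]
  obtain ⟨z, h6, h7, h8, h9⟩ := h.ok.exists_sing h.wild ((h.ok.inv_pp hw').inf (h.ok.inv_pp h4)) ⊥
    (by
      have := finrank_pp (P := P) h0
      have := finrank_inf_pp_ge (P := P) (P.pp w) e
      rw [finrank_bot]; omega)
  rw [Submodule.mem_bot] at h9
  show R.τ (g e) = c w • g e
  rw [h3 w z hw' hws h0 h7 h8 h9 (P.B_symm h6.1), ← h3 e z h4 h5 he0 h7 h8 h9 (P.B_symm h6.2)]
  exact hc e h4 h5

theorem exists_E_notMem (hne : ∃ ξ, ξ ∉ F₀) : ∃ g ∈ P.E, g ∉ R.N := by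
  have hn := h.six
  obtain ⟨ξ, hξ⟩ := hne
  obtain ⟨w, hw1, hws, h0⟩ := h.exists_sing_ne
  obtain ⟨y, hy, hy1, hy2⟩ := (h.ok.inv_pp hw1).exists_notMem_of_lt (N := F ∙ w) (by
    have := finrank_pp (P := P) h0
    have := finrank_span_singleton_le (F := F) w
    omega)
  obtain ⟨x, hx, hx1, hx2⟩ := RatOK.exists_B_ne (h.ok.inv_pp hw1) (z := y) (by rwa [perp_pp])
  obtain ⟨c, hc⟩ := P.val_ex (ξ • y)
  have h1 : P.B (ξ • y) w = 0 := by simp [show P.B y w = 0 from hy]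
  refine ⟨_, eichE_mem_E hws h1 hc, fun ⟨t, ht⟩ => hξ ?_⟩
  have h2 := ht w
  rw [hw1, eichE_apply, eich_fix c (sing_B hws) (P.B_symm h1), hw1] at h2
  have h3 : (t : F) = 1 := smul_left_injective F h0 (by simpa using h2.symm)
  have h4 := ht x
  simp only [hx1, h3, one_smul, eichE_apply, eich, show P.B x w = 0 from hx, zero_smul, add_zero,
    mul_zero, map_sub, RatStr.τ_smul, hw1, sub_right_inj] at h4
  have h5 := (R.θ_iff _).1 (smul_left_injective F h0 h4)
  rw [← P.σσ ξ]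
  refine h.ok.σ_mem ?_
  have := F₀.div_mem h5 (h.ok.B_mem x y hx1 hy1)
  rwa [h.ε, one_mul, B_smul_right, mul_div_cancel_right₀ _ hx2] at this

variable (hL : ∀ (w : V) (hws : P.Val w 0), R.τ w = w → w ≠ 0 → ∀ z ∈ P.zSub X hws,
  R.τ z - z ∈ F ∙ w)
include hL

theorem τ_mem_of_perp {g : V ≃ₗ[F] V} (hg : g ∈ X) {w₀ w : V}
    (hw₀s : P.Val w₀ 0) (hw₀ : R.τ w₀ = w₀) (hws : P.Val w 0) (hw1 : R.τ w = w)
    (h0 : w ≠ 0) (hxw : P.B (g w₀) w = 0) (hx : g w₀ ∉ F ∙ w)
    (hμ : ∀ y ∈ X, ∀ μ : F, μ ≠ 0 → y w = μ • w → (∀ v, P.B v w = 0 → P.B v (g w₀) = 0 →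
      y v - v ∈ (F ∙ w) ⊔ F ∙ g w₀) → μ ∈ F₀) :
    R.τ (g w₀) ∈ (F ∙ w) ⊔ F ∙ g w₀ := by
  set x := g w₀ with hxdef
  have hxs : P.Val x 0 := Iso.val (h.iso hg) hw₀s
  set L := (F ∙ w) ⊔ F ∙ x with hLdef
  have hwL : w ∈ L := Submodule.mem_sup_left (Submodule.mem_span_singleton_self w)
  have hxL : x ∈ L := Submodule.mem_sup_right (Submodule.mem_span_singleton_self x)
  have hperp : ∀ v, v ∈ P.perp L ↔ P.B v w = 0 ∧ P.B v x = 0 := fun v => by
    simp only [hLdef, perp_sup, perp_span_singleton, Submodule.mem_inf, mem_pp]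
  have hLL : L ≤ P.perp L := by
    simp only [hLdef, sup_le_iff, Submodule.span_singleton_le_iff_mem]
    exact ⟨(hperp w).2 ⟨sing_B hws, P.B_symm hxw⟩, (hperp x).2 ⟨hxw, sing_B hxs⟩⟩
  let Y : Subgroup (V ≃ₗ[F] V) :=
    { carrier := {y | y ∈ X ∧ y ∈ stab (P.perp L) ∧ ∀ v ∈ P.perp L, y v - v ∈ L}
      one_mem' := ⟨X.one_mem, Subgroup.one_mem _, by simp⟩
      mul_mem' := fun {a b} ha hb => ⟨X.mul_mem ha.1 hb.1, Subgroup.mul_mem _ ha.2.1 hb.2.1,
        fun v hv => by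
          simpa using L.add_mem (ha.2.2 (b v) ((mem_stab.1 hb.2.1 v).1 hv)) (hb.2.2 v hv)⟩
      inv_mem' := fun {a} ha => ⟨X.inv_mem ha.1, Subgroup.inv_mem _ ha.2.1, fun v hv => by
        have := L.neg_mem (ha.2.2 (a⁻¹ v) ((mem_stab.1 (Subgroup.inv_mem _ ha.2.1) v).1 hv))
        rwa [show a (a⁻¹ v) = v from a.apply_symm_apply v, neg_sub] at this⟩ }
  have hY : ∀ {e y : V} {c : F} (he : P.Val e 0) (hy : P.B y e = 0) (hc : P.Val y c), e ∈ L →
      P.EI X e y c → eichE he hy hc ∈ Y := by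
    intro e y c he hy hc heL hE
    have : ∀ v ∈ P.perp L, eichE he hy hc v - v ∈ L := fun v hv => by
      simpa [eich, hv e heL] using L.smul_mem _ heL
    exact ⟨hE.mem fun _ => rfl, mem_stab_of_forall fun v hv => by
      simpa using Submodule.add_mem _ (hLL (this v hv)) hv, this⟩
  obtain ⟨z₀, hz₀, hz₀1, hz₀2⟩ := RatOK.exists_B_ne (h.ok.inv_pp hw₀) (z := g.symm w) (by
    rw [perp_pp]
    intro h
    obtain ⟨a, ha⟩ := Submodule.mem_span_singleton.1 h
    refine notMem_span_swap h0 hx (Submodule.mem_span_singleton.2 ⟨a, ?_⟩)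
    rw [hxdef, ← map_smul, ha, g.apply_symm_apply])
  obtain ⟨h1, c₁, hc₁, h2⟩ := map_mem_zSub hxs hg (h.iso hg) one_ne_zero (by rw [one_smul])
    (h.ok.mem_zSub_of_rat h.mem hw₀s hw₀ hz₀1 hz₀)
  rw [map_one, one_smul] at h1 hc₁ h2
  have h3 : P.B w (g z₀) ≠ 0 := by
    rw [← Iso.B (h.iso hg), g.apply_symm_apply] at hz₀2
    exact P.B_ne_symm hz₀2
  obtain ⟨z₁, hz₁, hz₁1, hz₁2⟩ := RatOK.exists_B_ne (h.ok.inv_pp hw1) (z := x) (by rwa [perp_pp])
  have hβ : -(P.ε * P.B x z₁) ≠ 0 := by simpa using P.B_ne_symm hz₁2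
  have key : ∀ z, R.τ z = z → P.B z w = 0 → -(P.ε * P.B x z) / -(P.ε * P.B x z₁) ∈ F₀ := by
    intro z hz hzw
    refine div_mem_of_plane F₀ (Y := Y) h0 hx
      (fun y hy => by simpa using L.add_mem (hy.2.2 w (hLL hwL)) hwL) (hY hxs h1 hc₁ hxL h2) ?_
      (S := {c | ∃ z, R.τ z = z ∧ P.B z w = 0 ∧ -(P.ε * P.B x z) = c}) ?_ ?_ ?_
      ⟨z₁, hz₁1, hz₁, rfl⟩ hβ ⟨z, hz, hzw, rfl⟩
    · simp only [eichE_apply, eich, P.B_symm hxw, zero_smul, add_zero, mul_zero]
      rwa [Submodule.sub_mem_iff_right _ (Submodule.mem_span_singleton_self w),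
        Submodule.smul_mem_iff _ (by simpa using h3)]
    · rintro _ ⟨z, h1, h2, rfl⟩
      obtain ⟨-, c, hc, hc'⟩ := h.ok.mem_zSub_of_rat h.mem hws hw1 h1 h2
      exact ⟨_, hY hws h2 hc hwL hc', eich_fix c (sing_B hws) (P.B_symm h2), by
        simp [eich, hxw, sub_eq_add_neg]⟩
    · rintro a ha _ ⟨z, h1, h2, rfl⟩
      exact ⟨P.σ a • z, RatStr.τ_smul_of_mem (h.ok.σ_mem ha) h1, by simp [h2], by simp; ring⟩
    · intro y hy μ hμ'
      refine hμ y hy.1 μ ?_ hμ' fun v h4 h5 => hy.2.2 v ((hperp v).2 ⟨h4, h5⟩)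
      rintro rfl
      exact h0 (by simpa using hμ')
  have h7 := h.ok.τ_sub_mem hw1 (z := (P.B x z₁)⁻¹ • x) fun y hy hyw => by
    have := key y hy hyw
    rw [neg_div_neg_eq, mul_div_mul_left _ _ P.ε_ne_zero] at this
    simpa [div_eq_inv_mul] using this
  have h8 := L.add_mem (Submodule.mem_sup_left h7) (L.smul_mem (P.B x z₁)⁻¹ hxL)
  rwa [sub_add_cancel, RatStr.τ_smul, L.smul_mem_iff (by simpa using P.B_ne_symm hz₁2)] at h8

end Ctx

end Cfsg.Agent.H5.SubO
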