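import Cfsg.Agent.H5.SubO

/-!
Subfield subgroups of `Ω_n(q)` for `n ≥ 7` and `q` odd.
-/

set_option autoImplicit false
set_option linter.unusedSectionVars false

namespace Cfsg.Agent.H5.SubO

open Module Cfsg.Agent.H7 Cfsg.Agent.H7.Polar

variable {F : Type*} [Field F] {V : Type*} [AddCommGroup V] [Module F V]
variable {F₀ : Subfield F}

theorem mem_of_rank' [Finite F] [FiniteDimensional F V] {R : RatStr F₀ V} {M D : Submodule F V}
    {w : V} (hw : R.τ w = w) (hM : R.Inv M) (hd : 2 * finrank F D + 1 < finrank F M) {ν : F}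
    (h : ∀ z ∈ M, R.τ z = z → ∃ δ ∈ (F ∙ w) ⊔ D, R.τ (ν • (z + δ)) - ν • (z + δ) ∈ F ∙ w) :
    ν ∈ F₀ := by
  by_contra hν
  rw [← R.θ_iff, ← sub_eq_zero] at hν
  obtain ⟨D', h1, h2⟩ := R.exists_τ_sub D
  have h3 : M ≤ (D ⊔ D') ⊔ F ∙ w := by
    refine hM.le fun z hz hz' => ?_
    obtain ⟨δ, hδ, h3⟩ := h z hz hz'
    obtain ⟨u, hu, δ', hδ', rfl⟩ := Submodule.mem_sup.1 hδ
    rw [← Submodule.smul_mem_iff _ hν]
    have : (R.θ ν - ν) • z = (ν • δ' - R.θ ν • R.τ δ') +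
        (R.τ (ν • (z + (u + δ'))) - ν • (z + (u + δ')) + ν • u - R.θ ν • R.τ u) := by
      rw [R.τ_smul, map_add, map_add, hz']; module
    rw [this]
    exact Submodule.add_mem_sup (Submodule.sub_mem _
      (Submodule.mem_sup_left (D.smul_mem _ hδ')) (Submodule.mem_sup_right (D'.smul_mem _ (h2 _ hδ'))))
      (Submodule.sub_mem _ (Submodule.add_mem _ h3 (Submodule.smul_mem _ _ hu))
        (Submodule.smul_mem _ _ (RatStr.inv_span' hw u hu)))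
  have := Submodule.finrank_mono h3
  have := Submodule.finrank_add_le_finrank_add_finrank D D'
  have := finrank_sup_span_le (D ⊔ D') w
  omega

namespace Ctx

variable [Finite F] [FiniteDimensional F V] {P : Polar F V} {R : RatStr F₀ V}
  {X : Subgroup (V ≃ₗ[F] V)} (h : Ctx P R X)
  (hL : ∀ (w : V) (hws : P.Val w 0), R.τ w = w → w ≠ 0 → ∀ z ∈ P.zSub X hws,
    R.τ z - z ∈ F ∙ w)
include h hL

theorem τ_mem_seven (hn : 7 ≤ finrank F V) {g : V ≃ₗ[F] V} (hg : g ∈ X) {w₀ w : V}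
    (hw₀s : P.Val w₀ 0) (hw₀ : R.τ w₀ = w₀) (hws : P.Val w 0) (hw1 : R.τ w = w)
    (h0 : w ≠ 0) (hxw : P.B (g w₀) w = 0) (hx : g w₀ ∉ F ∙ w) :
    R.τ (g w₀) ∈ (F ∙ w) ⊔ F ∙ g w₀ := by
  refine h.τ_mem_of_perp hL hg hw₀s hw₀ hws hw1 h0 hxw hx fun y hy μ hμ0 hμ hv => ?_
  obtain ⟨z₁, hz₁, -, hz₁2⟩ := RatOK.exists_B_ne (h.ok.inv_pp hw1) (z := g w₀) (by rwa [perp_pp])
  rw [← P.σσ μ]
  refine h.ok.σ_mem (mem_of_rank' hw1 (h.ok.inv_pp hw1) (D := (F ∙ g w₀) ⊔ F ∙ (y z₁ - z₁)) (by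
    have := finrank_pp (P := P) h0
    have := finrank_span_pair_le (F := F) (g w₀) (y z₁ - z₁)
    omega) fun z hz hz' => ⟨y z - z, ?_, ?_⟩)
  · have h4 := hv (z - (P.B z (g w₀) / P.B z₁ (g w₀)) • z₁)
      (by simp [show P.B z w = 0 from hz, show P.B z₁ w = 0 from hz₁]) (by simp [hz₁2])
    rw [← sup_assoc]
    refine mem_sup_span_singleton.2 ⟨_, h4, P.B z (g w₀) / P.B z₁ (g w₀), ?_⟩
    simp only [map_sub, map_smul]
    module
  · rw [add_sub_cancel]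
    exact h.ok.τ_map_sub_mem h.mem h.iso hL hy hws hw1 hws hw1 h0 hμ0 hμ hz' hz

theorem τ_mem_seven' (hn : 7 ≤ finrank F V) {g : V ≃ₗ[F] V} (hg : g ∈ X) {w₀ w : V}
    (hw₀s : P.Val w₀ 0) (hw₀ : R.τ w₀ = w₀) (h00 : w₀ ≠ 0) (hws : P.Val w 0) (hw1 : R.τ w = w)
    (h0 : w ≠ 0) (hxw : P.B (g w₀) w = 0) : R.τ (g w₀) ∈ F ∙ g w₀ := by
  have hx0 : g w₀ ≠ 0 := by simpa using h00
  by_cases hx : g w₀ ∈ F ∙ w
  · have h1 := RatStr.inv_span' hw1 _ hx
    obtain ⟨a, ha⟩ := Submodule.mem_span_singleton.1 hx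
    rwa [← ha, Submodule.span_singleton_smul_eq (IsUnit.mk0 a (by
      rintro rfl; exact hx0 (by simpa using ha.symm))), ha]
  have h1 := h.τ_mem_seven hL hn hg hw₀s hw₀ hws hw1 h0 hxw hx
  obtain ⟨w', h2, h3, h4, h5⟩ := h.ok.exists_sing h.wild
    (h.ok.inv_perp ((RatStr.inv_span' hw1).sup_span h1)) ((F ∙ w) ⊔ F ∙ g w₀) (by
      have := finrank_span_pair_le (F := F) w (g w₀)
      have := P.finrank_perp ((F ∙ w) ⊔ F ∙ g w₀)
      omega)
  exact mem_span_of_two h1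
    (h.τ_mem_seven hL hn hg hw₀s hw₀ h4 h3 (by rintro rfl; simp at h5)
      (mem_perp'.1 h2 _ (Submodule.mem_sup_right (Submodule.mem_span_singleton_self _)))
      (notMem_span_swap hx0 fun h => h5 (Submodule.mem_sup_right h))) h5

theorem τ_mem_of_orth (hn : 7 ≤ finrank F V) (hσ : ∀ a, P.σ a = a) {g : V ≃ₗ[F] V}
    (hg : g ∈ X) {w₀ : V} (hw₀s : P.Val w₀ 0) (hw₀ : R.τ w₀ = w₀) (h00 : w₀ ≠ 0) :
    R.τ (g w₀) ∈ F ∙ g w₀ := by
  have hg' := h.iso hg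
  have hε := h.ε
  obtain ⟨a, ha1, has, ha0⟩ := h.exists_sing_ne
  by_cases hκ : P.B a (g w₀) = 0
  · exact h.τ_mem_seven' hL hn hg hw₀s hw₀ h00 has ha1 ha0 (P.B_symm hκ)
  have hd1 := finrank_pp (P := P) h00
  obtain ⟨ζ₁, h1, h2, h3, h4⟩ := h.ok.exists_sing h.wild (h.ok.inv_pp hw₀) (F ∙ w₀) (by
    have := finrank_span_singleton_le (F := F) w₀
    omega)
  obtain ⟨ζ₂, h5, h6, h7, h8⟩ := h.ok.exists_sing h.wild ((h.ok.inv_pp hw₀).inf (h.ok.inv_pp h2))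
    ((F ∙ w₀) ⊔ F ∙ ζ₁) (by
      have := finrank_span_pair_le (F := F) w₀ ζ₁
      have := finrank_inf_pp_ge (P := P) (P.pp w₀) ζ₁
      omega)
  rw [mem_pp] at h1
  have h9 : P.B ζ₂ w₀ = 0 := h5.1
  have h10 : P.B ζ₂ ζ₁ = 0 := h5.2
  have hsymm : ∀ x y, P.B y x = P.B x y := fun x y => by rw [P.herm, hσ, hε, one_mul]
  let y : V → V := fun ζ => g (P.B a (g w₀) • ζ - P.B a (g ζ) • w₀)
  have hyu : ∀ ζ, P.B ζ w₀ = 0 → P.B (y ζ) (g w₀) = 0 := fun ζ hζ => by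
    simp only [y, Iso.B hg']; simp [hζ, sing_B hw₀s]
  have key : ∀ ζ, R.τ ζ = ζ → P.Val ζ 0 → P.B ζ w₀ = 0 →
      ∃ c : F, R.τ (y ζ) = c • y ζ + (c - 1) • a := by
    intro ζ hζ hζs hζw
    have hE := (h.mem w₀ ζ 0 hw₀ hζ F₀.zero_mem hw₀s hζw hζs).conj hg hg'
    have h11 : P.B (g ζ) (g w₀) = 0 := by rw [Iso.B hg', hζw]
    have h12 : eichE (Iso.val hg' hw₀s) h11 (Iso.val hg' hζs) a = a + y ζ := by
      simp only [eichE_apply, eich, y, hε, map_sub, map_smul, map_zero]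
      module
    have := h.τ_mem_seven' hL hn
      (g := eichE (Iso.val hg' hw₀s) h11 (Iso.val hg' hζs)) (hE.mem fun _ => rfl) has ha1 ha0
      has ha1 ha0 (by
        rw [h12]
        simp only [y, map_add, map_sub, map_smul, LinearMap.add_apply, LinearMap.sub_apply,
          LinearMap.smul_apply, sing_B has, hsymm a, smul_eq_mul]
        ring)
    rw [h12, map_add, ha1, Submodule.mem_span_singleton] at this
    obtain ⟨c, hc⟩ := this
    exact ⟨c, by linear_combination (norm := module) -hc⟩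
  obtain ⟨c₁, hc₁⟩ := key ζ₁ h2 h3 h1
  obtain ⟨c₂, hc₂⟩ := key ζ₂ h6 h7 h9
  obtain ⟨c₃, hc₃⟩ := key (ζ₂ + ζ₁) (by simp [h2, h6]) (by simpa using val_add_orth h7 h3 h10)
    (by simp [h1, h9])
  have h11 : y (ζ₂ + ζ₁) = y ζ₂ + y ζ₁ := by simp only [y, map_add, map_sub, map_smul]; module
  rw [h11, map_add, hc₁, hc₂] at hc₃
  have h12 : c₁ + c₂ - c₃ - 1 = 0 := by
    have := congrArg (fun v => P.B v (g w₀)) hc₃
    simp only [map_add, map_smul, LinearMap.add_apply, LinearMap.smul_apply, hyu _ h1, hyu _ h9,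
      smul_eq_mul] at this
    apply mul_right_cancel₀ hκ
    linear_combination this
  have h13 : ((c₂ - c₃) * P.B a (g w₀)) • ζ₂ =
      ((c₂ - c₃) * P.B a (g ζ₂) + (c₁ - c₃) * P.B a (g ζ₁)) • w₀ +
        (-(c₁ - c₃) * P.B a (g w₀)) • ζ₁ := by
    apply g.injective
    simp only [y, map_add, map_sub, map_smul] at hc₃ ⊢
    linear_combination (norm := module) hc₃ - h12 • a
  have h14 : c₂ - c₃ = 0 := by
    by_contra h15
    apply h8
    rw [← Submodule.smul_mem_iff _ (mul_ne_zero h15 hκ), h13]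
    exact Submodule.add_mem_sup (Submodule.smul_mem _ _ (Submodule.mem_span_singleton_self _))
      (Submodule.smul_mem _ _ (Submodule.mem_span_singleton_self _))
  rw [show c₁ - 1 = 0 by linear_combination h12 - h14, zero_smul, add_zero,
    show c₁ = 1 by linear_combination h12 - h14, one_smul] at hc₁
  refine h.τ_mem_seven' hL hn hg hw₀s hw₀ h00 (w := y ζ₁) (Iso.val hg' ?_) hc₁ ?_
    (P.B_symm (hyu _ h1))
  · simpa [h1] using val_sub (sing_smul h3 (P.B a (g w₀))) (sing_smul hw₀s (P.B a (g ζ₁)))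
  · intro h15
    apply h4
    rw [← Submodule.smul_mem_iff _ hκ, sub_eq_zero.1 (g.map_eq_zero_iff.1 h15)]
    exact Submodule.smul_mem _ _ (Submodule.mem_span_singleton_self _)

end Ctx

variable [Finite F] [FiniteDimensional F V] {P : Polar F V} {R : RatStr F₀ V}

theorem ctx_of (ok : P.RatOK R) (two : (2 : F) ≠ 0) (hε : P.ε = 1) (σ0 : ∀ a ∈ F₀, P.σ a = a)
    (lam : ∀ c, P.Val 0 c → ∃ a, c = a - P.ε * P.σ a) (six : 6 ≤ finrank F V)
    {X : Subgroup (V ≃ₗ[F] V)} (hHX : R.N ⊓ P.E ≤ X) (hXE : X ≤ P.E) : Ctx P R X :=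
  ⟨ok, two, hε, σ0, lam, six, fun _ _ _ h1 h2 h3 h4 h5 h6 =>
    EI_of_mem h4 h5 h6 (hHX ⟨⟨1, fun x => by simp [ok.τ_eich h1 h2 h3]⟩, eichE_mem_E _ _ _⟩),
    hXE.trans E_le_Iso⟩

/-- Subfield subgroups of orthogonal groups in dimension at least `7`, odd characteristic. -/
theorem N_maximal_seven (ok : P.RatOK R) (two : (2 : F) ≠ 0) (hε : P.ε = 1)
    (hσ : ∀ a, P.σ a = a) (lam : ∀ c, P.Val 0 c → c = 0) (hn : 7 ≤ finrank F V)
    (hne : ∃ ξ, ξ ∉ F₀)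
    (hsimple : ∀ S : Subring F, (∀ a ∈ F₀, a ∈ S) → (∃ ξ ∈ S, ξ ∉ F₀) → S = ⊤) :
    Geo.IsMaximalIn P.E (R.N ⊓ P.E) := by
  have hc : ∀ {X : Subgroup (V ≃ₗ[F] V)}, R.N ⊓ P.E ≤ X → X ≤ P.E → Ctx P R X :=
    ctx_of ok two hε (fun a _ => hσ a) (fun c hc => ⟨0, by simp [lam c hc]⟩) (by omega)
  refine isMaximalIn_of inf_le_right ?_ fun X hHX hXE g hg hgH => ?_
  · obtain ⟨g, h1, h2⟩ := (hc inf_le_right le_rfl).exists_E_notMem hne
    exact ⟨g, h1, fun h => h2 h.1⟩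
  have h := hc hHX hXE
  by_contra hcon
  refine hgH ⟨h.mem_N fun w h1 h2 => ?_, hXE hg⟩
  by_cases h0 : w = 0
  · simp [h0]
  refine h.τ_mem_of_orth (fun w hws h1 h2 z hz => ?_) hn hσ hg h2 h1 h0
  by_contra h3
  obtain ⟨ξ, h4, h5⟩ := h.exists_good hws h1 h2 hz h3
  exact hcon (h.E_le_of_seven hn hsimple h4 h5)

open scoped MatrixGroups Matrix

theorem omegaGL_subfield_maximal {ι : Type} [Fintype ι] [DecidableEq ι] {F : Type*} [Field F]
    [Fintype F] {Q : (ι → F) → F} (hQ : Geo.IsNondegenerateQuadraticForm Q)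
    (two : (2 : F) ≠ 0) (hn : 7 ≤ Fintype.card ι) {F₀ : Subfield F} {r : ℕ} (hr : r.Prime)
    (hcard : Fintype.card F = Nat.card F₀ ^ r) (P : GL ι F) {ζ : F} (hζ : ζ ≠ 0)
    (hP : Geo.IsQuadFormRationalStructure (fun v => ζ * Q v) F₀ P) :
    Geo.IsMaximalIn (Geo.omegaGL Q) (Geo.subfieldSubgroup F₀ P ⊓ Geo.omegaGL Q) := by
  have : Nonempty ι := Fintype.card_pos_iff.1 (by omega)
  have hσ : (oPolar hQ).σ ζ = 1 * ζ := (one_mul ζ).symm
  have hval : ∀ x, (stdRat F₀ P).τ x = x → ζ * Q x ∈ F₀ := fun x hx => by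
    obtain ⟨u, hu, rfl⟩ := stdRat_fix hx
    exact hP u hu
  have h : ((oPolar hQ).scale hζ (Or.inl rfl) hσ).RatOK (stdRat F₀ P) :=
    ⟨fun _ => rfl, fun x y hx hy => by
      rw [Polar.scale_B, oPolar_B, QuadraticMap.polar, mul_sub, mul_sub]
      exact F₀.sub_mem (F₀.sub_mem (hval _ (by rw [map_add, hx, hy])) (hval _ hx)) (hval _ hy),
    fun x hx => ⟨_, hval x hx, by rw [Polar.scale_val, oPolar_val]; field_simp⟩⟩
  have := N_maximal_seven h two (one_mul _) (fun _ => rfl)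
    (fun c hc => by simpa [hζ] using oPolar_lam hQ _ hc) (by simpa using hn)
    (exists_notMem_subfield hr hcard) (subring_eq_top hr hcard)
  rw [Polar.scale_E] at this
  refine isMaximalIn_of_equiv toLE (mem_omegaGL_iff hQ (by omega)) (fun g => ?_) this
  rw [Subgroup.mem_inf, mem_omegaGL_iff hQ (by omega), mem_subfieldSubgroup_iff_N,
    Subgroup.mem_inf]

end Cfsg.Agent.H5.SubO
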