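import Cfsg.Agent.H5.SubO2
import Cfsg.Agent.H7.GenSU

/-!
The subgroups `O_n(q)` of `SU_n(q)` for `n ≥ 6` and `q` odd.
-/

set_option autoImplicit false
set_option linter.unusedSectionVars false

namespace Cfsg.Agent.H5.SubO

open Module Cfsg.Agent.H7 Cfsg.Agent.H7.Polar

variable {F : Type*} [Field F] {V : Type*} [AddCommGroup V] [Module F V]
variable {F₀ : Subfield F}

namespace Ctx

variable [Finite F] [FiniteDimensional F V] {P : Polar F V} {R : RatStr F₀ V}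
  {X : Subgroup (V ≃ₗ[F] V)} (h : Ctx P R X)
  (hL : ∀ (w : V) (hws : P.Val w 0), R.τ w = w → w ≠ 0 → ∀ z ∈ P.zSub X hws,
    R.τ z - z ∈ F ∙ w)
  (hθ : ∀ a, R.θ a = P.σ a) (hττ : ∀ x, R.τ (R.τ x) = x)
include h hL hθ hττ

theorem B_τ_self {g : V ≃ₗ[F] V} (hg : g ∈ X) {w₀ : V} (hw₀s : P.Val w₀ 0) (hw₀ : R.τ w₀ = w₀) :
    P.B (g w₀) (R.τ (g w₀)) = 0 := by
  by_contra hB
  have hn := h.six
  have hxs : P.Val (g w₀) 0 := Iso.val (h.iso hg) hw₀s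
  have hD : R.Inv ((F ∙ g w₀) ⊔ F ∙ R.τ (g w₀)) := by
    intro x hx
    obtain ⟨u, hu, b, rfl⟩ := mem_sup_span_singleton.1 hx
    obtain ⟨a, rfl⟩ := Submodule.mem_span_singleton.1 hu
    rw [map_add, RatStr.τ_smul, RatStr.τ_smul, hττ, add_comm]
    exact Submodule.add_mem_sup (Submodule.smul_mem _ _ (Submodule.mem_span_singleton_self _))
      (Submodule.smul_mem _ _ (Submodule.mem_span_singleton_self _))
  have hd1 := finrank_span_pair_le (F := F) (g w₀) (R.τ (g w₀))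
  have hd2 := P.finrank_perp ((F ∙ g w₀) ⊔ F ∙ R.τ (g w₀))
  obtain ⟨w, h1, hw1, hws, h0⟩ := h.ok.exists_sing h.wild (h.ok.inv_perp hD) ⊥ (by
    rw [finrank_bot]; omega)
  rw [Submodule.mem_bot] at h0
  have h1' := h1
  simp only [perp_sup, perp_span_singleton, Submodule.mem_inf, mem_pp] at h1'
  have hx : g w₀ ∉ F ∙ w := fun hx => by
    obtain ⟨a, ha⟩ := Submodule.mem_span_singleton.1 hx
    apply hB
    conv_lhs => enter [1]; rw [← ha]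
    simp [h1'.2]
  have h2 := h.τ_mem_of_perp hL hg hw₀s hw₀ hws hw1 h0 (P.B_symm h1'.1) hx fun y hy μ hμ0 hμ hv => ?_
  · obtain ⟨u, hu, b, hb⟩ := mem_sup_span_singleton.1 h2
    obtain ⟨a, rfl⟩ := Submodule.mem_span_singleton.1 hu
    apply hB
    rw [hb]
    simp [P.B_symm h1'.1, sing_B hxs]
  obtain ⟨z, hz, hz1, hz2⟩ := ((h.ok.inv_perp hD).inf (h.ok.inv_pp hw1)).exists_notMem_of_lt
    (N := F ∙ w) (by
      have := finrank_inf_pp_ge (P := P) (P.perp ((F ∙ g w₀) ⊔ F ∙ R.τ (g w₀))) w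
      have := finrank_span_singleton_le (F := F) w
      omega)
  simp only [perp_sup, perp_span_singleton, Submodule.mem_inf, mem_pp] at hz
  obtain ⟨u, hu, b, hb⟩ := mem_sup_span_singleton.1 (hv z hz.2 hz.1.1)
  obtain ⟨a, rfl⟩ := Submodule.mem_span_singleton.1 hu
  obtain ⟨c, hc⟩ := Submodule.mem_span_singleton.1
    (h.ok.τ_map_sub_mem h.mem h.iso hL hy hws hw1 hws hw1 h0 hμ0 hμ hz1 hz.2)
  rw [sub_eq_iff_eq_add.1 hb] at hc
  simp only [RatStr.τ_smul, map_add, hw1, hz1, hθ, σσ] at hc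
  have h3 : b = 0 := by
    have := congrArg (fun v => P.B v (g w₀)) hc
    simp only [map_add, map_sub, map_smul, LinearMap.add_apply, LinearMap.sub_apply,
      LinearMap.smul_apply, smul_eq_mul, h1'.1, hz.1.1, sing_B hxs, mul_zero, add_zero, zero_add,
      sub_zero] at this
    simpa [hμ0, P.B_ne_symm hB] using this.symm
  rw [← R.θ_iff, hθ]
  by_contra h4
  apply hz2
  rw [← Submodule.smul_mem_iff _ (sub_ne_zero.2 h4)]
  refine Submodule.mem_span_singleton.2 ⟨μ * P.σ a - P.σ μ * a - c, ?_⟩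
  rw [h3, map_zero] at hc
  linear_combination (norm := module) -hc

theorem B_τ_of_perp {g g' : V ≃ₗ[F] V} (hg : g ∈ X) (hg' : g' ∈ X) {w₀ w₁ : V}
    (hw₀s : P.Val w₀ 0) (hw₀ : R.τ w₀ = w₀) (hw₁s : P.Val w₁ 0) (hw₁ : R.τ w₁ = w₁)
    (hyx : P.B (g' w₁) (g w₀) = 0) : P.B (g' w₁) (R.τ (g w₀)) = 0 := by
  have hxs : P.Val (g w₀) 0 := Iso.val (h.iso hg) hw₀s
  have ha := h.B_τ_self hL hθ hττ hg hw₀s hw₀
  have hb := h.B_τ_self hL hθ hττ hg' hw₁s hw₁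
  by_cases hy : g' w₁ ∈ F ∙ g w₀
  · obtain ⟨a, h1⟩ := Submodule.mem_span_singleton.1 hy
    simp [← h1, ha]
  obtain ⟨z₀, hz₀, hz₀1, hz₀2⟩ := RatOK.exists_B_ne (h.ok.inv_pp hw₀) (z := g.symm (g' w₁)) (by
    rw [perp_pp]
    intro h
    obtain ⟨a, ha⟩ := Submodule.mem_span_singleton.1 h
    exact hy (Submodule.mem_span_singleton.2 ⟨a, by rw [← map_smul, ha, g.apply_symm_apply]⟩))
  rw [← Iso.B (h.iso hg), g.apply_symm_apply] at hz₀2
  obtain ⟨h1, c₁, hc₁, h2⟩ := map_mem_zSub hxs hg (h.iso hg) one_ne_zero (by rw [one_smul])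
    (h.ok.mem_zSub_of_rat h.mem hw₀s hw₀ hz₀1 hz₀)
  rw [map_one, one_smul] at h1 hc₁ h2
  have h3 := h.B_τ_self hL hθ hττ
    (X.mul_mem (h2.mem (g := eichE hxs h1 hc₁) fun _ => rfl) hg') hw₁s hw₁
  have h4 : P.B (g w₀) (R.τ (g' w₁)) = P.B (g' w₁) (R.τ (g w₀)) := by
    have := h.ok.B_τ (g w₀) (R.τ (g' w₁))
    rw [hττ, hθ] at this
    rw [P.herm (R.τ (g w₀)), this, h.ε, σσ, one_mul]
  simp only [LinearEquiv.mul_apply, eichE_apply, eich, hyx, zero_smul, add_zero, mul_zero, h.ε,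
    one_mul, map_sub, RatStr.τ_smul, LinearMap.sub_apply, map_smul, LinearMap.smul_apply,
    B_smul_right, hθ, σσ, ha, hb, h4, smul_eq_mul] at h3
  have h5 : 2 * P.B (g' w₁) (g z₀) * P.B (g' w₁) (R.τ (g w₀)) = 0 := by linear_combination -h3
  simpa [h.two, P.B_ne_symm hz₀2] using h5

theorem τ_mem_of_refl {j : F} (hj0 : j ≠ 0) (hj : P.σ j = -j)
    (hR : ∀ {a b : V} {c d : F} (ha : P.Val a c) (hc : c ≠ 0) (hb : P.Val b d) (hd : d ≠ 0),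
      R.τ a = a → R.τ b = b → c ∈ F₀ → d ∈ F₀ → reflE ha hc * reflE hb hd ∈ X)
    {g : V ≃ₗ[F] V} (hg : g ∈ X) {w₀ : V} (hw₀s : P.Val w₀ 0) (hw₀ : R.τ w₀ = w₀) (h00 : w₀ ≠ 0) :
    R.τ (g w₀) ∈ F ∙ g w₀ := by
  by_contra hcon
  have hx0 : g w₀ ≠ 0 := by simpa using h00
  have h2 := h.two
  have hxs : P.Val (g w₀) 0 := Iso.val (h.iso hg) hw₀s
  have ha := h.B_τ_self hL hθ hττ hg hw₀s hw₀
  have hb : P.B (R.τ (g w₀)) (R.τ (g w₀)) = 0 := by rw [h.ok.B_τ, sing_B hxs, map_zero]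
  obtain ⟨x₁, x₂, hx₁, hx₂, hx, hτ, h11, h12, h22⟩ : ∃ x₁ x₂, R.τ x₁ = x₁ ∧ R.τ x₂ = x₂ ∧
      g w₀ = x₁ + j • x₂ ∧ R.τ (g w₀) = x₁ - j • x₂ ∧ P.B x₁ x₁ = 0 ∧ P.B x₁ x₂ = 0 ∧
      P.B x₂ x₂ = 0 := by
    refine ⟨(2 : F)⁻¹ • (g w₀ + R.τ (g w₀)), (2 * j)⁻¹ • (g w₀ - R.τ (g w₀)), ?_, ?_, ?_, ?_, ?_,
      ?_, ?_⟩
    · rw [RatStr.τ_smul, map_add, hττ, map_inv₀, map_ofNat, add_comm]
    · rw [RatStr.τ_smul, map_sub, hττ, map_inv₀, map_mul, map_ofNat, hθ, hj]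
      match_scalars <;> field_simp
    · match_scalars <;> field_simp <;> ring
    · match_scalars <;> field_simp <;> ring
    all_goals simp [ha, hb, sing_B hxs, P.B_symm ha]
  have hs : ∀ x, R.τ x = x → P.B x x = 0 → P.Val x 0 := fun x h3 h4 => by
    obtain ⟨c, hc, hc'⟩ := h.ok.val_mem x h3
    rw [h.B_self hc hc', mul_eq_zero, or_iff_right h2] at h4
    exact h4 ▸ hc'
  have hind : ∀ u, x₁ ∈ F ∙ u → x₂ ∈ F ∙ u → False := fun u h3 h4 => by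
    have h5 : u ∈ F ∙ g w₀ := by
      by_contra h5
      exact notMem_span_swap hx0 h5 (hx ▸ Submodule.add_mem _ h3 (Submodule.smul_mem _ _ h4))
    exact hcon ((Submodule.span_singleton_le_iff_mem _ _).2 h5
      (hτ ▸ Submodule.sub_mem _ h3 (Submodule.smul_mem _ _ h4)))
  have hdual : ∀ u v, R.τ u = u → R.τ v = v → u ∉ F ∙ v →
      ∃ y, R.τ y = y ∧ P.B y u = 1 ∧ P.B y v = 0 := fun u v hu hv huv => by
    obtain ⟨y, h3, h4, h5⟩ := RatOK.exists_B_ne (h.ok.inv_pp hv) (z := u) (by rwa [perp_pp])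
    exact ⟨(P.B y u)⁻¹ • y, RatStr.τ_smul_of_mem (F₀.inv_mem (h.ok.B_mem y u h4 hu)) h4,
      by simp [h5], by simp [show P.B y v = 0 from h3]⟩
  have hfix : ∀ y u, R.τ y = y → R.τ u = u → P.B u u = 0 → P.B y u = 1 → ∀ c ∈ F₀,
      ∃ s ∈ F₀, P.Val (y + s • u) c := fun y u hy hu huu hyu c hc => by
    obtain ⟨e, he, he'⟩ := h.ok.val_mem y hy
    exact ⟨c - e, F₀.sub_mem hc he, val_congr (val_add_sing he' (hs u hu huu) _) (by
      rw [h.σ0 _ (F₀.sub_mem hc he), hyu]; ring)⟩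
  obtain ⟨y₁, hy₁, h3, h4⟩ := hdual x₁ x₂ hx₁ hx₂ fun h => hind x₂ h
    (Submodule.mem_span_singleton_self _)
  obtain ⟨y₂, hy₂, h5, h6⟩ := hdual x₂ x₁ hx₂ hx₁ fun h => hind x₁
    (Submodule.mem_span_singleton_self _) h
  obtain ⟨s, hs, has⟩ := hfix y₁ x₁ hy₁ hx₁ h11 h3 1 F₀.one_mem
  have ha1 : R.τ (y₁ + s • x₁) = y₁ + s • x₁ := by rw [map_add, hy₁, RatStr.τ_smul_of_mem hs hx₁]
  have ha2 : P.B (y₁ + s • x₁) x₁ = 1 := by simp [h3, h11]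
  have ha3 : P.B (y₁ + s • x₁) x₂ = 0 := by simp [h4, h12]
  generalize y₁ + s • x₁ = a at has ha1 ha2 ha3
  have hv := h.ok.B_mem a y₂ ha1 hy₂
  have hjj : j * j ∈ F₀ := by rw [← R.θ_iff, hθ, map_mul, hj]; ring
  have hb0 : R.τ (y₂ - P.B a y₂ • x₁) = y₂ - P.B a y₂ • x₁ := by
    rw [map_sub, hy₂, RatStr.τ_smul_of_mem hv hx₁]
  obtain ⟨t, ht, hbs⟩ := hfix _ x₂ hb0 hx₂ h22 (by simp [h5, h12]) _ hjj
  have hb1 : R.τ (y₂ - P.B a y₂ • x₁ + t • x₂) = y₂ - P.B a y₂ • x₁ + t • x₂ := by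
    rw [map_add, hb0, RatStr.τ_smul_of_mem ht hx₂]
  have hb2 : P.B (y₂ - P.B a y₂ • x₁ + t • x₂) x₁ = 0 := by simp [h6, h11, P.B_symm h12]
  have hb3 : P.B (y₂ - P.B a y₂ • x₁ + t • x₂) x₂ = 1 := by simp [h5, h12, h22]
  have hb4 : P.B a (y₂ - P.B a y₂ • x₁ + t • x₂) = 0 := by simp [ha2, ha3, h.σ0 _ hv]
  generalize y₂ - P.B a y₂ • x₁ + t • x₂ = b at hbs hb1 hb2 hb3 hb4
  have hk := X.mul_mem (hR has one_ne_zero hbs (mul_ne_zero hj0 hj0) ha1 hb1 F₀.one_mem hjj) hg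
  have hy : (reflE has one_ne_zero * reflE hbs (mul_ne_zero hj0 hj0) * g) w₀ =
      x₁ + j • x₂ - j⁻¹ • b - a := by
    simp only [LinearEquiv.mul_apply, reflE_apply, Polar.refl, hx, map_add, map_sub, map_smul,
      LinearMap.add_apply, LinearMap.sub_apply, LinearMap.smul_apply, smul_eq_mul,
      h.symm ha1 hx₁, h.symm ha1 hx₂, h.symm hb1 hx₁, h.symm hb1 hx₂, ha2, ha3, hb2, hb3,
      P.B_symm hb4]
    match_scalars <;> field_simp <;> ring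
  have h7 := h.B_τ_of_perp hL hθ hττ hg hk hw₀s hw₀ hw₀s hw₀ (by
    rw [hy, hx]
    simp [ha2, ha3, hb2, hb3, h11, h12, h22, P.B_symm h12, hj, hj0])
  rw [hy, hτ] at h7
  simp only [map_add, map_sub, map_smul, LinearMap.add_apply, LinearMap.sub_apply,
    LinearMap.smul_apply, smul_eq_mul, B_smul_right, ha2, ha3, hb2, hb3, h11, h12, h22,
    P.B_symm h12, hj] at h7
  apply h2
  linear_combination -h7 - mul_inv_cancel₀ hj0

end Ctx

variable [Finite F] [FiniteDimensional F V] {P : Polar F V} {R : RatStr F₀ V}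

/-- Orthogonal subgroups of unitary groups in dimension at least `6`, odd characteristic. -/
theorem N_maximal_orth (ok : P.RatOK R) (two : (2 : F) ≠ 0) (hε : P.ε = 1)
    (hσ : ∃ a, P.σ a ≠ a) (hθ : ∀ a, R.θ a = P.σ a) (hττ : ∀ x, R.τ (R.τ x) = x)
    (hn : 6 ≤ finrank F V) : Geo.IsMaximalIn P.E (R.N ⊓ P.E) := by
  have hfix : ∀ a, P.σ a = a ↔ a ∈ F₀ := fun a => by rw [← hθ, R.θ_iff]
  have hc : ∀ {X : Subgroup (V ≃ₗ[F] V)}, R.N ⊓ P.E ≤ X → X ≤ P.E → Ctx P R X :=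
    ctx_of ok two hε (fun a ha => (hfix a).2 ha) (fun c hc => lam_of_unitary hσ hε hc) hn
  refine isMaximalIn_of inf_le_right ?_ fun X hHX hXE g hg hgH => ?_
  · obtain ⟨g, h1, h2⟩ := (hc inf_le_right le_rfl).exists_E_notMem
      (hσ.imp fun a ha h => ha ((hfix a).2 h))
    exact ⟨g, h1, fun h => h2 h.1⟩
  have h := hc hHX hXE
  by_contra hcon
  refine hgH ⟨h.mem_N fun w h1 h2 => ?_, hXE hg⟩
  by_cases h0 : w = 0
  · simp [h0]
  obtain ⟨i, hi⟩ := hσ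
  refine h.τ_mem_of_refl (fun w hws h1 h2 z hz => ?_) hθ hττ (j := i - P.σ i)
    (sub_ne_zero.2 hi.symm) (by simp) (fun {a b c d} ha hc hb hd h3 h4 h5 h6 => hHX ⟨?_, ?_⟩)
    hg h2 h1 h0
  · by_contra h3
    obtain ⟨ξ, h4, h5⟩ := h.exists_good hws h1 h2 hz h3
    refine hcon (h.E_le_of_two (fun ξ hξ k => ?_) h4 h5)
    have h6 : ξ - P.σ ξ ≠ 0 := fun h => hξ ((hfix ξ).1 (sub_eq_zero.1 h).symm)
    have h7 : P.σ ξ - ξ ≠ 0 := fun h => hξ ((hfix ξ).1 (sub_eq_zero.1 h))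
    refine ⟨(ξ * P.σ k - P.σ ξ * k) / (ξ - P.σ ξ), (hfix _).1 ?_, (k - P.σ k) / (ξ - P.σ ξ),
      (hfix _).1 ?_, ?_⟩
    · simp only [map_div₀, map_sub, map_mul, σσ]
      field_simp
      ring
    · simp only [map_div₀, map_sub, σσ]
      field_simp
      ring
    · field_simp
      ring
  · have key : ∀ {a : V} {c : F} (ha : P.Val a c) (hc : c ≠ 0), R.τ a = a → c ∈ F₀ →
        reflE ha hc ∈ R.N := fun {a c} ha hc h3 h5 => RatStr.mem_N_of (c := 1) fun x hx => by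
      rw [one_smul, reflE_apply, Polar.refl, map_sub, hx, RatStr.τ_smul_of_mem
        (F₀.mul_mem (F₀.inv_mem h5) (ok.B_mem x a hx h3)) h3]
    exact R.N.mul_mem (key ha hc h3 h5) (key hb hd h4 h6)
  · rw [Polar.E_eq_SU ⟨i, hi⟩ hε hn]
    refine ⟨P.Iso.mul_mem (reflE_mem_Iso _ _) (reflE_mem_Iso _ _), mem_SLV.2 ?_⟩
    rw [LinearEquiv.coe_toLinearMap_mul, map_mul, det_reflE, det_reflE, hε, (hfix c).2 h5,
      (hfix d).2 h6]
    field_simp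

open Geo in
theorem su_subfield_orth {F : Type*} [Field F] [Fintype F] {n q : ℕ} (hF : Fintype.card F = q ^ 2)
    (hn : 6 ≤ n) (hodd : Odd q) (F₀ : Subfield F) (P : GL (Fin n) F)
    (hcard : Fintype.card F = Nat.card F₀ ^ 2)
    (hP : IsFormRationalStructure (hermForm n F q) F₀ 1 P) :
    IsMaximalIn (GU n F q ⊓ specialLinear (Fin n) F)
      (subfieldSubgroup F₀ P ⊓ (GU n F q ⊓ specialLinear (Fin n) F)) := by
  have : Nonempty (Fin n) := ⟨⟨0, by omega⟩⟩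
  have hn' : finrank F (Fin n → F) = n := by simp
  have hq : Nat.card F₀ = q := by
    rw [hF] at hcard
    exact (Nat.pow_left_injective two_ne_zero hcard).symm
  refine isMaximalIn_of_equiv toLE (mem_SU_iff hF hn) (fun g => ?_)
    (N_maximal_orth (GenSU.ratOK_orth hF hodd hP)
      (two_ne_zero_of_odd_card (by rw [hF]; exact hodd.pow)) rfl (GenSU.σ_ne hF)
      (fun a => by rw [stdRat_θ, hq, unitPowPolar_σ]) (stdRat_τ_τ hcard P) (by omega))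
  rw [Subgroup.mem_inf, mem_SU_iff hF hn, mem_subfieldSubgroup_iff_N, Subgroup.mem_inf]

end Cfsg.Agent.H5.SubO
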