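import Cfsg.Agent.H7.UExtMat
import Cfsg.Agent.H7.Nondeg2

/-!
The normaliser of a quadratic field of unitary type is maximal in `Sp_{2m}(q)`, `q` odd, `m ≥ 3`.
-/

set_option autoImplicit false
set_option linter.unusedSectionVars false

namespace Cfsg.Agent.H5.USp

open Module Cfsg.Agent.H7 Cfsg.Agent.H3.Ext

variable {F K V : Type*} [Field F] [Field K] [Algebra F K] [AddCommGroup V] [Module F V]
  [Module K V] [IsScalarTower F K V]

/-- The standing hypotheses. -/
structure Setup (S : Polar F V) (PK : Polar K V) (θ : K →ₗ[F] F) (j : K)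
    (X : Subgroup (V ≃ₗ[F] V)) : Prop where
  two : (2 : F) ≠ 0
  val : ∀ x c, S.Val x c
  σS : ∀ a, S.σ a = a
  εS : S.ε = -1
  εK : PK.ε = 1
  σ_alg : ∀ a : F, PK.σ (algebraMap F K a) = algebraMap F K a
  σj : PK.σ j = -j
  θj : θ j = 1
  θone : θ 1 = 0
  dec : ∀ k, ∃ a b : F, k = algebraMap F K a + b • j
  B : ∀ x y, S.B x y = θ (PK.B x y)
  iso : X ≤ S.Iso
  mem : ∀ g ∈ PK.Iso, g.restrictScalars F ∈ X
  three : 3 ≤ finrank K V

namespace Setup

variable {S : Polar F V} {PK : Polar K V} {θ : K →ₗ[F] F} {j : K} {X : Subgroup (V ≃ₗ[F] V)}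
  (h : Setup S PK θ j X)
include h

theorem twoK : (2 : K) ≠ 0 := by
  have := (map_ne_zero (algebraMap F K)).2 h.two
  rwa [map_ofNat] at this

theorem j_ne : j ≠ 0 := fun e => by simpa [e] using h.θj

theorem neK : ∃ a, PK.σ a ≠ a := ⟨j, fun e => h.j_ne (by
  rw [h.σj] at e
  exact (mul_eq_zero.1 (show 2 * j = 0 by linear_combination -e)).resolve_left h.twoK)⟩

theorem θ_mul (a : F) (k : K) : θ (algebraMap F K a * k) = a * θ k := by
  rw [← Algebra.smul_def, map_smul, smul_eq_mul]

theorem θ_alg (a : F) : θ (algebraMap F K a) = 0 := by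
  simpa [h.θone] using h.θ_mul a 1

theorem σ_smul (a : F) (k : K) : PK.σ (a • k) = a • PK.σ k := by
  rw [Algebra.smul_def, Algebra.smul_def, map_mul, h.σ_alg]

theorem θσ (k : K) : θ (PK.σ k) = -θ k := by
  obtain ⟨a, b, rfl⟩ := h.dec k
  simp [h.σ_alg, h.σ_smul, h.σj, h.θ_alg]

theorem alg_of_θ {k : K} (hk : θ k = 0) : ∃ a : F, k = algebraMap F K a := by
  obtain ⟨a, b, rfl⟩ := h.dec k
  have : b = 0 := by simpa [h.θ_alg, h.θj] using hk
  exact ⟨a, by simp [this]⟩

theorem alg_of_σ {k : K} (hk : PK.σ k = k) : ∃ a : F, k = algebraMap F K a := by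
  refine h.alg_of_θ ?_
  have := h.θσ k
  rw [hk] at this
  exact (mul_eq_zero.1 (show 2 * θ k = 0 by linear_combination this)).resolve_left h.two

theorem B_self (x : V) : ∃ a : F, PK.B x x = algebraMap F K a :=
  h.alg_of_σ (Polar.σ_B_self h.εK x)

theorem norm_alg (k : K) : ∃ a : F, PK.σ k * k = algebraMap F K a :=
  h.alg_of_σ (by rw [map_mul, PK.σσ, mul_comm])

theorem herm (x y : V) : PK.B y x = PK.σ (PK.B x y) := UExt.herm h.εK x y

theorem sing_iff {x : V} : PK.Val x 0 ↔ PK.B x x = 0 := Polar.sing_iff_of_unitary h.neK h.εK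

theorem SS (x : V) : S.B x x = 0 := Polar.sing_B (h.val x 0)

theorem Sskew (x y : V) : S.B x y = -S.B y x := by rw [S.herm y x, h.σS, h.εS]; ring

theorem B_left (a : F) (x y : V) : PK.B (a • x) y = algebraMap F K a * PK.B x y := by
  rw [← algebraMap_smul K a x, map_smul, LinearMap.smul_apply, smul_eq_mul]

theorem B_right (a : F) (x y : V) : PK.B x (a • y) = algebraMap F K a * PK.B x y := by
  rw [← algebraMap_smul K a y, PK.B_smul_right, h.σ_alg]

variable [Finite K] [FiniteDimensional K V]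

theorem finF : Finite F := Finite.of_injective _ (algebraMap F K).injective

theorem finV : FiniteDimensional F V := by
  have := h.finF
  have : Finite V := Module.finite_of_finite K
  exact Module.Finite.of_finite

theorem wild : PK.Wild 2 := Polar.wild_two_of_unitary h.neK h.εK

theorem exists_fix {U : Submodule K V} {v v' : V} (hv : v ∉ U) (hv' : v' ∉ U)
    (hB : ∀ u ∈ U, PK.B u v = PK.B u v') (hc : PK.B v v = PK.B v' v') :
    ∃ g ∈ X, (∀ u ∈ U, g u = u) ∧ g v = v' := by
  obtain ⟨c, h1⟩ := PK.val_ex v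
  obtain ⟨t, ht, h2, h3⟩ := Polar.witt_vec hv hv' hB h1 (by
    rw [Polar.val_iff_of_unitary h.neK h.εK] at h1 ⊢
    rw [← hc, h1])
  exact ⟨_, h.mem t ht, h2, h3⟩

theorem exists_move {v v' : V} (hv : v ≠ 0) (hv' : v' ≠ 0) (hc : PK.B v v = PK.B v' v') :
    ∃ g ∈ X, g v = v' := by
  obtain ⟨g, hg, -, h1⟩ := h.exists_fix (U := ⊥) (by simpa using hv) (by simpa using hv')
    (fun u hu => by simp [(Submodule.mem_bot K).1 hu]) hc
  exact ⟨g, hg, h1⟩

theorem exists_sing_B {d : V} (hd : d ≠ 0) {μ : K} (hμ : μ ≠ 0) :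
    ∃ u, PK.B u u = 0 ∧ PK.B u d = μ := by
  obtain ⟨e, -, he, hde⟩ := Polar.exists_sing_ne_of_sub h.wild (M := ⊤) (z := d)
    (by simpa [Polar.perp_top] using hd) (by
      rw [Polar.perp_top, inf_bot_eq, finrank_bot, finrank_top]; exact h.three)
  have h1 := PK.B_ne_symm hde
  exact ⟨(μ / PK.B e d) • e, h.sing_iff.1 (Polar.sing_smul he _), by simp [h1]⟩

theorem tv_conj {u v : V} {c e : F} (hu : S.EI X u 0 c) (hv : S.EI X v 0 e) :
    S.EI X (v - (c * S.B v u) • u) 0 e := by
  have := hv.conj (g := Polar.eichE (h.val u 0) (w := 0) (by simp) (h.val 0 c))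
    (hu.mem fun _ => rfl) (Polar.eichE_mem_Iso _ _ _)
  simpa [Polar.eich, h.σS] using this

theorem tv_move {u v : V} {c : F} (hu : S.EI X u 0 c) (hu0 : u ≠ 0) (hv0 : v ≠ 0)
    (hc : PK.B u u = PK.B v v) : S.EI X v 0 c := by
  obtain ⟨g, hg, rfl⟩ := h.exists_move hu0 hv0 hc
  simpa using hu.conj hg (h.iso hg)

theorem tv_add {u : V} {c e : F} (h1 : S.EI X u 0 c) (h2 : S.EI X u 0 e) :
    S.EI X u 0 (c + e) := by
  simpa using h1.add h2 (h.val u 0) (by simp) (by simp)

theorem tv_neg {u : V} {c : F} (h1 : S.EI X u 0 c) : S.EI X u 0 (-c) := by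
  simpa [h.σS, h.εS] using h1.neg (h.val u 0) (by simp) (h.val 0 c)

theorem tv_sing {u : V} {c : F} (hu : S.EI X u 0 c) (hu0 : u ≠ 0) (hus : PK.B u u = 0)
    (hc : c ≠ 0) {v : V} (hvs : PK.B v v = 0) (e : F) : S.EI X v 0 e := by
  have := h.finF
  by_cases hv0 : v = 0
  · subst hv0
    exact Has.id.congr fun x => by simp [Polar.eich]
  have key : ∀ a : F, S.EI X v 0 (a * a * c) := fun a => by
    by_cases ha : a = 0
    · simpa [ha] using Polar.EI.zero (P := S) (X := X) v
    have := h.tv_move hu hu0 (v := a • v) (smul_ne_zero ha hv0)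
      (by rw [h.B_left, h.B_right, hvs, hus]; simp)
    rwa [Polar.EI.smul_iff, smul_zero, h.σS] at this
  obtain ⟨a, b, hab⟩ := exists_sq_sub_sq (e / c)
  convert h.tv_add (key a) (h.tv_neg (key b)) using 1
  rw [← div_mul_cancel₀ e hc, hab]; ring

theorem E_le_of_tv {d : V} {c : F} (hd : S.EI X d 0 c) (hd0 : d ≠ 0) (hc : c ≠ 0) :
    S.E ≤ X := by
  have := h.finF
  have := h.finV
  obtain ⟨u, hu0, hus, hu⟩ : ∃ u, u ≠ 0 ∧ PK.B u u = 0 ∧ S.EI X u 0 c := by
    by_cases h1 : PK.B d d = 0
    · exact ⟨d, hd0, h1, hd⟩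
    obtain ⟨u, hus, hud⟩ := h.exists_sing_B hd0 (μ := (-c⁻¹) • j) (by simp [hc, h.j_ne])
    have hu0 : u ≠ 0 := by
      rintro rfl
      simp [hc, h.j_ne, eq_comm] at hud
    have h2 : PK.B (u - d) (u - d) = PK.B d d := by
      simp only [map_sub, LinearMap.sub_apply, hus, h.herm u d, hud, h.σ_smul, h.σj]
      simp
    have h3 := h.tv_conj hd (h.tv_move hd hd0 (v := u - d) (fun e => h1 (by
      rw [← h2, e]; simp)) h2.symm)
    refine ⟨u, hu0, hus, ?_⟩
    convert h3 using 1
    rw [map_sub, LinearMap.sub_apply, h.SS, h.B, hud, map_smul, h.θj]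
    simp [hc]
  have h1 := fun v hv => h.tv_sing hu hu0 hus hc (v := v) hv
  have h2 : ∀ a e, S.EI X a 0 e := fun a e => by
    by_cases ha : a = 0
    · exact h1 a (by simp [ha]) e
    obtain ⟨A, hA⟩ := h.B_self a
    obtain ⟨u, hus, hua⟩ := h.exists_sing_B ha (μ := 1 - j) (fun e => by
      have := congrArg θ (sub_eq_zero.1 e)
      rw [h.θone, h.θj] at this
      exact zero_ne_one this)
    have h3 : PK.B a u = 1 + j := by rw [h.herm, hua, map_sub, map_one, h.σj]; ring
    have h4 := h.tv_conj (h1 u hus (-(A / 2))) (h1 (a - (A / 2) • u) (by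
      simp only [map_sub, LinearMap.sub_apply, h.B_left, h.B_right, hus, h3, hua, hA, map_div₀,
        map_ofNat]
      have := h.twoK
      field_simp
      ring) e)
    convert h4 using 1
    rw [map_sub, LinearMap.sub_apply, map_smul, LinearMap.smul_apply, h.SS, h.B, h3, map_add,
      h.θone, h.θj]
    simp
  refine Polar.E_le_of_EI fun u w c _ hw _ => ?_
  refine (((h2 (u + w) (-1)).has.comp ((h2 u (c + 1)).has.comp (h2 w 1).has))).congr fun x => ?_
  have h3 : S.B u w = 0 := S.B_symm hw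
  simp only [Polar.eich, map_add, map_sub, map_smul, LinearMap.add_apply, LinearMap.sub_apply,
    LinearMap.smul_apply, smul_eq_mul, h.SS, hw, h3, h.σS, h.εS, map_zero, smul_zero,
    LinearMap.zero_apply]
  module

theorem E_le_of_eich {d w : V} {c : F} (hd : PK.B d d ≠ 0) (hw0 : w ≠ 0) (hwd : PK.B w d = 0)
    (hE : S.EI X d w c) : S.E ≤ X := by
  have hnot : ∀ y, y ≠ 0 → PK.B y d = 0 → y ∉ K ∙ d := fun y h0 h1 h2 => by
    obtain ⟨k, rfl⟩ := Submodule.mem_span_singleton.1 h2
    simp only [map_smul, LinearMap.smul_apply, smul_eq_mul, mul_eq_zero, hd, or_false] at h1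
    exact h0 (by simp [h1])
  obtain ⟨w', hw'0, hw'd, hww, hθ⟩ : ∃ w', w' ≠ 0 ∧ PK.B w' d = 0 ∧ PK.B w w = PK.B w' w' ∧
      S.B w w' ≠ 0 := by
    by_cases h1 : PK.B w w = 0
    · obtain ⟨e, he, hes, hwe⟩ := Polar.exists_hyperbolic (U := K ∙ d) (h.sing_iff.2 h1)
        (hnot w hw0 hwd) (by rwa [Polar.perp_span_singleton]) j h.j_ne
      rw [Polar.perp_span_singleton] at he
      exact ⟨e, fun e0 => h.j_ne (by simp [← hwe, e0]), he, by rw [h1, h.sing_iff.1 hes], by
        rw [h.B, hwe, h.θj]; exact one_ne_zero⟩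
    · have h2 : 1 + j ≠ 0 := fun e => by
        have := congrArg θ e
        rw [map_add, h.θone, h.θj] at this
        simp at this
      have h3 : 1 - j ≠ 0 := fun e => by
        have := congrArg θ (sub_eq_zero.1 e)
        rw [h.θone, h.θj] at this
        simp at this
      obtain ⟨A, hA⟩ := h.B_self w
      obtain ⟨N, hN⟩ := h.norm_alg (1 + j)
      obtain ⟨n, hn⟩ := h.norm_alg j
      rw [map_add, map_one, h.σj] at hN
      rw [h.σj] at hn
      have hN0 : N ≠ 0 := by
        rintro rfl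
        rw [map_zero] at hN
        exact mul_ne_zero (by rwa [← sub_eq_add_neg]) h2 hN
      refine ⟨((1 - j) / (1 + j)) • w, smul_ne_zero (div_ne_zero h3 h2) hw0, by simp [hwd], ?_, ?_⟩
      · simp only [map_smul, LinearMap.smul_apply, PK.B_smul_right, smul_eq_mul, map_div₀, map_sub,
          map_add, map_one, h.σj]
        rw [← sub_eq_add_neg]
        field_simp
        ring
      · have h4 : PK.σ ((1 - j) / (1 + j)) * PK.B w w =
            algebraMap F K (A / N) * (algebraMap F K (1 - n) + (2 : F) • j) := by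
          simp only [map_div₀, map_sub, map_add, map_one, h.σj, hA, ← hN, ← hn, Algebra.smul_def,
            map_ofNat]
          rw [← sub_eq_add_neg]
          field_simp
          ring
        rw [h.B, PK.B_smul_right, h4, h.θ_mul, map_add, h.θ_alg, map_smul, h.θj]
        have hA0 : A ≠ 0 := by
          rintro rfl
          exact h1 (by simpa using hA)
        simp [hA0, hN0, h.two]
  obtain ⟨g, hg, hgd, hgw⟩ := h.exists_fix (hnot w hw0 hwd) (hnot w' hw'0 hw'd)
    (fun u hu => by
      obtain ⟨k, rfl⟩ := Submodule.mem_span_singleton.1 hu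
      simp [PK.B_symm hwd, PK.B_symm hw'd]) hww
  have hE' := hE.conj hg (h.iso hg)
  rw [hgd d (Submodule.mem_span_singleton_self d), hgw] at hE'
  have h1 : S.B w d = 0 := by rw [h.B, hwd, map_zero]
  have h2 : S.B w' d = 0 := by rw [h.B, hw'd, map_zero]
  have h3 := (hE.add hE' (h.val d 0) h1 h2).add ((hE'.add hE (h.val d 0) h2 h1).neg (h.val d 0)
    (by simp [h1, h2]) (h.val _ _)) (h.val d 0) (by simp [h1, h2]) (by simp [h1, h2])
  refine h.E_le_of_tv (c := 2 * S.B w w') (h3.congr (by module) ?_) (fun e => hd (by simp [e]))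
    (mul_ne_zero h.two hθ)
  simp only [map_neg, map_add, LinearMap.add_apply, h.SS, h.σS, h.εS, h.Sskew w' w]
  ring

theorem E_le_of_pair {a b d : V} {s r : F} (hs : s ≠ 0) (hab : S.B a b = 0)
    (hT : Has X fun x => x + (s * S.B x a) • a + (r * S.B x b) • b) (hbd : PK.B b d = 0)
    (had : S.B a d = 0) (hd : PK.B d d ≠ 0) (had' : PK.B a d ≠ 0) (hda : d ∉ F ∙ a) :
    S.E ≤ X := by
  obtain ⟨t, ht, -, ht'⟩ := UExt.exists_refl h.neK h.εK hd (μ := -1) (by simp)
  obtain ⟨C, hC⟩ := h.alg_of_θ (k := PK.B a d) (by rw [← h.B, had])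
  obtain ⟨D, hD⟩ := h.B_self d
  have hC0 : C ≠ 0 := by rintro rfl; exact had' (by simpa using hC)
  have hD0 : D ≠ 0 := by rintro rfl; exact hd (by simpa using hD)
  set l := C / D with hl
  have hl0 : l ≠ 0 := div_ne_zero hC0 hD0
  have hX := h.mem t ht
  have hI := h.iso hX
  set g := t.restrictScalars F with hg
  have h1 : g a = a - (2 * l) • d := by
    show t a = _
    rw [ht', hC, hD, ← algebraMap_smul K (2 * l) d, hl, map_mul, map_div₀, map_ofNat]
    module
  have h2 : g b = b := by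
    show t b = _
    rw [ht', hbd]; simp
  have hbd' : S.B b d = 0 := by rw [h.B, hbd, map_zero]
  have h3 : Has X fun x => x + (s * S.B x (a - (2 * l) • d)) • (a - (2 * l) • d) +
      (r * S.B x b) • b := hT.conj hX fun x => by
    rw [← h1, Polar.Iso.B hI]
    conv_lhs => rw [← h2, Polar.Iso.B hI]
    simp only [map_add, map_smul, h2]
  have h4 : Has X fun x => x + (-s * S.B x a) • a + (-r * S.B x b) • b := hT.inv fun x => by
    simp only [map_add, map_smul, LinearMap.add_apply, LinearMap.smul_apply, h.SS, hab,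
      S.B_symm hab, smul_eq_mul]
    module
  refine h.E_le_of_eich (d := d) (w := (-(2 * l * s)) • (a - l • d)) (c := 0) hd
    (smul_ne_zero (by simp [h.two, hl0, hs]) fun e => hda ?_) ?_ ((h3.comp h4).congr fun x => ?_)
  · rw [sub_eq_zero.1 e]
    exact Submodule.mem_span_singleton.2 ⟨l⁻¹, by simp [smul_smul, hl0]⟩
  · rw [h.B_left, map_sub, LinearMap.sub_apply, h.B_left, hC, hD, ← map_mul, hl]
    simp [hD0]
  · simp only [Polar.eich, map_add, map_sub, map_smul, LinearMap.add_apply, LinearMap.sub_apply,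
      LinearMap.smul_apply, h.SS, hab, S.B_symm hab, had, S.B_symm had, hbd', S.B_symm hbd',
      smul_eq_mul, S.B_smul_right, h.σS, h.εS]
    module

theorem exists_good_or {a b : V} (hab : a ∉ K ∙ b) :
    (∃ d, PK.B b d = 0 ∧ S.B a d = 0 ∧ PK.B d d ≠ 0 ∧ PK.B a d ≠ 0 ∧ d ∉ F ∙ a) ∨
      PK.pp b ≤ (K ∙ a) ⊔ K ∙ b := by
  rw [or_iff_not_imp_left]
  intro hcon
  push Not at hcon
  obtain ⟨y, hy, hya⟩ := Polar.exists_sep' (P := PK) hab 1
  rw [Polar.perp_span_singleton, Polar.mem_pp] at hy
  have hay : PK.B a y = 1 := by rw [h.herm, hya, map_one]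
  set N := PK.pp a ⊓ PK.pp b with hN
  have hNp : PK.perp N = (K ∙ a) ⊔ K ∙ b := by
    rw [hN, ← Polar.perp_span_singleton, ← Polar.perp_span_singleton, ← Polar.perp_sup,
      Polar.perp_perp]
  obtain ⟨n, hn⟩ := h.norm_alg j
  rw [h.σj] at hn
  have key : ∀ z ∈ N, PK.B z z = 0 ∧ PK.B y z = 0 := by
    intro z hz
    by_cases hz0 : z = 0
    · simp [hz0]
    have hza : PK.B z a = 0 := hz.1
    have hzb : PK.B z b = 0 := hz.2
    have h1 : ∀ k : K, y + k • z ∈ F ∙ a ∨ PK.B (y + k • z) (y + k • z) = 0 := fun k => by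
      rw [or_iff_not_imp_right]
      refine fun h2 => hcon _ (by simp [PK.B_symm hy, PK.B_symm hzb]) ?_ h2
        (by simp [hay, PK.B_symm hza])
      rw [h.B]
      simp [hay, PK.B_symm hza, h.θone]
    have h2 : ∀ k k' : K, y + k • z ∈ F ∙ a → y + k' • z ∈ F ∙ a → k = k' := by
      intro k k' hk hk'
      obtain ⟨l, hl⟩ := Submodule.mem_span_singleton.1 hk
      obtain ⟨l', hl'⟩ := Submodule.mem_span_singleton.1 hk'
      have e1 := congrArg (PK.B · a) hl
      have e2 := congrArg (PK.B · a) hl'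
      simp only [h.B_left, map_add, map_smul, LinearMap.add_apply, LinearMap.smul_apply, hza, hya,
        smul_zero, add_zero] at e1 e2
      have e3 : l = l' := (algebraMap F K).injective
        (mul_right_cancel₀ (right_ne_zero_of_mul_eq_one e1) (e1.trans e2.symm))
      rw [e3, hl', add_right_inj] at hl
      exact (smul_left_injective K hz0 hl).symm
    obtain ⟨k₀, hk₀⟩ : ∃ k₀ : K, ∀ k, k ≠ k₀ → PK.B (y + k • z) (y + k • z) = 0 := by
      by_cases h3 : ∃ k : K, y + k • z ∈ F ∙ a
      · obtain ⟨k₀, h3⟩ := h3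
        exact ⟨k₀, fun k hk => (h1 k).resolve_left fun h4 => hk (h2 _ _ h4 h3)⟩
      · exact ⟨0, fun k _ => (h1 k).resolve_left fun h4 => h3 ⟨k, h4⟩⟩
    obtain ⟨s₀, t₀, rfl⟩ := h.dec k₀
    have h3 : ∀ s t : F, s ≠ s₀ ∨ t ≠ t₀ → PK.B y y +
        (algebraMap F K s - algebraMap F K t * j) * PK.B y z +
        (algebraMap F K s + algebraMap F K t * j) * PK.σ (PK.B y z) +
        (algebraMap F K s * algebraMap F K s + algebraMap F K n *
          (algebraMap F K t * algebraMap F K t)) * PK.B z z = 0 := by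
      intro s t hst
      have := hk₀ (algebraMap F K s + t • j) fun e => by
        have e1 := congrArg θ e
        simp only [map_add, h.θ_alg, map_smul, h.θj, smul_eq_mul, mul_one, zero_add] at e1
        rw [e1, add_left_inj] at e
        rcases hst with h4 | h4
        · exact h4 ((algebraMap F K).injective e)
        · exact h4 e1
      simp only [map_add, map_smul, LinearMap.add_apply, LinearMap.smul_apply, PK.B_smul_right,
        h.herm y z, h.σ_alg, map_mul, h.σj, smul_eq_mul, Algebra.smul_def] at this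
      rw [← hn]
      linear_combination this
    obtain ⟨t₁, ht₁⟩ := exists_ne t₀
    obtain ⟨s₁, hs₁⟩ := exists_ne s₀
    have e0 := h3 0 t₁ (Or.inr ht₁)
    have e1 := h3 1 t₁ (Or.inr ht₁)
    have e2 := h3 (-1) t₁ (Or.inr ht₁)
    have e3 := h3 s₁ 1 (Or.inl hs₁)
    have e4 := h3 s₁ (-1) (Or.inl hs₁)
    simp only [map_zero, map_one, map_neg] at e0 e1 e2 e3 e4
    have h4 := h.twoK
    refine ⟨mul_left_cancel₀ h4 (by linear_combination e1 + e2 - 2 * e0), ?_⟩
    apply mul_left_cancel₀ (mul_ne_zero (mul_ne_zero h4 h4) h.j_ne)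
    linear_combination j * (e1 - e2) - (e3 - e4)
  have h5 : N ≤ PK.perp N := fun z hz w hw =>
    Polar.B_eq_zero_of_forall_isotropic h.neK (fun x hx => (key x hx).1) hz hw
  intro x hx
  rw [← hNp]
  have : x - PK.B x a • y ∈ N := ⟨by simp [hya], by simp [hy, show PK.B x b = 0 from hx]⟩
  simpa using Submodule.add_mem _ (h5 this)
    (Submodule.smul_mem _ (PK.B x a) (show y ∈ PK.perp N from fun z hz => (key z hz).2))

theorem E_le_of_plane {a b : V} {s r : F} (hs : s ≠ 0) (hr : r ≠ 0) (hab : S.B a b = 0)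
    (hT : Has X fun x => x + (s * S.B x a) • a + (r * S.B x b) • b) (ha : a ≠ 0)
    (hba : b ∉ K ∙ a) : S.E ≤ X := by
  have hab' := notMem_span_swap ha hba
  rcases h.exists_good_or hab' with ⟨d, h1, h2, h3, h4, h5⟩ | h1
  · exact h.E_le_of_pair hs hab hT h1 h2 h3 h4 h5
  rcases h.exists_good_or hba with ⟨d, h1, h2, h3, h4, h5⟩ | h2
  · exact h.E_le_of_pair hr (S.B_symm hab) (hT.congr fun x => by rw [add_right_comm]) h1 h2 h3 h4 h5
  exfalso
  obtain ⟨y, hy, hya⟩ := Polar.exists_sep' (P := PK) hab' 1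
  rw [Polar.perp_span_singleton] at hy
  have h3 : (⊤ : Submodule K V) ≤ (K ∙ a) ⊔ K ∙ b := fun x _ => by
    have h4 : x - PK.B x a • y ∈ PK.pp a := by simp [hya]
    have h5 := h2 h4
    rw [sup_comm] at h5
    simpa using Submodule.add_mem _ h5 (Submodule.smul_mem _ (PK.B x a) (h1 hy))
  have := Submodule.finrank_mono h3
  have := finrank_span_pair_le (F := K) a b
  have := h.three
  rw [finrank_top] at *
  omega

theorem exists_scalar {D : V →ₗ[F] V} (hD : ∀ u, PK.B u u = 0 → D u ∈ K ∙ u) :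
    ∃ k : K, ∀ x, D x = k • x := by
  have h2 := h.twoK
  have hj := h.j_ne
  have h1 : ∀ u, PK.B u u = 0 → ∃ a b : K, ∀ l : K, D (l • u) = (a * l + b * PK.σ l) • u := by
    intro u hu
    obtain ⟨k₁, hk₁⟩ := Submodule.mem_span_singleton.1 (hD u hu)
    obtain ⟨k₂, hk₂⟩ := Submodule.mem_span_singleton.1 (hD (j • u) (by simp [hu]))
    refine ⟨(k₁ + k₂) / 2, (k₁ - k₂) / 2, fun l => ?_⟩
    obtain ⟨s, t, rfl⟩ := h.dec l
    rw [add_smul, algebraMap_smul, smul_assoc, map_add, map_smul, map_smul, ← hk₁, ← hk₂,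
      map_add, h.σ_alg, h.σ_smul, h.σj, ← algebraMap_smul K s, ← algebraMap_smul K t,
      ← algebraMap_smul K t, ← algebraMap_smul K t]
    simp only [smul_eq_mul]
    match_scalars
    field_simp
    ring
  choose! a b hab using h1
  have pair : ∀ u w, PK.B u u = 0 → PK.B w w = 0 → PK.B u w ≠ 0 →
      a u = a w ∧ b u * PK.B u w + b w * PK.σ (PK.B u w) = 0 := by
    intro u w hu hw huw
    have hwu := h.herm u w
    set μ := PK.B u w with hμ
    have hμ' : PK.σ μ ≠ 0 := by simpa using huw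
    have key : ∀ β : K, β ≠ 0 → (a u - a w) * PK.σ μ * β = (b u * μ + b w * PK.σ μ) * PK.σ β := by
      intro β hβ
      obtain ⟨k, hk⟩ := Submodule.mem_span_singleton.1 (hD ((j * β * PK.σ μ) • u + β • w) (by
        simp only [map_add, map_smul, LinearMap.add_apply, LinearMap.smul_apply, PK.B_smul_right,
          hu, hw, ← hμ, hwu, map_mul, h.σj, PK.σσ, smul_eq_mul]
        ring))
      rw [map_add, hab u hu, hab w hw] at hk
      have e1 := congrArg (PK.B · w) hk
      have e2 := congrArg (PK.B · u) hk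
      simp only [map_add, map_smul, LinearMap.add_apply, LinearMap.smul_apply, hu, hw, ← hμ, hwu,
        smul_eq_mul, map_mul, h.σj, PK.σσ] at e1 e2
      apply mul_left_cancel₀ (mul_ne_zero (mul_ne_zero hj huw) hβ)
      linear_combination -β * e1 + j * β * μ * e2
    have e1 := key 1 one_ne_zero
    have e2 := key j hj
    rw [map_one] at e1
    rw [h.σj] at e2
    constructor
    · rw [← sub_eq_zero]
      apply mul_left_cancel₀ (mul_ne_zero (mul_ne_zero h2 hj) hμ')
      linear_combination j * e1 + e2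
    · apply mul_left_cancel₀ (mul_ne_zero h2 hj)
      linear_combination e2 - j * e1
  have hb : ∀ u, PK.B u u = 0 → u ≠ 0 → b u = 0 := by
    intro u hu hu0
    obtain ⟨w, -, hw, huw⟩ := Polar.exists_hyperbolic (U := ⊥) (h.sing_iff.2 hu)
      (by simpa using hu0) (by simp [Polar.perp_bot]) 1 one_ne_zero
    rw [h.sing_iff] at hw
    have hwu : PK.B w u = 1 := by rw [h.herm, huw, map_one]
    obtain ⟨e, he, hee⟩ : ∃ e ∈ PK.pp u ⊓ PK.pp w, PK.B e e ≠ 0 := by
      by_contra! hcon
      obtain ⟨e, he, he0⟩ := exists_notMem_of_finrank_lt (U := ⊥) (W := ⊤ ⊓ PK.pp u ⊓ PK.pp w) (by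
        have := Polar.finrank_inf_pp_ge (P := PK) ⊤ u
        have := Polar.finrank_inf_pp_ge (P := PK) (⊤ ⊓ PK.pp u) w
        have := h.three
        rw [finrank_top] at *
        rw [finrank_bot]; omega)
      rw [top_inf_eq] at he
      refine he0 (PK.nondeg' fun x => ?_)
      have := Polar.B_eq_zero_of_forall_isotropic h.neK hcon he
        (y := x - PK.B x w • u - PK.B x u • w) ⟨by simp [hu, hwu], by simp [hw, huw]⟩
      simpa [show PK.B e u = 0 from he.1, show PK.B e w = 0 from he.2] using this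
    have heu : PK.B e u = 0 := he.1
    have hew : PK.B e w = 0 := he.2
    have hσ := Polar.σ_B_self h.εK e
    set v := u + (-(PK.B e e / 2)) • w + e with hv
    have hvv : PK.B v v = 0 := by
      simp only [hv, map_add, map_smul, LinearMap.add_apply, LinearMap.smul_apply, PK.B_smul_right,
        hu, hw, huw, hwu, heu, hew, PK.B_symm heu, PK.B_symm hew, map_neg, map_div₀, hσ, map_ofNat,
        smul_eq_mul]
      field_simp
      ring
    have h3 : PK.B w v = 1 := by simp [hv, hwu, hw, PK.B_symm hew]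
    have h4 : PK.B v u = -(PK.B e e / 2) := by simp [hv, hwu, hu, heu]
    have e1 := (pair u w hu hw (by simp [huw])).2
    have e2 := (pair w v hw hvv (by simp [h3])).2
    have e3 := (pair v u hvv hu (by simp [h4, hee, h2])).2
    simp only [huw, h3, h4, map_one, map_neg, map_div₀, hσ, map_ofNat] at e1 e2 e3
    apply mul_left_cancel₀ hee
    field_simp at e3
    linear_combination (norm := skip) -(1 / 2 : K) * e3 + PK.B e e / 2 * e1 - PK.B e e / 2 * e2
    field_simp
    ring
  obtain ⟨u, -, hu0, hu⟩ := h.wild ⊤ (by have := h.three; rw [finrank_top]; omega)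
  rw [h.sing_iff] at hu
  have ha : ∀ w, PK.B w w = 0 → w ≠ 0 → a w = a u := by
    intro w hw hw0
    by_cases h3 : PK.B u w = 0
    · obtain ⟨y, hy, h4, h5⟩ := Polar.exists_sing_not_perp (h.sing_iff.2 hu) hu0 hw0 h3
      rw [h.sing_iff] at hy
      rw [← (pair y w hy hw h5).1, (pair y u hy hu h4).1]
    · exact (pair u w hu hw h3).1.symm
  let N : Submodule K V :=
    { carrier := {x | ∀ l : K, D (l • x) = (a u * l) • x}
      zero_mem' := fun l => by simp
      add_mem' := fun hx hy l => by rw [smul_add, map_add, hx, hy, smul_add]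
      smul_mem' := fun k x hx l => by rw [smul_smul, hx, smul_smul, mul_assoc] }
  have h3 : N = ⊤ := Polar.eq_top_of_forall_sing h.wild h.three fun x hx l => by
    by_cases hx0 : x = 0
    · simp [hx0]
    rw [h.sing_iff] at hx
    rw [hab x hx, hb x hx hx0, ha x hx hx0]
    simp
  exact ⟨a u, fun x => by simpa using (show x ∈ N by simp [h3]) 1⟩

theorem E_le_or_semi {g : V ≃ₗ[F] V} (hg : g ∈ X) : S.E ≤ X ∨ Semi K g := by
  obtain ⟨n, hn⟩ := h.norm_alg j
  rw [h.σj] at hn
  have hn0 : n ≠ 0 := by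
    rintro rfl
    simp [h.j_ne] at hn
  have hI := h.iso hg
  by_cases hc : ∀ u, PK.B u u = 0 → g (j • u) ∈ K ∙ g u
  · right
    obtain ⟨k, hk⟩ := h.exists_scalar (D := (g.symm : V →ₗ[F] V) ∘ₗ
      (LinearMap.lsmul K V j).restrictScalars F ∘ₗ (g : V →ₗ[F] V)) fun u hu => by
        by_cases hu0 : u = 0
        · simp [hu0]
        obtain ⟨k, hk⟩ := Submodule.mem_span_singleton.1 (hc u hu)
        obtain ⟨s, t, rfl⟩ := h.dec k
        rw [add_smul, algebraMap_smul, smul_assoc] at hk
        have ht : t ≠ 0 := by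
          rintro rfl
          rw [zero_smul, add_zero, ← map_smul, EmbeddingLike.apply_eq_iff_eq,
            ← algebraMap_smul K s] at hk
          have := congrArg θ (smul_left_injective K hu0 hk)
          rw [h.θ_alg, h.θj] at this
          exact zero_ne_one this
        have : j • g u = g (t⁻¹ • (j • u - s • u)) := by
          rw [map_smul, map_sub, ← hk, map_smul, add_sub_cancel_left, smul_smul,
            inv_mul_cancel₀ ht, one_smul]
        simp only [LinearMap.comp_apply, LinearEquiv.coe_coe, LinearMap.restrictScalars_apply,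
          LinearMap.lsmul_apply, this, g.symm_apply_apply]
        rw [← algebraMap_smul K, ← algebraMap_smul K s]
        exact Submodule.smul_mem _ _ (Submodule.sub_mem _
          (Submodule.smul_mem _ _ (Submodule.mem_span_singleton_self _))
          (Submodule.smul_mem _ _ (Submodule.mem_span_singleton_self _)))
    simp only [LinearMap.comp_apply, LinearEquiv.coe_coe, LinearMap.restrictScalars_apply,
      LinearMap.lsmul_apply, LinearEquiv.symm_apply_eq] at hk
    obtain ⟨s, t, rfl⟩ := h.dec k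
    simp only [add_smul, algebraMap_smul, smul_assoc, map_add, map_smul] at hk
    have : Nontrivial V := Module.nontrivial_of_finrank_pos (R := K) (by have := h.three; omega)
    have ht : t ≠ 0 := by
      rintro rfl
      obtain ⟨x, hx⟩ := exists_ne (0 : V)
      have h1 := hk x
      rw [zero_smul, add_zero, ← algebraMap_smul K s] at h1
      have := congrArg θ (smul_left_injective K (by simpa using hx) h1)
      rw [h.θ_alg, h.θj] at this
      exact one_ne_zero this
    intro l
    obtain ⟨α, β, rfl⟩ := h.dec l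
    refine ⟨algebraMap F K α + (β / t) • (j - algebraMap F K s), fun x => ?_⟩
    simp only [add_smul, algebraMap_smul, smul_assoc, map_add, map_smul, sub_smul, hk]
    match_scalars <;> field_simp <;> ring
  · left
    push Not at hc
    obtain ⟨u, hu, hc⟩ := hc
    have hu0 : u ≠ 0 := by rintro rfl; simp at hc
    have h1 : PK.Val 0 j := (UExt.lam_iff h.neK h.εK).2 h.σj
    have h2 := Has.of_mem (h.mem _ (Polar.eichE_mem_Iso (h.sing_iff.2 hu) (w := 0) (by simp) h1))
    have h3 : Has X fun x => x + (-n * S.B x u) • u + (-1 * S.B x (j • u)) • j • u :=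
      h2.congr fun x => by
        obtain ⟨s, t, hst⟩ := h.dec (PK.B x u)
        have e1 : θ (-j * (algebraMap F K s + t • j)) = -s := by
          rw [mul_add, mul_smul_comm, hn, map_add, map_smul, h.θ_alg, mul_comm, h.θ_mul, map_neg,
            h.θj]
          simp
        simp only [LinearEquiv.restrictScalars_apply, Polar.eichE_apply, Polar.eich, h.B,
          PK.B_smul_right, h.σj, hst, e1, map_add, h.θ_alg, map_smul, h.θj, map_zero]
        rw [← algebraMap_smul K (-n * _), ← algebraMap_smul K (-1 * _), Algebra.smul_def t j]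
        simp only [smul_eq_mul, mul_one, zero_add, map_mul, map_neg, ← hn, map_one]
        module
    refine h.E_le_of_plane (a := g u) (b := g (j • u)) (s := -n) (r := -1) (by simpa using hn0)
      (by simp) (by rw [Polar.Iso.B hI, h.B]; simp [hu]) (h3.conj hg fun x => ?_)
      (by simpa using hu0) hc
    simp only [Polar.Iso.B hI, map_add, map_smul]

end Setup

end Cfsg.Agent.H5.USp
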