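import Cfsg.Agent.H5.USp

/-!
`GU_m(q).2` is maximal in `Sp_{2m}(q)` for `q` odd and `m ≥ 3`: the concrete statement.
-/

set_option autoImplicit false
set_option linter.unusedSectionVars false

namespace Cfsg.Agent.H5.USp

open Module Cfsg.Agent.H7 Cfsg.Agent.H3.Ext

variable {F K V : Type*} [Field F] [Field K] [Algebra F K] [AddCommGroup V] [Module F V]
  [Module K V] [IsScalarTower F K V]

theorem exists_polarK [FiniteDimensional K V] [Nontrivial V] (hr : finrank F K = 2)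
    (h2 : (2 : F) ≠ 0) {S : Polar F V} (hε : S.ε = -1) (hσ : ∀ a, S.σ a = a)
    (hadj : ∀ k : K, ∃ k' : K, ∀ x y, S.B (k • x) y = S.B x (k' • y))
    (hn : ¬ ∀ (k : K) x y, S.B (k • x) y = S.B x (k • y)) :
    ∃ (PK : Polar K V) (θ : K →ₗ[F] F) (j : K), PK.ε = 1 ∧
      (∀ a : F, PK.σ (algebraMap F K a) = algebraMap F K a) ∧ PK.σ j = -j ∧ θ j = 1 ∧ θ 1 = 0 ∧
      (∀ k, ∃ a b : F, k = algebraMap F K a + b • j) ∧ ∀ x y, S.B x y = θ (PK.B x y) := by
  have : FiniteDimensional F K := Module.finite_of_finrank_pos (by omega)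
  have hsk : ∀ x y, S.B x y = -S.B y x := fun x y => by rw [S.herm y x, hσ, hε]; ring
  choose s hs using hadj
  have huniq : ∀ a b : K, (∀ x y, S.B x (a • y) = S.B x (b • y)) → a = b := fun a b h => by
    obtain ⟨y, hy⟩ := exists_ne (0 : V)
    refine smul_left_injective K hy (sub_eq_zero.1 (S.nondeg _ fun x => ?_))
    simp only [map_sub, h x y, sub_self]
  let σ : K →+* K :=
    { toFun := s
      map_one' := huniq _ _ fun x y => by rw [← hs, one_smul, one_smul]
      map_mul' := fun a b => huniq _ _ fun x y => by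
        rw [← hs, mul_smul, hs, hs, smul_smul, mul_comm]
      map_zero' := huniq _ _ fun x y => by rw [← hs]; simp
      map_add' := fun a b => huniq _ _ fun x y => by
        rw [← hs, add_smul, add_smul, map_add, map_add, LinearMap.add_apply, hs, hs] }
  have hs' : ∀ k x y, S.B (k • x) y = S.B x (σ k • y) := hs
  have hσσ : ∀ a, σ (σ a) = a := fun a => huniq _ _ fun x y => by
    rw [← hs', hsk, ← hs', ← hsk]
  have hsm : ∀ (a : F) (k : K), σ (a • k) = a • σ k := fun a k => huniq _ _ fun x y => by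
    rw [← hs', smul_assoc, smul_assoc, map_smul, LinearMap.smul_apply, S.B_smul_right, hσ, hs',
      smul_eq_mul]
  obtain ⟨x₀, k₀, hx₀⟩ : ∃ (x₀ : V) (k₀ : K), S.B (k₀ • x₀) x₀ ≠ 0 := by
    by_contra! hcon
    refine hn fun k x y => ?_
    have := hcon (x + y) k
    simp only [smul_add, map_add, LinearMap.add_apply, hcon, hsk (k • y) x] at this
    linear_combination this
  let θ : K →ₗ[F] F := S.B.flip x₀ ∘ₗ (LinearMap.toSpanSingleton K V x₀).restrictScalars F
  have hθ1 : ∀ k, θ k = S.B (k • x₀) x₀ := fun _ => rfl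
  have hθ : θ ≠ 0 := fun e => hx₀ (by simpa [e] using (hθ1 k₀).symm)
  have hθσ : ∀ k, θ (σ k) = -θ k := fun k => by rw [hθ1, hθ1, hsk, ← hs']
  have hinj : ∀ a b : K, (∀ k, θ (k * a) = θ (k * b)) → a = b := fun a b h => by
    by_contra hne
    apply hθ
    ext k
    have := h (k / (a - b))
    rwa [← sub_eq_zero, ← map_sub, ← mul_sub, div_mul_cancel₀ _ (sub_ne_zero.2 hne)] at this
  choose ψ hψ using fun y => exists_dualK (K := K) hθ (S.B.flip y)
  have h1 : ∀ k x y, θ (k * ψ y x) = S.B (k • x) y := fun k x y => by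
    rw [← smul_eq_mul, ← map_smul, hψ]; rfl
  have h3 : ∀ x y, ψ x y = σ (ψ y x) := fun x y => hinj _ _ fun k => by
    rw [h1, ← hσσ k, ← map_mul, hθσ, h1, ← hsk, hσσ, hs']
  have hone : θ 1 = 0 := by
    have := hθσ 1
    rw [map_one] at this
    exact (mul_eq_zero.1 (show 2 * θ 1 = 0 by linear_combination this)).resolve_left h2
  have h4 : θ (k₀ - σ k₀) ≠ 0 := by
    rw [map_sub, hθσ, sub_neg_eq_add, ← two_mul]
    exact mul_ne_zero h2 hx₀
  set j := (θ (k₀ - σ k₀))⁻¹ • (k₀ - σ k₀) with hj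
  have hθj : θ j = 1 := by rw [hj, map_smul, smul_eq_mul, inv_mul_cancel₀ h4]
  have hσj : σ j = -j := by rw [hj, hsm, map_sub σ, hσσ, ← smul_neg, neg_sub]
  refine ⟨UExt.hermPolar σ hσσ ⟨k₀, fun h => h4 (by simp [h])⟩ ψ h3
    fun y hy => S.nondeg y fun x => ?_, θ, j, rfl, fun a => ?_, hσj, hθj, hone, fun k => ?_,
    fun x y => (hψ y x).symm⟩
  · have := hψ y x
    rw [hy x, map_zero] at this
    exact this.symm
  · show σ _ = _
    rw [Algebra.algebraMap_eq_smul_one, hsm, map_one]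
  · have h5 : (F ∙ (1 : K)) = LinearMap.ker θ := by
      refine Submodule.eq_of_le_of_finrank_le (by simpa using hone) ?_
      have := LinearMap.finrank_range_add_finrank_ker θ
      have := Submodule.one_le_finrank_iff.2 (LinearMap.range_eq_bot.not.2 hθ)
      rw [finrank_span_singleton one_ne_zero]
      omega
    obtain ⟨a, ha⟩ := Submodule.mem_span_singleton.1
      (show k - θ k • j ∈ F ∙ (1 : K) by rw [h5]; simp [hθj])
    exact ⟨a, θ k, by rw [Algebra.algebraMap_eq_smul_one, ha, sub_add_cancel]⟩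

open Matrix in
/-- `GU_m(q).2` is maximal in `Sp_{2m}(q)`, `q` odd, `m ≥ 3`. -/
theorem spGL_unitary_maximal {F : Type*} [Field F] [Fintype F] {m : ℕ} (hm : 3 ≤ m)
    (hodd : Odd (Fintype.card F))
    {K : Subalgebra F (Matrix (Fin m ⊕ Fin m) (Fin m ⊕ Fin m) F)}
    (hK : Geo.IsFieldSubalgebra 2 K) (hac : Geo.IsAdjointClosedFor (sympForm m F) K)
    (hnsa : ¬ Geo.IsSelfAdjointFor (sympForm m F) K) :
    Geo.IsMaximalIn (spGL m F) (Geo.subalgebraNormalizer K ⊓ spGL m F) := by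
  have : Nonempty (Fin m ⊕ Fin m) := ⟨.inl ⟨0, by omega⟩⟩
  have h2 := two_ne_zero_of_odd_card hodd
  let _ : Field K := (Asch.isField_of_inv hK.comm hK.inv).toField
  have hd := finrank_mul_finrank F K (Fin m ⊕ Fin m → F)
  rw [hK.finrank_eq, finrank_sum_fun] at hd
  have : FiniteDimensional K (Fin m ⊕ Fin m → F) := Module.finite_of_finrank_pos (by omega)
  obtain ⟨PK, θ, j, h1, h3, h4, h5, h6, h7, hB⟩ := exists_polarK (K := K) hK.finrank_eq h2
    (S := spStd m F) rfl (fun _ => rfl) (fun k => by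
      obtain ⟨k', hk', h⟩ := hac k k.2
      exact ⟨⟨k', hk'⟩, h⟩) fun h => hnsa fun k hk => h ⟨k, hk⟩
  refine isMaximalIn_of inf_le_right ?_ fun X hX hX' g hg hgN => ?_
  · by_contra! hcon
    exact (H8.hasE_spGL hm).not_le_subalgebraNormalizer le_rfl hK fun g hg => (hcon g hg).1
  have S : Setup (spStd m F) PK θ j (X.map toLE.toMonoidHom) :=
    ⟨h2, fun _ _ => trivial, fun _ => rfl, rfl, h1, h3, h4, h5, h6, h7, hB, ?_, fun g hg => ?_,
      by omega⟩
  · rcases S.E_le_or_semi (g := toLE g) ⟨g, hg, rfl⟩ with h | h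
    · intro k hk
      obtain ⟨k', hk', e⟩ := h ((mem_spGL_iff m k).1 hk)
      exact toLE.injective e ▸ hk'
    · exact absurd ⟨(mem_normalizer_iff g).mpr h, hX' hg⟩ hgN
  · rintro _ ⟨g, hg, rfl⟩
    exact (mem_spGL_iff_Iso m g).1 (hX' hg)
  · obtain ⟨k, hk⟩ := toLE.surjective (g.restrictScalars F)
    refine ⟨k, hX ⟨(mem_normalizer_iff k).mpr fun l => ⟨l, fun x => by
      rw [hk]; exact g.map_smul l x⟩, (mem_spGL_iff_Iso m k).2 ?_⟩, hk⟩
    rw [hk]
    refine ⟨fun x y => ?_, fun _ _ _ => trivial⟩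
    rw [hB, hB]; exact congrArg θ (Polar.Iso.B hg x y)

end Cfsg.Agent.H5.USp
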